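import Cfsg.Agent.Lib.Known.BNSt
import Cfsg.Agent.Lib.BN.Count

set_option autoImplicit false
set_option linter.unusedVariables false

/-! Elements commuting with a zero of the Steinberg function: a congruence argument. -/

namespace Cfsg.Agent.Lib.Known.BNStFix

open Cfsg Cfsg.Agent.Lib.BN MulAction Cfsg.Agent.Lib.Known.BNSt

variable {G : Type*} [Group G] [Finite G]

/-- If `b` of prime order `r` commutes with `a` and `r` does not divide `|H|`, then `r` divides
the number of fixed points of `a` on the cosets of `H`. -/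
theorem dvd_card_fixedBy {H : Subgroup G} {a b : G} (hab : Commute a b) {r : ℕ} (hr : r.Prime)
    (hb : orderOf b = r) (hH : ¬ r ∣ Nat.card H) : r ∣ Nat.card (fixedBy (G ⧸ H) a) := by
  classical
  haveI : Fact r.Prime := ⟨hr⟩
  letI : Fintype (fixedBy (G ⧸ H) a) := Fintype.ofFinite _
  let f : Function.End (fixedBy (G ⧸ H) a) := fun x => ⟨b • x.1, by
    have hx : a • x.1 = x.1 := x.2
    show a • b • x.1 = b • x.1
    rw [smul_smul, hab.eq, ← smul_smul, hx]⟩
  have hk : ∀ (k : ℕ) (x : fixedBy (G ⧸ H) a), ((f ^ k) x).1 = (b ^ k) • x.1 := by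
    intro k x
    induction k with
    | zero =>
      rw [pow_zero, pow_zero, one_smul]
      rfl
    | succ k ih =>
      rw [pow_succ', pow_succ']
      show b • ((f ^ k) x).1 = _
      rw [ih, smul_smul]
  have hf : f ^ r ^ 1 = 1 := by
    funext x
    apply Subtype.ext
    rw [pow_one, hk, ← hb, pow_orderOf_eq_one, one_smul]
    rfl
  have h1 := Equiv.Perm.card_fixedPoints_modEq hf
  have h2 : IsEmpty f.fixedPoints := by
    constructor
    rintro ⟨x, hx⟩
    have h3 : b • x.1 = x.1 := congrArg Subtype.val hx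
    obtain ⟨g, hg⟩ := QuotientGroup.mk_surjective x.1
    rw [← hg] at h3
    have h4 : g⁻¹ * (b * g) ∈ H := by
      have : ((b * g : G) : G ⧸ H) = (g : G ⧸ H) := h3
      exact QuotientGroup.eq.mp this.symm
    apply hH
    have h5 : orderOf (⟨g⁻¹ * (b * g), h4⟩ : H) = r := by
      rw [Subgroup.orderOf_mk, ← mul_assoc, ← hb]
      have := MulEquiv.orderOf_eq (MulAut.conj g⁻¹) b
      simpa [MulAut.conj_apply] using this
    rw [← h5]
    exact orderOf_dvd_natCard _
  haveI := h2
  rw [Fintype.card_eq_zero (α := f.fixedPoints)] at h1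
  rw [Nat.card_eq_fintype_card]
  exact (Nat.modEq_zero_iff_dvd).mp h1

variable {P : BNPair G} {ι : Type*} [DecidableEq ι] {I : Finset ι} {σ : ι → G}

/-- If `b` of prime order `r` commutes with `a` and `r` does not divide the order of any proper
parabolic subgroup, then the Steinberg function does not vanish at `a`. -/
theorem St_ne_zero_of_commute (hL : Lab P I σ) {a b : G} (hab : Commute a b) {r : ℕ} (hr : r.Prime)
    (hb : orderOf b = r) (hP : ∀ J, J ⊆ I → J ≠ I → ¬ r ∣ Nat.card (P.parabolic (JS σ J))) :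
    St P I σ a ≠ 0 := by
  classical
  intro h0
  have e : (∑ J ∈ I.powerset, (-1 : ℤ) ^ J.card * (Nat.card (fixedBy (G ⧸ P.parabolic (JS σ J)) a) : ℤ)) = 0 := by
    have : ((∑ J ∈ I.powerset, (-1 : ℤ) ^ J.card * (Nat.card (fixedBy (G ⧸ P.parabolic (JS σ J)) a) : ℤ) : ℤ) : ℂ) = 0 := by
      rw [← h0, St]
      push_cast
      rfl
    exact_mod_cast this
  rw [← Finset.add_sum_erase _ _ (Finset.mem_powerset_self I)] at e
  have h1 : (r : ℤ) ∣ ∑ J ∈ I.powerset.erase I,
      (-1 : ℤ) ^ J.card * (Nat.card (fixedBy (G ⧸ P.parabolic (JS σ J)) a) : ℤ) := by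
    apply Finset.dvd_sum
    intro J hJ
    have hJ1 := Finset.mem_powerset.mp (Finset.mem_of_mem_erase hJ)
    have hJ2 := Finset.ne_of_mem_erase hJ
    apply Dvd.dvd.mul_left
    exact_mod_cast dvd_card_fixedBy hab hr hb (hP J hJ1 hJ2)
  have hk : P.parabolic (JS σ I) = ⊤ := by
    rw [JS, hL.image]
    exact parabolic_S
  have hI : Nat.card (fixedBy (G ⧸ P.parabolic (JS σ I)) a) = 1 := by
    rw [hk, Nat.card_eq_one_iff_unique]
    haveI : Subsingleton (G ⧸ (⊤ : Subgroup G)) := QuotientGroup.subsingleton_quotient_top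
    refine ⟨inferInstance, ⟨⟨(1 : G), Subsingleton.elim _ _⟩⟩⟩
  rw [hI] at e
  have h2 : (r : ℤ) ∣ (-1 : ℤ) ^ I.card * ((1 : ℕ) : ℤ) := by
    have : (-1 : ℤ) ^ I.card * ((1 : ℕ) : ℤ) = - ∑ J ∈ I.powerset.erase I,
      (-1 : ℤ) ^ J.card * (Nat.card (fixedBy (G ⧸ P.parabolic (JS σ J)) a) : ℤ) := by linarith
    rw [this]
    exact (dvd_neg).mpr h1
  have h3 : IsUnit ((-1 : ℤ) ^ I.card * ((1 : ℕ) : ℤ)) := by
    simpa using (isUnit_one.neg.pow I.card)
  have h4 : IsUnit (r : ℤ) := isUnit_of_dvd_unit h2 h3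
  have h5 : r = 1 := by
    have := Int.isUnit_iff.mp h4
    omega
  exact hr.one_lt.ne' h5

/-- The order of a minimal parabolic subgroup. -/
theorem card_parabolic_single {s : G} (hs : s ∈ P.S) {T : Finset G} (hT : Transversal P s T) :
    Nat.card (P.parabolic {s}) = Nat.card P.B * (1 + T.card) := by
  classical
  have hJ : ({s} : Set G) ⊆ P.S := by simpa using hs
  have hsP : s ∈ P.parabolic {s} := subset_parabolic rfl
  have hB := B_le_parabolic (P := P) ({s} : Set G)
  have hss : s * s ∈ P.B := P.sq_mem s hs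
  have hsB := S_not_mem_B hs
  -- elements of the closure
  have hcl : ∀ n ∈ Subgroup.closure ({s} : Set G), n ∈ P.B ∨ s⁻¹ * n ∈ P.B := by
    intro n hn
    induction hn using Subgroup.closure_induction_left with
    | one => left; exact P.B.one_mem
    | mul_left x hx y _ ih =>
      rcases hx with rfl
      rcases ih with h | h
      · right
        simpa using h
      · left
        have e : x * y = (x * x) * (x⁻¹ * y) := by group
        rw [e]
        exact P.B.mul_mem hss h
    | inv_mul_cancel x hx y _ ih =>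
      rcases hx with rfl
      rcases ih with h | h
      · right
        have e : x⁻¹ * (x⁻¹ * y) = (x * x)⁻¹ * y := by group
        rw [e]
        exact P.B.mul_mem (P.B.inv_mem hss) h
      · left
        exact h
  let φ : ↥P.B ⊕ (↥T × ↥P.B) → ↥(P.parabolic {s}) := fun x => match x with
    | Sum.inl b => ⟨b, hB b.2⟩
    | Sum.inr (t, b) => ⟨t * s * b, (P.parabolic {s}).mul_mem ((P.parabolic {s}).mul_mem (hB (hT.sub t t.2)) hsP) (hB b.2)⟩
  have hφ : Function.Bijective φ := by
    constructor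
    · rintro (b | ⟨t, b⟩) (b' | ⟨t', b'⟩) h
      · have := congrArg Subtype.val h
        exact congrArg Sum.inl (Subtype.ext this)
      · exfalso
        have h1 : (b : G) = t' * s * b' := congrArg Subtype.val h
        apply hsB
        have e : s = (t' : G)⁻¹ * b * (b' : G)⁻¹ := by rw [h1]; group
        rw [e]
        exact P.B.mul_mem (P.B.mul_mem (P.B.inv_mem (hT.sub t' t'.2)) b.2) (P.B.inv_mem b'.2)
      · exfalso
        have h1 : (t : G) * s * b = b' := congrArg Subtype.val h
        apply hsB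
        have e : s = (t : G)⁻¹ * b' * (b : G)⁻¹ := by rw [← h1]; group
        rw [e]
        exact P.B.mul_mem (P.B.mul_mem (P.B.inv_mem (hT.sub t t.2)) b'.2) (P.B.inv_mem b.2)
      · have h1 : (t : G) * s * b = t' * s * b' := congrArg Subtype.val h
        have e : s⁻¹ * ((t' : G)⁻¹ * t) * s = (b' : G) * (b : G)⁻¹ := by
          have : (t' : G)⁻¹ * t = s * b' * (b : G)⁻¹ * s⁻¹ := by
            calc (t' : G)⁻¹ * t = (t' : G)⁻¹ * ((t : G) * s * b) * (b : G)⁻¹ * s⁻¹ := by group
              _ = (t' : G)⁻¹ * ((t' : G) * s * b') * (b : G)⁻¹ * s⁻¹ := by rw [h1]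
              _ = _ := by group
          rw [this]
          group
        have h2 := hT.inj t t.2 t' t'.2 (by rw [e]; exact P.B.mul_mem b'.2 (P.B.inv_mem b.2))
        have h3 : t = t' := Subtype.ext h2
        subst h3
        have h4 : b = b' := Subtype.ext (mul_left_cancel h1)
        subst h4
        rfl
    · rintro ⟨x, hx⟩
      obtain ⟨n, hn, b₁, h₁, b₂, h₂, rfl⟩ := (mem_parabolic_iff hJ x).mp hx
      rcases hcl n hn with h | h
      · refine ⟨Sum.inl ⟨b₁ * n * b₂, P.B.mul_mem (P.B.mul_mem h₁ h) h₂⟩, rfl⟩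
      · obtain ⟨t, ht, b', hb', e⟩ := hT.cover b₁ h₁
        refine ⟨Sum.inr (⟨t, ht⟩, ⟨b' * (s⁻¹ * n) * b₂, P.B.mul_mem (P.B.mul_mem hb' h) h₂⟩), Subtype.ext ?_⟩
        show t * s * (b' * (s⁻¹ * n) * b₂) = b₁ * n * b₂
        rw [e]
        group
  rw [← Nat.card_congr (Equiv.ofBijective φ hφ), Nat.card_sum, Nat.card_prod, Nat.card_eq_fintype_card (α := ↥T), Fintype.card_coe]
  ring

theorem parabolic_empty : P.parabolic ∅ = P.B := by
  apply le_antisymm
  · refine sup_le le_rfl ?_
    simp
  · exact B_le_parabolic _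

end Cfsg.Agent.Lib.Known.BNStFix
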