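import Cfsg.Agent.Lib.Known.BNSt
import Cfsg.Agent.Lib.Chev.All3
import Cfsg.Agent.Lib.Chev.Order
import Cfsg.Agent.Lib.Chev.TorusCard
import Cfsg.Agent.Lib.Chev.Long
import Cfsg.Agent.Lib.Char.DefectZero
import Cfsg.Prelude.Def_ParabolicCharacters

set_option autoImplicit false
set_option linter.unusedVariables false
set_option linter.unusedSectionVars false

/-! The Steinberg character of a Chevalley group. -/

namespace Cfsg.Agent.Lib.Known.ChevSt

open Cfsg Cfsg.Lie Cfsg.Agent.Lib.Chev Cfsg.Agent.Lib.BN Cfsg.Agent.Lib.Known.BNSt MulAction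

variable {D : ChevalleyDatum} {F : Type*} [Field F]

/-- The labelling of the distinguished generators. -/
noncomputable def lab (G : Good2 D) (F : Type*) [Field F] (i : ℕ) : ↥(D.group F) :=
  if h : i < D.rank then G.nGG F ⟨i, h⟩ else 1

theorem lab_of_lt (G : Good2 D) {i : ℕ} (h : i < D.rank) : lab G F i = G.nGG F ⟨i, h⟩ := dif_pos h

theorem lab_Lab (G : Good2 D) : Lab (G.bnPair F) (Finset.range D.rank) (lab G F) := by
  constructor
  · ext n
    constructor
    · rintro ⟨i, hi, rfl⟩
      have hi' : i < D.rank := Finset.mem_range.mp hi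
      rw [lab_of_lt G hi']
      exact G.nGG_mem_S _
    · rintro ⟨i, hi, h⟩
      refine ⟨i, Finset.mem_coe.mpr (Finset.mem_range.mpr hi), ?_⟩
      rw [lab_of_lt G hi]
      exact Subtype.ext (G.S_form hi h).symm
  · intro i hi j hj e
    have hi' : i < D.rank := Finset.mem_range.mp hi
    have hj' : j < D.rank := Finset.mem_range.mp hj
    rw [lab_of_lt G hi', lab_of_lt G hj'] at e
    have e1 : (G.nG ⟨i, hi'⟩ : GL D.Idx F) = G.nG ⟨j, hj'⟩ := congrArg Subtype.val e
    have h1 := G.nG_isMono (F := F) ⟨i, hi'⟩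
    have h2 := G.nG_isMono (F := F) ⟨j, hj'⟩
    rw [← e1] at h2
    have h3 := G.Wp_inj (h1.uniq h2)
    exact congrArg Fin.val h3

theorem parabolicIn_eq (G : Good2 D) {J : Finset ℕ} (hJ : J ⊆ Finset.range D.rank) :
    D.parabolicIn F J = (G.bnPair F).parabolic (JS (lab G F) J) := by
  apply le_antisymm
  · intro x hx
    have hx1 : (x : GL D.Idx F) ∈ D.parabolicSubgroup F (↑J : Set ℕ) := hx
    have hle : D.parabolicSubgroup F (↑J : Set ℕ) ≤
        ((G.bnPair F).parabolic (JS (lab G F) J)).map (D.group F).subtype := by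
      refine sup_le ?_ ?_
      · intro b hb
        refine ⟨⟨b, G.B_le_group hb⟩, ?_, rfl⟩
        exact B_le_parabolic _ hb
      · rw [Subgroup.closure_le]
        rintro g ⟨j, hj, hj', e⟩
        refine ⟨lab G F j, ?_, ?_⟩
        · exact subset_parabolic ⟨j, hj, rfl⟩
        · rw [lab_of_lt G hj']
          exact (G.S_form hj' e).symm
    obtain ⟨y, hy, e⟩ := hle hx1
    have : y = x := Subtype.ext e
    rw [← this]
    exact hy
  · refine sup_le ?_ ?_
    · intro b hb
      change (b : GL D.Idx F) ∈ D.parabolicSubgroup F (↑J : Set ℕ)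
      exact (le_sup_left : D.borelSubgroup F ≤ D.parabolicSubgroup F (↑J : Set ℕ)) hb
    · rw [Subgroup.closure_le]
      rintro _ ⟨j, hj, rfl⟩
      have hj' : j < D.rank := Finset.mem_range.mp (hJ hj)
      change ((lab G F j : ↥(D.group F)) : GL D.Idx F) ∈ D.parabolicSubgroup F (↑J : Set ℕ)
      apply (le_sup_right : _ ≤ D.parabolicSubgroup F (↑J : Set ℕ))
      apply Subgroup.subset_closure
      refine ⟨j, hj, hj', ?_⟩
      rw [lab_of_lt G hj']
      rfl

theorem steinberg_eq (G : Good2 D) :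
    D.steinbergCharacter F = St (G.bnPair F) (Finset.range D.rank) (lab G F) := by
  funext g
  unfold ChevalleyDatum.steinbergCharacter St
  apply Finset.sum_congr rfl
  intro J hJ
  unfold fixedPointCharacter
  rw [parabolicIn_eq G (Finset.mem_powerset.mp hJ)]

theorem card_filter_ge (n m : ℕ) (h : m ≤ n) :
    (Finset.univ.filter fun s : Fin n => m ≤ s.val).card = n - m := by
  have h1 : (Finset.univ.filter fun s : Fin n => m ≤ s.val).image Fin.val = Finset.Ico m n := by
    ext x
    simp only [Finset.mem_image, Finset.mem_filter, Finset.mem_univ, true_and, Finset.mem_Ico]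
    constructor
    · rintro ⟨s, hs, rfl⟩
      exact ⟨hs, s.isLt⟩
    · rintro ⟨h2, h3⟩
      exact ⟨⟨x, h3⟩, h2, rfl⟩
  have h2 := congrArg Finset.card h1
  rw [Finset.card_image_of_injective _ Fin.val_injective, Nat.card_Ico] at h2
  exact h2

section Top

variable (G : Good3 D)

theorem n0_mem_group : (G.n0 : GL D.Idx F) ∈ D.group F := by
  have := G.n0_mem (F := F)
  rw [← G.toGood2.monomial_eq] at this
  exact G.toGood2.N_le_group this

/-- The longest element, in the group. -/
noncomputable def n0G (G : Good3 D) (F : Type*) [Field F] : ↥(D.group F) := ⟨G.n0, n0_mem_group G⟩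

theorem n0G_mem : n0G G F ∈ (G.toGood2.bnPair F).N := by
  change (G.n0 : GL D.Idx F) ∈ D.monomialSubgroup F
  rw [G.toGood2.monomial_eq]
  exact G.n0_mem

theorem len_le_NN {n : ↥(D.group F)} (hn : n ∈ (G.toGood2.bnPair F).N) :
    len (G.toGood2.bnPair F) n ≤ Good2.NN D := by
  have hn0 : (n : GL D.Idx F) ∈ G.toGood2.N0 F := by
    have : (n : GL D.Idx F) ∈ D.monomialSubgroup F := hn
    rwa [G.toGood2.monomial_eq] at this
  obtain ⟨l, hl⟩ := G.toGood2.N0_exists_perm hn0
  rw [G.toGood2.len_eq hn hl]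
  have h1 := G.toGood2.NN_add
  unfold Good2.lenN
  calc _ ≤ (Finset.univ.filter fun s : Fin D.nroots => Good2.NN D ≤ s.val).card := by
        apply Finset.card_le_card
        intro s hs
        simp only [Finset.mem_filter, Finset.mem_univ, true_and] at hs ⊢
        exact hs.1
    _ = _ := by
        rw [card_filter_ge _ _ (by omega)]
        omega

theorem len_n0 : len (G.toGood2.bnPair F) (n0G G F) = Good2.NN D := by
  rw [G.toGood2.len_eq (n0G_mem G) (G.n0_mono (F := F))]
  have h1 := G.toGood2.NN_add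
  unfold Good2.lenN
  have h2 : (Finset.univ.filter fun s : Fin D.nroots => Good2.NN D ≤ s.val ∧
      ¬ Good2.NN D ≤ ((G.toGood2.pp G.w0F) s).val) = Finset.univ.filter fun s : Fin D.nroots => Good2.NN D ≤ s.val := by
    apply Finset.filter_congr
    intro s _
    constructor
    · exact fun h => h.1
    · intro h
      refine ⟨h, ?_⟩
      have := G.w0_neg s h
      omega
  rw [h2, card_filter_ge _ _ (by omega)]
  omega

theorem n0_top : Top (G.toGood2.bnPair F) (n0G G F) := by
  intro s hs
  have h1 := len_le_NN G ((G.toGood2.bnPair F).N.mul_mem (n0G_mem G) (S_mem_N hs))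
  have h2 := len_mul_S_ne hs (n0G_mem (F := F) G)
  rw [len_n0] at h2 ⊢
  omega

theorem mem_topStab_iff {t : ↥(G.toGood2.bnPair F).B} :
    t ∈ topStab (G.toGood2.bnPair F) (n0G G F) ↔ ((t : ↥(D.group F)) : GL D.Idx F) ∈ D.diagonalSubgroup F := by
  rw [mem_topStab]
  have e : (((n0G G F)⁻¹ * (t : ↥(D.group F)) * n0G G F : ↥(D.group F)) : GL D.Idx F) =
      (G.n0 : GL D.Idx F)⁻¹ * ((t : ↥(D.group F)) : GL D.Idx F) * G.n0 := rfl
  have hB : ((t : ↥(D.group F)) : GL D.Idx F) ∈ D.borelSubgroup F := t.2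
  constructor
  · intro h
    have h4 : (G.n0 : GL D.Idx F)⁻¹ * ((t : ↥(D.group F)) : GL D.Idx F) * G.n0 ∈ D.borelSubgroup F := h
    obtain ⟨u, hu, k, hk, e1⟩ := G.toGood2.B_form.mp h4
    have h5 : ((t : ↥(D.group F)) : GL D.Idx F) = (G.n0 * u * G.n0⁻¹) * (G.n0 * k * G.n0⁻¹) := by
      have : ((t : ↥(D.group F)) : GL D.Idx F) =
          G.n0 * ((G.n0 : GL D.Idx F)⁻¹ * ((t : ↥(D.group F)) : GL D.Idx F) * G.n0) * G.n0⁻¹ := by group
      rw [this, e1]
      group
    have h6 : (G.n0 * u * G.n0⁻¹ : GL D.Idx F) ∈ D.negUnipotent F := by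
      rw [← G.n0_conj]
      exact ⟨u, hu, rfl⟩
    have h7 : (G.n0 * k * G.n0⁻¹ : GL D.Idx F) ∈ D.diagonalSubgroup F := G.toGood2.N0_conj_H G.n0_mem hk
    have h8 : ((t : ↥(D.group F)) : GL D.Idx F) ∈ D.borelSubgroup F ⊓ (D.negUnipotent F ⊔ D.diagonalSubgroup F) := by
      refine ⟨hB, ?_⟩
      rw [h5]
      exact Subgroup.mul_mem _ (Subgroup.mem_sup_left h6) (Subgroup.mem_sup_right h7)
    rwa [G.toGood2.B_inf_VH] at h8
  · intro h
    change (G.n0 : GL D.Idx F)⁻¹ * ((t : ↥(D.group F)) : GL D.Idx F) * G.n0 ∈ D.borelSubgroup F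
    have h1 := G.toGood2.N0_conj_H (Subgroup.inv_mem _ (G.n0_mem (F := F))) h
    rw [inv_inv] at h1
    exact G.toGood2.H_le_B h1

theorem topStab_eq : topStab (G.toGood2.bnPair F) (n0G G F) =
    ((D.diagonalSubgroup F).subgroupOf (D.group F)).subgroupOf ((D.borelSubgroup F).subgroupOf (D.group F)) := by
  ext t
  rw [mem_topStab_iff]
  rfl

variable [Fintype F]
include G

theorem card_quot_T :
    Nat.card (↥(G.toGood2.bnPair F).B ⧸ topStab (G.toGood2.bnPair F) (n0G G F)) = Fintype.card F ^ (D.nroots / 2) := by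
  have h1 := Subgroup.card_eq_card_quotient_mul_card_subgroup (topStab (G.toGood2.bnPair F) (n0G G F))
  have h2 : Nat.card ↥(G.toGood2.bnPair F).B = Nat.card (D.borelSubgroup F) :=
    Nat.card_congr (Subgroup.subgroupOfEquivOfLe G.toGood2.B_le_group).toEquiv
  have h3 : Nat.card ↥(topStab (G.toGood2.bnPair F) (n0G G F)) = Nat.card (D.diagonalSubgroup F) := by
    apply Nat.card_congr
    refine ⟨fun t => ⟨(((t : ↥(G.toGood2.bnPair F).B) : ↥(D.group F)) : GL D.Idx F), (mem_topStab_iff G).mp t.2⟩,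
      fun h => ⟨⟨⟨h.1, G.toGood2.H_le_group h.2⟩, G.toGood2.H_le_B h.2⟩, (mem_topStab_iff G).mpr h.2⟩,
      fun t => rfl, fun h => rfl⟩
  rw [h2, h3, G.toGood2.card_B_aux, G.toGood2.card_U] at h1
  have h4 : 0 < Nat.card (D.diagonalSubgroup F) := Nat.card_pos
  exact (Nat.eq_of_mul_eq_mul_right h4 h1).symm

/-- **The degree of the Steinberg character.** -/
theorem steinberg_one : D.steinbergCharacter F 1 = (Fintype.card F : ℂ) ^ (D.nroots / 2) := by
  rw [steinberg_eq G.toGood2, St_one (lab_Lab G.toGood2) (n0G_mem G) (n0_top G), card_quot_T]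
  push_cast
  rfl

/-- **The restriction of the Steinberg character to `B`.** -/
theorem steinberg_of_borel (b : ↥((D.borelSubgroup F).subgroupOf (D.group F))) :
    D.steinbergCharacter F (((D.borelSubgroup F).subgroupOf (D.group F)).subtype b) =
      Cfsg.fixedPointCharacter (((D.diagonalSubgroup F).subgroupOf (D.group F)).subgroupOf
        ((D.borelSubgroup F).subgroupOf (D.group F))) b := by
  rw [steinberg_eq G.toGood2]
  have h := St_of_mem_B_eq (lab_Lab G.toGood2 (F := F)) (n0G_mem G) (n0_top G) b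
  rw [topStab_eq] at h
  exact h

/-- **The Steinberg character is irreducible.** -/
theorem steinberg_irr : IsIrrCharacter ↥(D.group F) (D.steinbergCharacter F) := by
  letI : Fintype ↥(D.group F) := Fintype.ofFinite _
  rw [steinberg_eq G.toGood2]
  exact St_irr (lab_Lab G.toGood2)

omit G in
/-- `q^N` is the full power of the characteristic in the group order. -/
theorem pow_eq_factorization (G : Good2 D) (p : ℕ) [Fact p.Prime] [CharP F p] :
    Fintype.card F ^ (D.nroots / 2) = p ^ (Nat.card ↥(D.group F)).factorization p := by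
  classical
  obtain ⟨k, hp, hk⟩ := FiniteField.card F p
  set q := Fintype.card F with hq
  have hpq : p ∣ q := by
    rw [hk]
    exact dvd_pow_self p k.pos.ne'
  -- the sum is prime to p
  have hsum : ¬ p ∣ G.SumJ (List.range D.rank) q := by
    unfold Cfsg.Agent.Lib.Chev.Good2.SumJ
    have h1 : (1 : Equiv.Perm (Fin D.nroots)) ∈ Finset.univ.filter (fun w => w ∈ G.WJ (List.range D.rank)) := by
      simp [Subgroup.one_mem]
    rw [← Finset.add_sum_erase _ _ h1, Cfsg.Agent.Lib.Chev.Good2.lenN_one G, pow_zero]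
    intro hdvd
    have h2 : p ∣ ∑ w ∈ (Finset.univ.filter (fun w => w ∈ G.WJ (List.range D.rank))).erase 1,
        q ^ Cfsg.Agent.Lib.Chev.Good2.lenN D w := by
      apply Finset.dvd_sum
      intro w hw
      rw [Finset.mem_erase, Finset.mem_filter] at hw
      obtain ⟨hw1, -, hw2⟩ := hw
      have hw3 : w ∈ G.WP := by
        rw [← G.WJ_all]
        exact hw2
      obtain ⟨l, rfl⟩ := G.mem_WP_iff.mp hw3
      have h3 : Cfsg.Agent.Lib.Chev.Good2.lenN D (G.pp l) ≠ 0 := by
        intro h0
        obtain ⟨l', -, h5, h6⟩ := G.exists_word_lenN (fun _ => True) l (fun _ _ => trivial)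
        rw [h0] at h6
        have := List.eq_nil_of_length_eq_zero h6
        subst this
        apply hw1
        rw [← h5]
        rfl
      exact hpq.trans (dvd_pow_self q h3)
    have h4 := (Nat.dvd_add_left h2).mp hdvd
    exact hp.one_lt.ne' (Nat.dvd_one.mp h4)
  -- the torus is prime to p
  have hH : ¬ p ∣ Nat.card (D.diagonalSubgroup F) := by
    have h1 : Nat.card (D.diagonalSubgroup F) ∣ Nat.card (Fin D.rank → Fˣ) := by
      rw [← G.torusHom_range]
      exact Subgroup.card_dvd_of_surjective G.torusHom.rangeRestrict G.torusHom.rangeRestrict_surjective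
    have h2 : Nat.card (Fin D.rank → Fˣ) = (q - 1) ^ D.rank := by
      rw [Nat.card_eq_fintype_card, Fintype.card_fun, Fintype.card_units, Fintype.card_fin]
    rw [h2] at h1
    intro h3
    have h4 := hp.dvd_of_dvd_pow (h3.trans h1)
    have h5 : 1 ≤ q := Fintype.card_pos
    have h6 := (Nat.dvd_sub hpq h4)
    have h7 : q - (q - 1) = 1 := by omega
    rw [h7] at h6
    exact hp.one_lt.ne' (Nat.dvd_one.mp h6)
  have hcard := G.card_group (F := F) hq
  have h0 : G.SumJ (List.range D.rank) q ≠ 0 := fun h => hsum (h ▸ dvd_zero p)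
  have h00 : Nat.card (D.diagonalSubgroup F) ≠ 0 := fun h => hH (h ▸ dvd_zero p)
  have hq0 : q ≠ 0 := Fintype.card_ne_zero
  have h1 : (Nat.card ↥(D.group F)).factorization p = k * (D.nroots / 2) := by
    have e : Cfsg.Agent.Lib.Chev.Good2.NN D = D.nroots / 2 := rfl
    rw [hcard, e, Nat.factorization_mul h0 (mul_ne_zero (pow_ne_zero _ hq0) h00),
      Nat.factorization_mul (pow_ne_zero _ hq0) h00]
    simp only [Finsupp.coe_add, Pi.add_apply]
    rw [Nat.factorization_eq_zero_of_not_dvd hsum, Nat.factorization_eq_zero_of_not_dvd hH, hk,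
      Nat.factorization_pow, Nat.factorization_pow, hp.factorization]
    simp [mul_comm]
  rw [h1, hk, pow_mul]

/-- **The Steinberg character vanishes on `p`-singular elements.** -/
theorem steinberg_vanish (p : ℕ) [Fact p.Prime] [CharP F p] (g : ↥(D.group F)) (hg : p ∣ orderOf g) :
    D.steinbergCharacter F g = 0 := by
  letI : Fintype ↥(D.group F) := Fintype.ofFinite _
  apply Cfsg.Agent.Lib.Char.apply_eq_zero_of_defect_zero (steinberg_irr G) (Fact.out) _ hg
  rw [← pow_eq_factorization G.toGood2 p]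
  have h1 := Cfsg.Agent.Lib.Char.apply_one_eq_charDegree (Cfsg.Agent.Lib.Char.IsIrrCharacter.isCharacter (steinberg_irr G (F := F)))
  rw [steinberg_one G] at h1
  have h2 : Cfsg.charDegree (D.steinbergCharacter F) = Fintype.card F ^ (D.nroots / 2) := by
    exact_mod_cast h1.symm
  rw [h2]

end Top

end Cfsg.Agent.Lib.Known.ChevSt
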