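import Cfsg.Agent.Lib.Known.BNUnip
import Cfsg.Agent.Lib.Known.ChevSt
import Cfsg.Agent.Lib.Chev.Levi
import Cfsg.Agent.Lib.Chev.BruhatNF

set_option autoImplicit false
set_option linter.unusedVariables false
set_option linter.unusedSectionVars false

/-! Steinberg's count of the `p`-elements of a Chevalley group. -/

namespace Cfsg.Agent.Lib.Known.BNSt

open Cfsg Cfsg.Agent.Lib.BN

variable {G : Type*} [Group G] {P : BNPair G} {J : Set G}

theorem top_rel_le (hJ : J ⊆ P.S) {a b : G} (ha : a ∈ WJ P J) (hb : b ∈ WJ P J) (hta : TopIn P J a) :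
    len P b ≤ len P a := by
  obtain ⟨l, hl, hr, hlen⟩ := exists_reduced_of_closure hJ hb
  obtain ⟨U, hU1, hU, hUlen⟩ := top_word_rel hJ ha hta l hl (by
    rw [hlen]
    exact (len_congr (word_prod_mem_N hr.1) hr.2 (WJ_le_N hJ hb)).symm)
  simp only [List.length_append] at hUlen
  omega

theorem topIn_inv (hJ : J ⊆ P.S) {n : G} (hn : n ∈ WJ P J) (h : TopIn P J n) : TopIn P J n⁻¹ := by
  intro s hs
  have hnN := WJ_le_N hJ hn
  have hsW := subset_WJ (P := P) hs
  have h1 := top_rel_le hJ hn (Subgroup.mul_mem _ (Subgroup.inv_mem _ hsW) hn) h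
  have e : (s⁻¹ * n)⁻¹ = n⁻¹ * s := by group
  have h2 : len P (s⁻¹ * n) = len P (n⁻¹ * s) := by
    rw [← e]
    exact (len_inv (WJ_le_N hJ (Subgroup.mul_mem _ (Subgroup.inv_mem _ hsW) hn))).symm
  have h3 := len_mul_S_ne (hJ hs) (P.N.inv_mem hnN)
  have h4 : len P n⁻¹ = len P n := len_inv hnN
  omega

end Cfsg.Agent.Lib.Known.BNSt

namespace Cfsg.Agent.Lib.Known.ChevSt

open Cfsg Cfsg.Lie Cfsg.Agent.Lib.Chev Cfsg.Agent.Lib.BN Cfsg.Agent.Lib.Known.BNSt

variable {D : ChevalleyDatum} {F : Type*} [Field F]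

section Crit

variable (G : Good2 D)

theorem N_to_N0 {x : ↥(D.group F)} (hx : x ∈ (G.bnPair F).N) : (x : GL D.Idx F) ∈ G.N0 F := by
  have : (x : GL D.Idx F) ∈ D.monomialSubgroup F := hx
  rwa [G.monomial_eq] at this

theorem mono_inv {n : GL D.Idx F} (hn : n ∈ G.N0 F) {w : Equiv.Perm (Fin D.nroots)}
    (hw : IsMono D w (n : Matrix D.Idx D.Idx F)) : IsMono D w⁻¹ ((n⁻¹ : GL D.Idx F) : Matrix D.Idx D.Idx F) := by
  obtain ⟨w', hw', hw''⟩ := G.N0_le_mono hn
  have hww := hw.uniq hw'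
  subst hww
  exact hw''

theorem crit {x : ↥(D.group F)} (hx : x ∈ (G.bnPair F).N) {w : Equiv.Perm (Fin D.nroots)}
    (hw : IsMono D w ((x : GL D.Idx F) : Matrix D.Idx D.Idx F)) (i : Fin D.rank) :
    len (G.bnPair F) (x * G.nGG F i) < len (G.bnPair F) x ↔ (w (G.ps i)).val < Good2.NN D := by
  have hx0 := N_to_N0 G hx
  have hW := mono_inv G hx0 hw
  have hs : G.nGG F i ∈ (G.bnPair F).N := (G.bnPair F).subset (G.nGG_mem_S i)
  have hs0 := N_to_N0 G hs
  have hsW : IsMono D (G.Wp i) (((G.nGG F i : GL D.Idx F)⁻¹ : GL D.Idx F) : Matrix D.Idx D.Idx F) := by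
    have h1 := mono_inv G hs0 (G.nG_isMono (F := F) i)
    have h2 : (G.Wp i)⁻¹ = G.Wp i := inv_eq_of_mul_eq_one_left (G.Wp_mul_self i)
    rw [h2] at h1
    exact h1
  have hxinv : x⁻¹ ∈ (G.bnPair F).N := (G.bnPair F).N.inv_mem hx
  have h1 : len (G.bnPair F) x = Good2.lenN D w⁻¹ := by
    rw [← len_inv hx]
    exact G.len_eq hxinv hW
  have hprod : (x * G.nGG F i) ∈ (G.bnPair F).N := (G.bnPair F).N.mul_mem hx hs
  have h2 : len (G.bnPair F) (x * G.nGG F i) = Good2.lenN D (G.Wp i * w⁻¹) := by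
    rw [← len_inv hprod]
    apply G.len_eq ((G.bnPair F).N.inv_mem hprod)
    have := hsW.mul hW
    have e : (((x * G.nGG F i)⁻¹ : ↥(D.group F)) : GL D.Idx F) = (G.nGG F i : GL D.Idx F)⁻¹ * (x : GL D.Idx F)⁻¹ := by
      simp
    rw [e]
    exact this
  have hnf : ∀ s, w⁻¹ (G.nf s) = G.nf (w⁻¹ s) := fun s =>
    G.N0_perm_nf (Subgroup.inv_mem _ hx0) hW s
  rw [h1, h2]
  by_cases h : Good2.NN D ≤ (w (G.ps i)).val
  · have h3 := G.lenN_mul_pos i w⁻¹ hnf (by rwa [inv_inv])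
    omega
  · have h3 := G.lenN_mul_neg i w⁻¹ hnf (by rwa [inv_inv])
    omega

end Crit

section Root

variable (G : Good3 D)

theorem lab_mem_WJ {J : Finset ℕ} {j : Fin D.rank} (hj : (j : ℕ) ∈ J) :
    G.toGood2.nGG F j ∈ WJ (G.toGood2.bnPair F) (JS (lab G.toGood2 F) J) := by
  apply subset_WJ
  refine ⟨j, hj, ?_⟩
  exact lab_of_lt G.toGood2 j.isLt

theorem exists_rep {J : Finset ℕ} (hJ : J ⊆ Finset.range D.rank) {r : ℕ} (hr : D.InRootSub (↑J : Set ℕ) r)
    (hN : Good2.NN D ≤ r) :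
    ∃ a ∈ WJ (G.toGood2.bnPair F) (JS (lab G.toGood2 F) J), ∃ w : Equiv.Perm (Fin D.nroots),
      IsMono D w ((a : GL D.Idx F) : Matrix D.Idx D.Idx F) ∧ ∃ j : Fin D.rank, (j : ℕ) ∈ J ∧ (w (G.toGood2.ps j)).val = r := by
  induction r using Nat.strong_induction_on with
  | _ r ih =>
    rcases G.reduce' hr.1 hN with ⟨i, hi, rfl⟩ | ⟨i, hi, h1, h2, h3⟩
    · have hiJ : i ∈ J := by
        by_contra hc
        have := hr.2 i hi hc
        have h4 := G.cor_simple hi hi
        simp only [if_true] at h4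
        rw [show (D.coroot.getD (D.simple i) #[]).getD i 0 = cor D (D.simple i) i from rfl, h4] at this
        omega
      refine ⟨1, Subgroup.one_mem _, 1, ?_, ⟨i, hi⟩, hiJ, rfl⟩
      exact IsMono.one
    · have hiJ : i ∈ J := by
        by_contra hc
        exact h3 (hr.2 i hi hc)
      obtain ⟨a, ha, w, hw, j, hj, hjr⟩ := ih (G.W i r) h2 (G.W_sub hi hiJ hr) h1
      refine ⟨G.toGood2.nGG F ⟨i, hi⟩ * a, Subgroup.mul_mem _ (lab_mem_WJ G hiJ) ha, G.toGood2.Wp ⟨i, hi⟩ * w, ?_, j, hj, ?_⟩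
      · exact (G.toGood2.nG_isMono (F := F) ⟨i, hi⟩).mul hw
      · rw [Equiv.Perm.mul_apply, Good2.Wp_val, hjr]
        exact G.W_W hi hr.1

theorem top_neg {J : Finset ℕ} (hJ : J ⊆ Finset.range D.rank) {m : ↥(D.group F)}
    (hm : m ∈ WJ (G.toGood2.bnPair F) (JS (lab G.toGood2 F) J))
    (htop : TopIn (G.toGood2.bnPair F) (JS (lab G.toGood2 F) J) m) {y : Equiv.Perm (Fin D.nroots)}
    (hy : IsMono D y ((m : GL D.Idx F) : Matrix D.Idx D.Idx F)) {r : Fin D.nroots}
    (hr : D.InRootSub (↑J : Set ℕ) r) (hN : Good2.NN D ≤ r.val) : (y r).val < Good2.NN D := by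
  have hJS := (lab_Lab G.toGood2 (F := F)).sub hJ
  obtain ⟨a, ha, w, hw, j, hj, hjr⟩ := exists_rep (F := F) G hJ hr hN
  have hmN := WJ_le_N hJS hm
  have haN := WJ_le_N hJS ha
  have hsW := lab_mem_WJ (F := F) G hj
  have hsN := WJ_le_N hJS hsW
  have hsS := G.toGood2.nGG_mem_S (F := F) j
  have hc1 := crit G.toGood2 haN hw j
  have hnot : ¬ len (G.toGood2.bnPair F) (a * G.toGood2.nGG F j) < len (G.toGood2.bnPair F) a := by
    rw [hc1, hjr]
    omega
  have hne := len_mul_S_ne hsS haN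
  have hainv : a⁻¹ ∈ WJ (G.toGood2.bnPair F) (JS (lab G.toGood2 F) J) := Subgroup.inv_mem _ ha
  have hasinv : (a * G.toGood2.nGG F j)⁻¹ ∈ WJ (G.toGood2.bnPair F) (JS (lab G.toGood2 F) J) :=
    Subgroup.inv_mem _ (Subgroup.mul_mem _ ha hsW)
  have hf1 := top_rel_factor hJS hm htop hainv
  have hf2 := top_rel_factor hJS hm htop hasinv
  rw [inv_inv] at hf1 hf2
  rw [len_inv haN] at hf1
  rw [len_inv (WJ_le_N hJS (Subgroup.mul_mem _ ha hsW))] at hf2
  have hmaN := (G.toGood2.bnPair F).N.mul_mem hmN haN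
  have hne2 := len_mul_S_ne hsS hmaN
  have hlt : len (G.toGood2.bnPair F) (m * a * G.toGood2.nGG F j) < len (G.toGood2.bnPair F) (m * a) := by
    rw [mul_assoc]
    rw [mul_assoc] at hne2
    omega
  have hma : IsMono D (y * w) (((m * a : ↥(D.group F)) : GL D.Idx F) : Matrix D.Idx D.Idx F) := hy.mul hw
  have h := (crit G.toGood2 hmaN hma j).mp hlt
  rw [Equiv.Perm.mul_apply] at h
  have e : w (G.toGood2.ps j) = r := Fin.ext hjr
  rwa [e] at h

end Root

section Stab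

variable (G : Good3 D)

/-- The unipotent radical, in the Chevalley group. -/
def RJ (D : ChevalleyDatum) (F : Type*) [Field F] (J : Finset ℕ) : Subgroup ↥(D.group F) :=
  (D.unipotentRadical F (↑J : Set ℕ)).subgroupOf (D.group F)

theorem UJ_le_U (J : Set ℕ) : D.unipotentRadical F J ≤ D.posUnipotent F := by
  apply Subgroup.closure_mono
  rintro g ⟨r, t, h1, h2, h3⟩
  exact ⟨r, t, h1, h3⟩

include G in
theorem conj_UJ {J : Set ℕ} {g u : GL D.Idx F} (hg : g ∈ D.parabolicSubgroup F J) (hu : u ∈ D.unipotentRadical F J) :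
    g * u * g⁻¹ ∈ D.unipotentRadical F J := by
  have h := G.parabolic_le_normalizer J hg
  rw [Subgroup.mem_normalizer_iff] at h
  exact (h u).mp hu

theorem parabolic_of_WJ {J : Finset ℕ} (hJ : J ⊆ Finset.range D.rank) {n : ↥(D.group F)}
    (hn : n ∈ WJ (G.toGood2.bnPair F) (JS (lab G.toGood2 F) J)) :
    (n : GL D.Idx F) ∈ D.parabolicSubgroup F (↑J : Set ℕ) := by
  have h1 := WJ_le_PJ hn
  rw [← parabolicIn_eq G.toGood2 hJ] at h1
  exact h1

theorem stab_iff {J : Finset ℕ} (hJ : J ⊆ Finset.range D.rank) {n : ↥(D.group F)}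
    (hn : n ∈ WJ (G.toGood2.bnPair F) (JS (lab G.toGood2 F) J))
    (htop : TopIn (G.toGood2.bnPair F) (JS (lab G.toGood2 F) J) n) {t : GL D.Idx F} (ht : t ∈ D.borelSubgroup F) :
    (n : GL D.Idx F)⁻¹ * t * n ∈ D.borelSubgroup F ↔
      ∃ k ∈ D.diagonalSubgroup F, ∃ r ∈ D.unipotentRadical F (↑J : Set ℕ), t = k * r := by
  have hJS := (lab_Lab G.toGood2 (F := F)).sub hJ
  have hnN := WJ_le_N hJS hn
  have hn0 := N_to_N0 G.toGood2 hnN
  have hnP := parabolic_of_WJ G hJ hn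
  have hUB := G.toGood2.U_le_B (F := F)
  have hHB := G.toGood2.H_le_B (F := F)
  have hconjH : ∀ {k : GL D.Idx F}, k ∈ D.diagonalSubgroup F → (n : GL D.Idx F)⁻¹ * k * n ∈ D.diagonalSubgroup F := by
    intro k hk
    have := G.toGood2.N0_conj_H (Subgroup.inv_mem _ hn0) hk
    simpa using this
  have hconjR : ∀ {r : GL D.Idx F}, r ∈ D.unipotentRadical F (↑J : Set ℕ) →
      (n : GL D.Idx F)⁻¹ * r * n ∈ D.unipotentRadical F (↑J : Set ℕ) := by
    intro r hr
    have := conj_UJ G (Subgroup.inv_mem _ hnP) hr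
    simpa using this
  constructor
  · intro h
    obtain ⟨u, hu, k, hk, rfl⟩ := G.toGood2.B_form.mp ht
    -- `u k = k (k⁻¹ u k)`
    have hu' : k⁻¹ * u * k ∈ D.posUnipotent F := by
      have := G.toGood2.U_pos_conj (Subgroup.inv_mem _ hk) hu
      simpa using this
    obtain ⟨a, ha, c, hc, e⟩ := G.toGood2.U_split
      (P := fun r => D.IsPosRoot r ∧ D.InRootSub (↑J : Set ℕ) r) (Q := Good3.QJ D (↑J : Set ℕ))
      (fun r h => h.1.1) (fun r h => h.1.1)
      (fun r hr hN => by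
        by_cases h1 : D.InRootSub (↑J : Set ℕ) r
        · exact Or.inl ⟨(G.toGood2.pos_iff hr).mpr hN, h1⟩
        · exact Or.inr ⟨(G.toGood2.pos_iff hr).mpr hN, h1⟩) hu'
    have hcU : c ∈ D.unipotentRadical F (↑J : Set ℕ) := by
      rw [Good3.UJ_eq]
      exact hc
    have et : u * k = k * a * c := by
      have : u * k = k * (k⁻¹ * u * k) := by group
      rw [this, e]
      group
    rw [et] at h
    -- conjugate `a`
    set m : ↥(D.group F) := n⁻¹ with hm
    have hmW : m ∈ WJ (G.toGood2.bnPair F) (JS (lab G.toGood2 F) J) := Subgroup.inv_mem _ hn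
    have hmtop := topIn_inv hJS hn htop
    have hm0 : (m : GL D.Idx F) ∈ G.toGood2.N0 F := N_to_N0 G.toGood2 (WJ_le_N hJS hmW)
    obtain ⟨y, hy, hy'⟩ := G.toGood2.N0_le_mono hm0
    have hneg : (m : GL D.Idx F) * a * (m : GL D.Idx F)⁻¹ ∈ D.negUnipotent F := by
      have : (m : GL D.Idx F) * a * (m : GL D.Idx F)⁻¹ ∈ rG D F D.IsNegRoot :=
        G.toGood2.N0_conj_rG (P := fun r => D.IsPosRoot r ∧ D.InRootSub (↑J : Set ℕ) r) (fun r h => h.1.1) hm0 hy
          (fun r hr => (G.toGood2.neg_iff (y r).isLt).mpr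
            (top_neg G hJ hmW hmtop hy hr.2 ((G.toGood2.pos_iff r.isLt).mp hr.1))) ha
      exact this
    have hmval : (m : GL D.Idx F) = (n : GL D.Idx F)⁻¹ := rfl
    have hB : (m : GL D.Idx F) * a * (m : GL D.Idx F)⁻¹ ∈ D.borelSubgroup F := by
      have e1 : (m : GL D.Idx F) * a * (m : GL D.Idx F)⁻¹ =
          ((n : GL D.Idx F)⁻¹ * k * n)⁻¹ * ((n : GL D.Idx F)⁻¹ * (k * a * c) * n) *
            ((n : GL D.Idx F)⁻¹ * c * n)⁻¹ := by
        rw [hmval]
        group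
      rw [e1]
      refine Subgroup.mul_mem _ (Subgroup.mul_mem _ (Subgroup.inv_mem _ (hHB (hconjH hk))) h)
        (Subgroup.inv_mem _ (hUB (UJ_le_U _ (hconjR hcU))))
    have h2 : (m : GL D.Idx F) * a * (m : GL D.Idx F)⁻¹ ∈ D.borelSubgroup F ⊓ D.negUnipotent F := ⟨hB, hneg⟩
    rw [G.toGood2.B_inf_V, Subgroup.mem_bot] at h2
    have ha1 : a = 1 := by
      have := congrArg (fun z => (m : GL D.Idx F)⁻¹ * z * (m : GL D.Idx F)) h2
      simpa [mul_assoc] using this
    refine ⟨k, hk, c, hcU, ?_⟩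
    rw [et, ha1, mul_one]
  · rintro ⟨k, hk, r, hr, rfl⟩
    have e : (n : GL D.Idx F)⁻¹ * (k * r) * n = ((n : GL D.Idx F)⁻¹ * k * n) * ((n : GL D.Idx F)⁻¹ * r * n) := by group
    rw [e]
    exact Subgroup.mul_mem _ (hHB (hconjH hk)) (hUB (UJ_le_U _ (hconjR hr)))

omit G in
theorem U_le_group (G : Good2 D) : D.posUnipotent F ≤ D.group F := (G.U_le_B).trans G.B_le_group

open scoped _root_.Classical in
/-- The chosen relative longest element. -/
noncomputable def topJ (G : Good2 D) (F : Type*) [Field F] [Finite F] (J : Finset ℕ) : ↥(D.group F) :=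
  if h : J ⊆ Finset.range D.rank then
    Classical.choose (exists_top_rel ((lab_Lab G (F := F)).sub h))
  else 1

variable [Fintype F]

theorem topJ_spec (G : Good2 D) {J : Finset ℕ} (h : J ⊆ Finset.range D.rank) :
    topJ G F J ∈ WJ (G.bnPair F) (JS (lab G F) J) ∧ TopIn (G.bnPair F) (JS (lab G F) J) (topJ G F J) := by
  unfold topJ
  rw [dif_pos h]
  exact Classical.choose_spec (exists_top_rel ((lab_Lab G (F := F)).sub h))

/-- The splitting data of a Chevalley group. -/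
noncomputable def chevSplit (p : ℕ) [Fact p.Prime] [CharP F p] :
    Split (G.toGood2.bnPair F) (Finset.range D.rank) (lab G.toGood2 F) p where
  U := (D.posUnipotent F).subgroupOf (D.group F)
  H := (D.diagonalSubgroup F).subgroupOf (D.group F)
  R := RJ D F
  top := topJ G.toGood2 F
  U_le := fun x hx => G.toGood2.U_le_B (Subgroup.mem_subgroupOf.mp hx)
  U_norm := by
    intro b hb u hu
    have hb' : (b : GL D.Idx F) ∈ D.borelSubgroup F := hb
    have hu' : (u : GL D.Idx F) ∈ D.posUnipotent F := hu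
    obtain ⟨u₁, hu₁, k, hk, e⟩ := G.toGood2.B_form.mp hb'
    rw [Subgroup.mem_subgroupOf]
    have e1 : ((b * u * b⁻¹ : ↥(D.group F)) : GL D.Idx F) = u₁ * (k * u * k⁻¹) * u₁⁻¹ := by
      simp only [Subgroup.coe_mul, Subgroup.coe_inv, e]
      group
    rw [e1]
    exact Subgroup.mul_mem _ (Subgroup.mul_mem _ hu₁ (G.toGood2.U_pos_conj hk hu')) (Subgroup.inv_mem _ hu₁)
  H_le := fun x hx => G.toGood2.H_le_B (Subgroup.mem_subgroupOf.mp hx)
  UH_inf := by
    intro x hx hx'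
    have h : (x : GL D.Idx F) ∈ D.posUnipotent F ⊓ D.diagonalSubgroup F := ⟨hx, hx'⟩
    rw [G.toGood2.U_inf_H, Subgroup.mem_bot] at h
    exact Subtype.ext h
  B_form := by
    intro b hb
    have hb' : (b : GL D.Idx F) ∈ D.borelSubgroup F := hb
    obtain ⟨u₁, hu₁, k, hk, e⟩ := G.toGood2.B_form.mp hb'
    refine ⟨⟨u₁, U_le_group G.toGood2 hu₁⟩, hu₁, ⟨k, G.toGood2.H_le_group hk⟩, hk, ?_⟩
    exact Subtype.ext e
  R_le := fun J hJ x hx => UJ_le_U _ (Subgroup.mem_subgroupOf.mp hx)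
  R_norm := by
    intro J hJ g hg r hr
    have hg' : g ∈ D.parabolicIn F J := by
      rw [parabolicIn_eq G.toGood2 hJ]
      exact hg
    have hg'' : (g : GL D.Idx F) ∈ D.parabolicSubgroup F (↑J : Set ℕ) := hg'
    unfold RJ
    rw [Subgroup.mem_subgroupOf]
    exact conj_UJ G hg'' hr
  top_mem := fun J hJ => (topJ_spec G.toGood2 hJ).1
  top_top := fun J hJ => (topJ_spec G.toGood2 hJ).2
  stab := by
    intro J hJ t ht
    have ht' : (t : GL D.Idx F) ∈ D.borelSubgroup F := ht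
    have h := stab_iff G hJ (topJ_spec G.toGood2 hJ).1 (topJ_spec G.toGood2 hJ).2 ht'
    constructor
    · intro h1
      obtain ⟨k, hk, r, hr, e⟩ := h.mp h1
      refine ⟨⟨k, G.toGood2.H_le_group hk⟩, hk, ⟨r, U_le_group G.toGood2 (UJ_le_U _ hr)⟩, hr, ?_⟩
      exact Subtype.ext e
    · rintro ⟨k, hk, r, hr, e⟩
      apply h.mpr
      exact ⟨k, hk, r, hr, congrArg Subtype.val e⟩
  card_U := by
    have h1 : Nat.card ((D.posUnipotent F).subgroupOf (D.group F)) = Nat.card (D.posUnipotent F) :=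
      Nat.card_congr (Subgroup.subgroupOfEquivOfLe (U_le_group G.toGood2)).toEquiv
    rw [h1, G.toGood2.card_U, pow_eq_factorization G.toGood2 p]

include G in
/-- **Steinberg's count.** -/
theorem card_pelements (p : ℕ) [Fact p.Prime] [CharP F p] :
    Nat.card {g : ↥(D.group F) // ∃ k : ℕ, orderOf g = p ^ k} = Fintype.card F ^ (2 * (D.nroots / 2)) := by
  have h := (chevSplit G (F := F) p).card_pelements (lab_Lab G.toGood2)
  have h1 : Nat.card (chevSplit G (F := F) p).U = Fintype.card F ^ (D.nroots / 2) := by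
    have h2 : Nat.card ((D.posUnipotent F).subgroupOf (D.group F)) = Nat.card (D.posUnipotent F) :=
      Nat.card_congr (Subgroup.subgroupOfEquivOfLe (U_le_group G.toGood2)).toEquiv
    change Nat.card ((D.posUnipotent F).subgroupOf (D.group F)) = _
    rw [h2, G.toGood2.card_U]
  rw [h1, St_one (lab_Lab G.toGood2 (F := F)) (n0G_mem G) (n0_top G), card_quot_T] at h
  have h3 : (Nat.card {g : ↥(D.group F) // ∃ k : ℕ, orderOf g = p ^ k} : ℂ) =
      ((Fintype.card F ^ (2 * (D.nroots / 2)) : ℕ) : ℂ) := by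
    rw [h, two_mul, pow_add]
    push_cast
    rfl
  exact_mod_cast h3

end Stab

end Cfsg.Agent.Lib.Known.ChevSt
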