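import Mathlib
import Cfsg.Agent.Lib.Known.FourierRep
import Cfsg.Agent.Lib.Classical.SLVec

set_option autoImplicit false

/-! Cross-characteristic lower bound for representations of `SL_n`: the Landazuri–Seitz argument. -/

namespace Cfsg.Agent.Lib.Known

open Matrix

namespace CrossSL

section Dot

variable {ι F L : Type*} [Fintype ι] [DecidableEq ι] [Field F] [Fintype F] [DecidableEq F] [Field L]

/-- The orthogonality relation for the dot product character. -/
theorem sum_dot (ψ : AddChar F L) (hψ : ψ.IsPrimitive) (c : ι → F) :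
    ∑ a : ι → F, ψ (c ⬝ᵥ a) = if c = 0 then (Fintype.card (ι → F) : L) else 0 := by
  split_ifs with h
  · subst h
    simp
  · obtain ⟨i, hi⟩ : ∃ i, c i ≠ 0 := by
      by_contra hall
      push Not at hall
      exact h (funext hall)
    have h1 : AddChar.mulShift ψ (c i) ≠ 1 := hψ hi
    obtain ⟨t, ht⟩ : ∃ t, AddChar.mulShift ψ (c i) t ≠ 1 := by
      by_contra hall
      push Not at hall
      apply h1
      ext x
      simpa using hall x
    let a₀ : ι → F := Pi.single i t
    have h2 : c ⬝ᵥ a₀ = c i * t := by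
      simp [a₀, dotProduct_single]
    have h3 : ψ (c ⬝ᵥ a₀) ≠ 1 := by
      rw [h2]
      simpa [AddChar.mulShift_apply] using ht
    set S := ∑ a : ι → F, ψ (c ⬝ᵥ a) with hS
    have h4 : S = ψ (c ⬝ᵥ a₀) * S := by
      rw [hS, Finset.mul_sum]
      refine Fintype.sum_equiv (Equiv.addLeft (-a₀)) _ _ fun a => ?_
      simp only [Equiv.coe_addLeft]
      rw [← AddChar.map_add_eq_mul]
      congr 1
      rw [dotProduct_add, dotProduct_neg]
      ring
    have h5 : (1 - ψ (c ⬝ᵥ a₀)) * S = 0 := by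
      linear_combination h4
    exact (mul_eq_zero.mp h5).resolve_left (sub_ne_zero.mpr (Ne.symm h3))

end Dot

section Blocks

variable {ι F : Type*} [Fintype ι] [DecidableEq ι] [Field F]

/-- The root group of the last column. -/
def tt (a : ι → F) : SpecialLinearGroup (ι ⊕ Unit) F :=
  ⟨fromBlocks 1 (of fun i _ => a i) 0 1, by
    rw [det_fromBlocks_zero₂₁]
    simp⟩

/-- The Levi factor. -/
def mm (M : SpecialLinearGroup ι F) : SpecialLinearGroup (ι ⊕ Unit) F :=
  ⟨fromBlocks (M : Matrix ι ι F) 0 0 1, by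
    rw [det_fromBlocks_zero₂₁]
    simp⟩

theorem tt_coe (a : ι → F) : ((tt a : SpecialLinearGroup (ι ⊕ Unit) F) : Matrix (ι ⊕ Unit) (ι ⊕ Unit) F) =
    fromBlocks 1 (of fun i _ => a i) 0 1 := rfl

theorem mm_coe (M : SpecialLinearGroup ι F) :
    ((mm M : SpecialLinearGroup (ι ⊕ Unit) F) : Matrix (ι ⊕ Unit) (ι ⊕ Unit) F) =
      fromBlocks (M : Matrix ι ι F) 0 0 1 := rfl

theorem tt_add (a b : ι → F) : tt (a + b) = tt a * tt b := by
  apply Subtype.ext
  change fromBlocks 1 (of fun i _ => (a + b) i) 0 1 =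
    fromBlocks 1 (of fun i _ => a i) 0 1 * fromBlocks 1 (of fun i _ => b i) 0 1
  rw [fromBlocks_multiply]
  congr 1
  · simp
  · ext i j
    simp [Matrix.mul_apply, add_comm]
  · simp
  · simp

theorem tt_zero : tt (0 : ι → F) = 1 := by
  apply Subtype.ext
  change fromBlocks 1 (of fun i _ => (0 : ι → F) i) 0 1 = 1
  rw [← fromBlocks_one]
  congr 1

theorem mm_mul_tt (M : SpecialLinearGroup ι F) (a : ι → F) : mm M * tt a = tt (M.1 *ᵥ a) * mm M := by
  apply Subtype.ext
  change fromBlocks (M : Matrix ι ι F) 0 0 1 * fromBlocks 1 (of fun i _ => a i) 0 1 =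
    fromBlocks 1 (of fun i _ => (M.1 *ᵥ a) i) 0 1 * fromBlocks (M : Matrix ι ι F) 0 0 1
  rw [fromBlocks_multiply, fromBlocks_multiply]
  congr 1
  · simp
  · ext i j
    simp [Matrix.mul_apply, Matrix.mulVec, dotProduct]
  · simp
  · simp

theorem mm_mul (M N : SpecialLinearGroup ι F) : mm (M * N) = mm M * mm N := by
  apply Subtype.ext
  change fromBlocks ((M : Matrix ι ι F) * (N : Matrix ι ι F)) 0 0 1 =
    fromBlocks (M : Matrix ι ι F) 0 0 1 * fromBlocks (N : Matrix ι ι F) 0 0 1
  rw [fromBlocks_multiply]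
  simp

theorem mm_one : mm (1 : SpecialLinearGroup ι F) = 1 := by
  apply Subtype.ext
  change fromBlocks (1 : Matrix ι ι F) 0 0 1 = 1
  rw [fromBlocks_one]

end Blocks

section Main

variable {ι F L V : Type*} [Fintype ι] [DecidableEq ι] [Field F] [Fintype F] [DecidableEq F] [Field L]
  [AddCommGroup V] [Module L V] [FiniteDimensional L V]

/-- The general bound for `SL`. -/
theorem cross_bound (ψ : AddChar F L) (hψ : ψ.IsPrimitive) (hq : (Fintype.card F : L) ≠ 0)
    (φ : SpecialLinearGroup (ι ⊕ Unit) F →* Module.End L V) (hnt : ∃ a, φ (tt a) ≠ 1)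
    (htrans : ∀ e e' : ι → F, e ≠ 0 → e' ≠ 0 → ∃ M : SpecialLinearGroup ι F, (M.1)ᵀ *ᵥ e' = e) :
    Fintype.card (ι → F) - 1 ≤ Module.finrank L V := by
  classical
  let A := ι → F
  have hcardA : (Fintype.card A : L) ≠ 0 := by
    have : Fintype.card A = Fintype.card F ^ Fintype.card ι := by simp [A]
    rw [this]
    push_cast
    exact pow_ne_zero _ hq
  let z : A → Module.End L V := fun a => φ (tt a)
  let χ : A → A → L := fun e a => ψ (e ⬝ᵥ a)
  have hzadd : ∀ a b, z (a + b) = z a * z b := by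
    intro a b
    simp only [z]
    rw [tt_add, map_mul]
  have hχadd : ∀ e a b, χ e (a + b) = χ e a * χ e b := by
    intro e a b
    simp only [χ]
    rw [dotProduct_add, AddChar.map_add_eq_mul]
  have hz0 : z 0 = 1 := by
    simp only [z]
    rw [tt_zero, map_one]
  let P : A → Module.End L V := fP z χ
  have horth : ∀ e e', ∑ a, χ e (-a) * χ e' a = if e = e' then (Fintype.card A : L) else 0 := by
    intro e e'
    have h1 : ∀ a : A, χ e (-a) * χ e' a = ψ ((e' - e) ⬝ᵥ a) := by
      intro a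
      simp only [χ]
      rw [← AddChar.map_add_eq_mul, dotProduct_neg, sub_dotProduct]
      congr 1
      ring
    simp only [h1]
    rw [sum_dot ψ hψ]
    by_cases h : e = e'
    · rw [if_pos h, if_pos (by rw [h, sub_self])]
    · rw [if_neg h, if_neg (sub_ne_zero.mpr (Ne.symm h))]
  have hPP : ∀ e e', P e * P e' = if e = e' then P e' else 0 :=
    fun e e' => fP_mul_fP z hzadd χ hχadd horth hcardA e e'
  have hsumP : ∑ e, P e = 1 := by
    refine sum_fP z χ ?_ hcardA hz0
    intro a
    have h1 : ∀ e : A, χ e (-a) = ψ ((-a) ⬝ᵥ e) := by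
      intro e
      simp only [χ]
      rw [dotProduct_comm]
    simp only [h1]
    rw [sum_dot ψ hψ]
    simp only [neg_eq_zero]
    rfl
  -- a nonzero component
  obtain ⟨e₀, he₀, hPe₀⟩ : ∃ e : A, e ≠ 0 ∧ P e ≠ 0 := by
    by_contra hall
    push Not at hall
    have h1 : P 0 = 1 := by
      rw [← hsumP, Finset.sum_eq_single (0 : A)]
      · intro b _ hb
        exact hall b hb
      · simp
    obtain ⟨a, ha⟩ := hnt
    apply ha
    have h2 := z_mul_fP z hzadd χ hχadd a (0 : A)
    change z a * P 0 = χ 0 a • P 0 at h2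
    rw [h1] at h2
    simpa [χ, z] using h2
  -- the Levi factor permutes the components
  have hconj : ∀ (M : SpecialLinearGroup ι F) (e : A),
      φ (mm M) * P ((M.1)ᵀ *ᵥ e) = P e * φ (mm M) := by
    intro M e
    simp only [P, fP]
    rw [mul_smul_comm, smul_mul_assoc]
    congr 1
    rw [Finset.mul_sum, Finset.sum_mul]
    let τ : A ≃ A :=
      { toFun := fun a => M.1 *ᵥ a
        invFun := fun a => (M⁻¹).1 *ᵥ a
        left_inv := by
          intro a
          simp only [mulVec_mulVec]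
          have : (M⁻¹).1 * M.1 = 1 := congrArg Subtype.val (inv_mul_cancel M)
          rw [this, one_mulVec]
        right_inv := by
          intro a
          simp only [mulVec_mulVec]
          have : M.1 * (M⁻¹).1 = 1 := congrArg Subtype.val (mul_inv_cancel M)
          rw [this, one_mulVec] }
    refine Fintype.sum_equiv τ _ _ fun a => ?_
    rw [mul_smul_comm, smul_mul_assoc]
    have e1 : φ (mm M) * z a = z (τ a) * φ (mm M) := by
      simp only [z]
      rw [← map_mul, ← map_mul, mm_mul_tt]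
      rfl
    rw [e1]
    congr 1
    simp only [χ]
    congr 1
    change ((M.1)ᵀ *ᵥ e) ⬝ᵥ (-a) = e ⬝ᵥ (-(M.1 *ᵥ a))
    rw [dotProduct_neg, dotProduct_neg, ← vecMul_transpose, transpose_transpose, ← dotProduct_mulVec]
  have hne : ∀ e : A, e ≠ 0 → P e ≠ 0 := by
    intro e he h0
    obtain ⟨M, hM⟩ := htrans e₀ e he₀ he
    have h1 := hconj M e
    rw [hM, h0, zero_mul] at h1
    -- `φ (mm M)` is invertible
    apply hPe₀
    have h2 : φ (mm M⁻¹) * φ (mm M) = 1 := by
      rw [← map_mul, ← mm_mul, inv_mul_cancel, mm_one, map_one]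
    calc P e₀ = (φ (mm M⁻¹) * φ (mm M)) * P e₀ := by rw [h2, one_mul]
      _ = φ (mm M⁻¹) * (φ (mm M) * P e₀) := by rw [mul_assoc]
      _ = 0 := by rw [h1, mul_zero]
  have hsum := sum_finrank_range_le P hPP
  have hpos : ∀ e : A, e ≠ 0 → 1 ≤ Module.finrank L (LinearMap.range (P e)) := by
    intro e he
    have h1 : LinearMap.range (P e) ≠ ⊥ := by
      intro h
      exact hne e he (LinearMap.range_eq_bot.mp h)
    haveI := Submodule.nontrivial_iff_ne_bot.mpr h1
    exact Module.finrank_pos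
  calc Fintype.card (ι → F) - 1 = ∑ e ∈ Finset.univ.erase (0 : A), 1 := by
        rw [Finset.sum_const, Finset.card_erase_of_mem (Finset.mem_univ _), Finset.card_univ]
        simp [A]
    _ ≤ ∑ e ∈ Finset.univ.erase (0 : A), Module.finrank L (LinearMap.range (P e)) :=
        Finset.sum_le_sum fun e he => hpos e (Finset.ne_of_mem_erase he)
    _ ≤ ∑ e, Module.finrank L (LinearMap.range (P e)) :=
        Finset.sum_le_sum_of_subset (Finset.subset_univ _)
    _ ≤ Module.finrank L V := hsum

end Main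

section Final

/-- Reindexing `SL`. -/
def slReindex {α β F : Type*} [Fintype α] [Fintype β] [DecidableEq α] [DecidableEq β] [CommRing F] (e : α ≃ β) :
    Matrix.SpecialLinearGroup α F ≃* Matrix.SpecialLinearGroup β F where
  toFun A := ⟨Matrix.reindex e e A.1, by rw [Matrix.det_reindex_self]; exact A.2⟩
  invFun A := ⟨Matrix.reindex e.symm e.symm A.1, by rw [Matrix.det_reindex_self]; exact A.2⟩
  left_inv A := by
    apply Subtype.ext
    ext i j
    simp
  right_inv A := by
    apply Subtype.ext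
    ext i j
    simp
  map_mul' A B := by
    apply Subtype.ext
    change Matrix.reindex e e (A.1 * B.1) = Matrix.reindex e e A.1 * Matrix.reindex e e B.1
    simp [Matrix.reindex_apply, Matrix.submatrix_mul_equiv]

/-- The cardinality of the field is nonzero in a field of different characteristic. -/
theorem card_cast_ne_zero {F K : Type*} [Field F] [Fintype F] [Field K] (hK : ringChar K ≠ ringChar F) :
    (Fintype.card F : K) ≠ 0 := by
  intro h0
  have h1 : ringChar K ∣ Fintype.card F := (CharP.cast_eq_zero_iff K (ringChar K) _).mp h0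
  obtain ⟨n, hp, hc⟩ := FiniteField.card F (ringChar F)
  rw [hc] at h1
  rcases CharP.char_is_prime_or_zero K (ringChar K) with hpK | hz
  · exact hK ((Nat.prime_dvd_prime_iff_eq hpK hp).mp (hpK.dvd_of_dvd_pow h1))
  · rw [hz, zero_dvd_iff] at h1
    exact hp.ne_zero (pow_eq_zero_iff n.ne_zero |>.mp h1)

/-- Transitivity of `SL` on nonzero vectors, through transposes. -/
theorem sl_trans {F : Type*} [Field F] {k : ℕ} (e e' : Fin (k + 2) → F) (he : e ≠ 0) (he' : e' ≠ 0) :
    ∃ M : SpecialLinearGroup (Fin (k + 2)) F, (M.1)ᵀ *ᵥ e' = e := by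
  obtain ⟨g, hg⟩ := Cfsg.Agent.Lib.Classical.exists_SL_mulVec_single e he
  obtain ⟨g', hg'⟩ := Cfsg.Agent.Lib.Classical.exists_SL_mulVec_single e' he'
  let N := g * g'⁻¹
  refine ⟨⟨(N.1)ᵀ, by rw [det_transpose]; exact N.2⟩, ?_⟩
  change ((N.1)ᵀ)ᵀ *ᵥ e' = e
  rw [transpose_transpose]
  have h1 : (g'⁻¹).1 *ᵥ e' = Pi.single 0 1 := by
    rw [← hg', mulVec_mulVec]
    have : (g'⁻¹).1 * g'.1 = 1 := congrArg Subtype.val (inv_mul_cancel g')
    rw [this, one_mulVec]
  change (g.1 * (g'⁻¹).1) *ᵥ e' = e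
  rw [← mulVec_mulVec, h1]
  exact hg

/-- The Landazuri–Seitz bound for `SL_n`. -/
theorem sl_cross_bound {F : Type*} [Field F] [Fintype F] {q : ℕ} (hq : Fintype.card F = q) (n : ℕ) (hn : 3 ≤ n)
    {K : Type*} [Field K] (hK : ringChar K ≠ ringChar F) {d : ℕ}
    (ρ : SpecialLinearGroup (Fin n) F →* GL (Fin d) K)
    (hker : ρ.ker ≤ Subgroup.center (SpecialLinearGroup (Fin n) F)) :
    q ^ (n - 1) - 1 ≤ d := by
  classical
  obtain ⟨k, rfl⟩ : ∃ k, n = k + 3 := ⟨n - 3, by omega⟩
  let ι := Fin (k + 2)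
  have hcardι : Fintype.card (ι ⊕ Unit) = k + 3 := by simp [ι]
  let e : ι ⊕ Unit ≃ Fin (k + 3) := Fintype.equivFinOfCardEq hcardι
  let reind : SpecialLinearGroup (ι ⊕ Unit) F ≃* SpecialLinearGroup (Fin (k + 3)) F :=
    slReindex e
  let pc := AddChar.FiniteField.primitiveChar F K hK
  let L := CyclotomicField pc.n K
  let ψ : AddChar F L := pc.char
  have hψ : ψ.IsPrimitive := pc.prim
  have hqL : (Fintype.card F : L) ≠ 0 := by
    have h1 := card_cast_ne_zero (F := F) (K := K) hK
    have h2 : algebraMap K L (Fintype.card F : K) ≠ 0 := (map_ne_zero _).mpr h1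
    simpa using h2
  let φ : SpecialLinearGroup (ι ⊕ Unit) F →* Module.End L (Fin d → L) :=
    ((Matrix.toLinAlgEquiv' (R := L) (n := Fin d) : _ ≃ₐ[L] _).toAlgHom.toRingHom.toMonoidHom).comp
      (((algebraMap K L).mapMatrix (m := Fin d)).toMonoidHom.comp
        ((Units.coeHom (Matrix (Fin d) (Fin d) K)).comp (ρ.comp reind.toMonoidHom)))
  have hnt : ∃ a : ι → F, φ (CrossSL.tt a) ≠ 1 := by
    refine ⟨Pi.single 0 1, fun h => ?_⟩
    set a : ι → F := Pi.single 0 1 with ha
    -- go back to `ρ`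
    have h1 : (((ρ (reind (tt a)) : GL (Fin d) K) : Matrix (Fin d) (Fin d) K)).map (algebraMap K L) = 1 := by
      have h2 : Matrix.toLin' ((((ρ (reind (tt a)) : GL (Fin d) K) : Matrix (Fin d) (Fin d) K)).map (algebraMap K L)) = 1 := h
      have h3 : Matrix.toLin' ((1 : Matrix (Fin d) (Fin d) L)) = 1 := Matrix.toLin'_one
      exact Matrix.toLin'.injective (h2.trans h3.symm)
    have h4 : ρ (reind (tt a)) = 1 := by
      apply Units.ext
      ext i j
      have h5 := congrFun (congrFun h1 i) j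
      simp only [Matrix.map_apply] at h5
      apply (algebraMap K L).injective
      rw [h5]
      simp [Matrix.one_apply, apply_ite (algebraMap K L)]
    have h6 : reind (tt a) ∈ Subgroup.center (SpecialLinearGroup (Fin (k + 3)) F) := hker h4
    rw [Matrix.SpecialLinearGroup.mem_center_iff] at h6
    obtain ⟨r, _, hr⟩ := h6
    have h7 := congrFun (congrFun hr (e (Sum.inl 0))) (e (Sum.inr ()))
    have hne : e (Sum.inl 0) ≠ e (Sum.inr ()) := by
      intro h
      have := e.injective h
      cases this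
    have h8 : ((reind (tt a) : SpecialLinearGroup (Fin (k + 3)) F) : Matrix (Fin (k + 3)) (Fin (k + 3)) F)
        (e (Sum.inl 0)) (e (Sum.inr ())) = (tt a : SpecialLinearGroup (ι ⊕ Unit) F).1 (Sum.inl 0) (Sum.inr ()) := by
      change ((tt a : SpecialLinearGroup (ι ⊕ Unit) F).1).submatrix e.symm e.symm (e (Sum.inl 0)) (e (Sum.inr ())) = _
      simp only [Matrix.submatrix_apply, Equiv.symm_apply_apply]
    simp only [scalar_apply, diagonal_apply_ne _ hne] at h7
    have h9 : (tt a : SpecialLinearGroup (ι ⊕ Unit) F).1 (Sum.inl 0) (Sum.inr ()) = 1 := by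
      simp [tt_coe, ha]
    rw [h8, h9] at h7
    exact zero_ne_one h7
  have h := cross_bound ψ hψ hqL φ hnt (fun e₁ e₂ h₁ h₂ => sl_trans e₁ e₂ h₁ h₂)
  have hc : Fintype.card (ι → F) = q ^ (k + 3 - 1) := by
    simp [ι, hq]
  rw [hc, Module.finrank_fin_fun] at h
  exact h

end Final

end CrossSL
end Cfsg.Agent.Lib.Known
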