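import Mathlib
import Cfsg.Agent.Lib.Known.CrossSL

set_option autoImplicit false

/-! Cross-characteristic lower bound for representations of `Sp_{2n}`, `q` odd. -/

namespace Cfsg.Agent.Lib.Known

open Matrix

namespace CrossSp

variable {n : ℕ} {F : Type*} [Field F]

/-- The symmetric matrices as an additive group. -/
def symm (n : ℕ) (F : Type*) [Field F] : AddSubgroup (Matrix (Fin n) (Fin n) F) where
  carrier := {S | Sᵀ = S}
  zero_mem' := by simp
  add_mem' := by
    intro a b ha hb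
    simp only [Set.mem_setOf_eq] at *
    rw [transpose_add, ha, hb]
  neg_mem' := by
    intro a ha
    simp only [Set.mem_setOf_eq] at *
    rw [transpose_neg, ha]

/-- The Siegel unipotent elements. -/
def spT (S : symm n F) : ↥(symplecticGroup (Fin n) F) :=
  ⟨fromBlocks 1 S.1 0 1, by
    rw [SymplecticGroup.mem_iff, J, fromBlocks_multiply, fromBlocks_transpose, fromBlocks_multiply]
    have hS : (S.1)ᵀ = S.1 := S.2
    simp [hS]⟩

/-- The opposite Siegel unipotent elements. -/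
def spL (S : symm n F) : ↥(symplecticGroup (Fin n) F) :=
  ⟨fromBlocks 1 0 S.1 1, by
    rw [SymplecticGroup.mem_iff, J, fromBlocks_multiply, fromBlocks_transpose, fromBlocks_multiply]
    have hS : (S.1)ᵀ = S.1 := S.2
    simp [hS]⟩

/-- The Levi factor. -/
noncomputable def spM (M : GL (Fin n) F) : ↥(symplecticGroup (Fin n) F) :=
  ⟨fromBlocks (M : Matrix (Fin n) (Fin n) F) 0 0 ((M⁻¹ : GL (Fin n) F) : Matrix (Fin n) (Fin n) F)ᵀ, by
    rw [SymplecticGroup.mem_iff, J, fromBlocks_multiply, fromBlocks_transpose, fromBlocks_multiply]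
    have h1 : (M : Matrix (Fin n) (Fin n) F) * ((M⁻¹ : GL (Fin n) F) : Matrix (Fin n) (Fin n) F) = 1 := by
      rw [← Units.val_mul, mul_inv_cancel, Units.val_one]
    have h2 : (((M⁻¹ : GL (Fin n) F) : Matrix (Fin n) (Fin n) F))ᵀ * (M : Matrix (Fin n) (Fin n) F)ᵀ = 1 := by
      rw [← transpose_mul, h1, transpose_one]
    generalize ((M⁻¹ : GL (Fin n) F) : Matrix (Fin n) (Fin n) F) = N at h1 h2
    simp [h1, h2]⟩

theorem spT_add (S S' : symm n F) : spT (S + S') = spT S * spT S' := by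
  apply Subtype.ext
  change fromBlocks 1 (S + S').1 0 1 = fromBlocks 1 S.1 0 1 * fromBlocks 1 S'.1 0 1
  rw [fromBlocks_multiply]
  simp [add_comm]

theorem spT_zero : spT (0 : symm n F) = 1 := by
  apply Subtype.ext
  change fromBlocks 1 ((0 : symm n F).1) 0 1 = 1
  simp

/-- The congruence action. -/
def cong (M : Matrix (Fin n) (Fin n) F) (S : symm n F) : symm n F :=
  ⟨M * S.1 * Mᵀ, by
    change (M * S.1 * Mᵀ)ᵀ = _
    have hS : (S.1)ᵀ = S.1 := S.2
    rw [transpose_mul, transpose_mul, transpose_transpose, hS, mul_assoc]⟩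

theorem spM_mul_spT (M : GL (Fin n) F) (S : symm n F) :
    spM M * spT S = spT (cong (M : Matrix (Fin n) (Fin n) F) S) * spM M := by
  apply Subtype.ext
  change fromBlocks (M : Matrix (Fin n) (Fin n) F) 0 0 ((M⁻¹ : GL (Fin n) F) : Matrix (Fin n) (Fin n) F)ᵀ *
      fromBlocks 1 S.1 0 1 =
    fromBlocks 1 ((M : Matrix (Fin n) (Fin n) F) * S.1 * (M : Matrix (Fin n) (Fin n) F)ᵀ) 0 1 *
      fromBlocks (M : Matrix (Fin n) (Fin n) F) 0 0 ((M⁻¹ : GL (Fin n) F) : Matrix (Fin n) (Fin n) F)ᵀ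
  rw [fromBlocks_multiply, fromBlocks_multiply]
  have h1 : (M : Matrix (Fin n) (Fin n) F) * ((M⁻¹ : GL (Fin n) F) : Matrix (Fin n) (Fin n) F) = 1 := by
    rw [← Units.val_mul, mul_inv_cancel, Units.val_one]
  have h2 : (M : Matrix (Fin n) (Fin n) F)ᵀ * (((M⁻¹ : GL (Fin n) F) : Matrix (Fin n) (Fin n) F))ᵀ = 1 := by
    rw [← transpose_mul, ← Units.val_mul, inv_mul_cancel, Units.val_one, transpose_one]
  generalize ((M⁻¹ : GL (Fin n) F) : Matrix (Fin n) (Fin n) F) = N at h1 h2
  simp [mul_assoc, h2]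

theorem spM_mul (M N : GL (Fin n) F) : spM (M * N) = spM M * spM N := by
  apply Subtype.ext
  change fromBlocks ((M * N : GL (Fin n) F) : Matrix (Fin n) (Fin n) F) 0 0
      (((M * N)⁻¹ : GL (Fin n) F) : Matrix (Fin n) (Fin n) F)ᵀ =
    fromBlocks (M : Matrix (Fin n) (Fin n) F) 0 0 ((M⁻¹ : GL (Fin n) F) : Matrix (Fin n) (Fin n) F)ᵀ *
    fromBlocks (N : Matrix (Fin n) (Fin n) F) 0 0 ((N⁻¹ : GL (Fin n) F) : Matrix (Fin n) (Fin n) F)ᵀ
  rw [fromBlocks_multiply]
  simp only [_root_.mul_inv_rev, Units.val_mul, transpose_mul]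
  simp

theorem spM_one : spM (1 : GL (Fin n) F) = 1 := by
  apply Subtype.ext
  change fromBlocks ((1 : GL (Fin n) F) : Matrix (Fin n) (Fin n) F) 0 0
      (((1 : GL (Fin n) F)⁻¹ : GL (Fin n) F) : Matrix (Fin n) (Fin n) F)ᵀ = 1
  simp

section Main

variable {F : Type*} [Field F] [Fintype F] [DecidableEq F] {L : Type*} [Field L]

noncomputable instance : Fintype (symm n F) := Fintype.ofFinite _

/-- The pairing on symmetric matrices. -/
theorem sum_tr (hodd : (2 : F) ≠ 0) (ψ : AddChar F L) (hψ : ψ.IsPrimitive) (c : symm n F) :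
    ∑ a : symm n F, ψ (trace (c.1 * a.1)) = if c = 0 then (Fintype.card (symm n F) : L) else 0 := by
  split_ifs with h
  · subst h
    simp
  · obtain ⟨i, j, hij⟩ : ∃ i j, c.1 i j ≠ 0 := by
      by_contra hall
      push Not at hall
      apply h
      apply Subtype.ext
      ext i j
      exact hall i j
    have hcs : ∀ a b, c.1 b a = c.1 a b := by
      intro a b
      have hS : (c.1)ᵀ = c.1 := c.2
      exact (congrFun (congrFun hS a) b)
    have hu : 2 * c.1 i j ≠ 0 := mul_ne_zero hodd hij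
    have h1 : AddChar.mulShift ψ (2 * c.1 i j) ≠ 1 := hψ hu
    obtain ⟨t, ht⟩ : ∃ t, AddChar.mulShift ψ (2 * c.1 i j) t ≠ 1 := by
      by_contra hall
      push Not at hall
      apply h1
      ext x
      simpa using hall x
    let a₀ : symm n F := ⟨Matrix.single i j t + Matrix.single j i t, by
      change (Matrix.single i j t + Matrix.single j i t)ᵀ = _
      rw [transpose_add, transpose_single, transpose_single, add_comm]⟩
    have h2 : trace (c.1 * a₀.1) = 2 * c.1 i j * t := by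
      change trace (c.1 * (Matrix.single i j t + Matrix.single j i t)) = _
      rw [mul_add, trace_add, trace_mul_single, trace_mul_single]
      simp only [op_smul_eq_mul]
      rw [hcs i j]
      ring
    have h3 : ψ (trace (c.1 * a₀.1)) ≠ 1 := by
      rw [h2]
      simpa [AddChar.mulShift_apply] using ht
    clear_value a₀
    set S := ∑ a : symm n F, ψ (trace (c.1 * a.1)) with hS
    have h4 : S = ψ (trace (c.1 * a₀.1)) * S := by
      rw [hS, Finset.mul_sum]
      refine Fintype.sum_equiv (Equiv.addLeft (-a₀)) _ _ fun a => ?_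
      simp only [Equiv.coe_addLeft]
      rw [← AddChar.map_add_eq_mul]
      congr 1
      change _ = _ + trace (c.1 * (-a₀.1 + a.1))
      rw [mul_add, trace_add, mul_neg, trace_neg]
      ring
    have h5 : (1 - ψ (trace (c.1 * a₀.1))) * S = 0 := by
      linear_combination h4
    exact (mul_eq_zero.mp h5).resolve_left (sub_ne_zero.mpr (Ne.symm h3))

/-- The transpose of an invertible matrix. -/
def trGL (R : GL (Fin n) F) : GL (Fin n) F where
  val := (R : Matrix (Fin n) (Fin n) F)ᵀ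
  inv := ((R⁻¹ : GL (Fin n) F) : Matrix (Fin n) (Fin n) F)ᵀ
  val_inv := by
    rw [← transpose_mul, ← Units.val_mul, inv_mul_cancel, Units.val_one, transpose_one]
  inv_val := by
    rw [← transpose_mul, ← Units.val_mul, mul_inv_cancel, Units.val_one, transpose_one]

/-- Nonvanishing of a corner entry after congruence. -/
theorem exists_corner {k : ℕ} (hodd : (2 : F) ≠ 0) (e : symm (k + 2) F) (he : e ≠ 0) :
    ∃ G : GL (Fin (k + 2)) F, (cong (G : Matrix _ _ F) e).1 0 0 ≠ 0 := by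
  have hes : ∀ a b, e.1 b a = e.1 a b := by
    intro a b
    have hS : (e.1)ᵀ = e.1 := e.2
    exact (congrFun (congrFun hS a) b)
  obtain ⟨v, hv⟩ : ∃ v : Fin (k + 2) → F, v ⬝ᵥ (e.1 *ᵥ v) ≠ 0 := by
    by_contra hall
    push Not at hall
    apply he
    apply Subtype.ext
    ext i j
    have h1 := hall (Pi.single i 1)
    have h2 := hall (Pi.single j 1)
    have h3 := hall (Pi.single i 1 + Pi.single j 1)
    simp only [mulVec_add, add_dotProduct, dotProduct_add, mulVec_single_one, single_one_dotProduct, col_apply] at h1 h2 h3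
    rw [h1, h2, hes i j] at h3
    have : 2 * e.1 i j = 0 := by linear_combination h3
    simpa [hodd] using this
  have hv0 : v ≠ 0 := by
    rintro rfl
    simp at hv
  obtain ⟨g, hg⟩ := Cfsg.Agent.Lib.Classical.exists_SL_mulVec_single v hv0
  have hdet : IsUnit ((g : Matrix (Fin (k + 2)) (Fin (k + 2)) F)ᵀ).det := by
    rw [det_transpose, g.2]
    exact isUnit_one
  refine ⟨Matrix.GeneralLinearGroup.mk'' _ hdet, ?_⟩
  change ((g.1)ᵀ * e.1 * ((g.1)ᵀ)ᵀ) 0 0 ≠ 0
  rw [transpose_transpose]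
  have h1 : ((g.1)ᵀ * e.1 * g.1) 0 0 = v ⬝ᵥ (e.1 *ᵥ v) := by
    have h2 : ∀ A : Matrix (Fin (k + 2)) (Fin (k + 2)) F,
        A 0 0 = (Pi.single 0 1 : Fin (k + 2) → F) ⬝ᵥ (A *ᵥ Pi.single 0 1) := by
      intro A
      simp
    rw [h2 ((g.1)ᵀ * e.1 * g.1), mul_assoc, ← mulVec_mulVec, dotProduct_mulVec, vecMul_transpose, hg, ← mulVec_mulVec, hg]
  rw [h1]
  exact hv

/-- The lower triangular matrix used for counting. -/
def nn {k : ℕ} (t : F) (x : Fin (k + 1) → F) : Matrix (Fin (k + 2)) (Fin (k + 2)) F :=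
  Matrix.of fun i j => Fin.cases (if j = 0 then t else 0)
    (fun l => (if j = 0 then x l else 0) + (if j = l.succ then 1 else 0)) i

theorem nn_det {k : ℕ} (t : F) (x : Fin (k + 1) → F) : (nn t x).det = t := by
  rw [det_of_lowerTriangular]
  · rw [Fin.prod_univ_succ]
    simp [nn, Fin.succ_ne_zero]
  · intro i j hij
    have hij' : i < j := hij
    have hj0 : j ≠ 0 := by
      rintro rfl
      exact absurd hij' (Fin.not_lt_zero i)
    refine Fin.cases ?_ (fun l => ?_) i hij'
    · intro _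
      simp [nn, hj0]
    · intro hl
      simp [nn, hj0, (ne_of_lt hl).symm]

/-- The corner entries of the counting congruence. -/
theorem nn_cong_zero {k : ℕ} (t : F) (x : Fin (k + 1) → F) (E : Matrix (Fin (k + 2)) (Fin (k + 2)) F) :
    (nn t x * E * (nn t x)ᵀ) 0 0 = t ^ 2 * E 0 0 := by
  have h1 : ∀ j, (nn t x) 0 j = if j = 0 then t else 0 := fun j => rfl
  simp only [Matrix.mul_apply, Matrix.transpose_apply, h1]
  simp [Finset.sum_ite_eq']
  ring

theorem nn_cong_succ {k : ℕ} (t : F) (x : Fin (k + 1) → F) (E : Matrix (Fin (k + 2)) (Fin (k + 2)) F)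
    (l : Fin (k + 1)) :
    (nn t x * E * (nn t x)ᵀ) 0 l.succ = t * (E 0 0 * x l + E 0 l.succ) := by
  have h1 : ∀ j, (nn t x) 0 j = if j = 0 then t else 0 := fun j => rfl
  have h2 : ∀ j, (nn t x) l.succ j = (if j = 0 then x l else 0) + (if j = l.succ then 1 else 0) := fun j => rfl
  simp only [Matrix.mul_apply, Matrix.transpose_apply, h1, h2]
  simp only [ite_mul, zero_mul, Finset.sum_ite_eq', Finset.mem_univ, if_true, mul_add, mul_ite, mul_zero, mul_one,
    Finset.sum_add_distrib]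
  simp [Finset.sum_ite_eq']
  ring

end Main

/-- The Landazuri–Seitz type bound for `Sp_{2n}`, `q` odd. -/
theorem sp_cross_bound {F : Type*} [Field F] [Fintype F] {q : ℕ} (hq : Fintype.card F = q) (hodd : Odd q)
    (n : ℕ) (hn : 2 ≤ n) {K : Type*} [Field K] (hK : ringChar K ≠ ringChar F) {d : ℕ}
    (ρ : ↥(symplecticGroup (Fin n) F) →* GL (Fin d) K)
    (hker : ρ.ker ≤ Subgroup.center ↥(symplecticGroup (Fin n) F)) :
    q ^ (n - 1) * (q - 1) / 2 ≤ d := by
  classical
  obtain ⟨k, rfl⟩ : ∃ k, n = k + 2 := ⟨n - 2, by omega⟩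
  have h2F : (2 : F) ≠ 0 := by
    apply Ring.two_ne_zero
    intro h
    have := FiniteField.even_card_iff_char_two.mp h
    rw [hq] at this
    rcases hodd with ⟨r, hr⟩
    omega
  let pc := AddChar.FiniteField.primitiveChar F K hK
  let L := CyclotomicField pc.n K
  let ψ : AddChar F L := pc.char
  have hψ : ψ.IsPrimitive := pc.prim
  have hqL : (Fintype.card F : L) ≠ 0 := by
    have h1 := CrossSL.card_cast_ne_zero (F := F) (K := K) hK
    have h2 : algebraMap K L (Fintype.card F : K) ≠ 0 := (map_ne_zero _).mpr h1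
    simpa using h2
  let φ := baseHom ρ L
  let A := symm (k + 2) F
  have hcardA : (Fintype.card A : L) ≠ 0 := by
    have h1 : Nat.card A ∣ Nat.card (Matrix (Fin (k + 2)) (Fin (k + 2)) F) :=
      AddSubgroup.card_addSubgroup_dvd_card _
    rw [Nat.card_eq_fintype_card, Nat.card_eq_fintype_card] at h1
    obtain ⟨c, hc⟩ := h1
    intro h0
    have h3 : (Fintype.card (Matrix (Fin (k + 2)) (Fin (k + 2)) F) : L) = 0 := by
      rw [hc, Nat.cast_mul, h0, zero_mul]
    have h4 : Fintype.card (Matrix (Fin (k + 2)) (Fin (k + 2)) F) = Fintype.card F ^ ((k + 2) * (k + 2)) := by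
      change Fintype.card (Fin (k + 2) → Fin (k + 2) → F) = _
      rw [Fintype.card_fun, Fintype.card_fun, Fintype.card_fin, pow_mul]
    rw [h4] at h3
    push_cast at h3
    exact pow_ne_zero _ hqL h3
  let z : A → Module.End L (Fin d → L) := fun S => φ (spT S)
  let χ : A → A → L := fun e S => ψ (trace (e.1 * S.1))
  have hzadd : ∀ a b, z (a + b) = z a * z b := by
    intro a b
    simp only [z]
    rw [spT_add, map_mul]
  have hχadd : ∀ e a b, χ e (a + b) = χ e a * χ e b := by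
    intro e a b
    simp only [χ]
    change ψ (trace (e.1 * (a.1 + b.1))) = _
    rw [mul_add, trace_add, AddChar.map_add_eq_mul]
  have hz0 : z 0 = 1 := by
    simp only [z]
    rw [spT_zero, map_one]
  let P : A → Module.End L (Fin d → L) := fP z χ
  have horth : ∀ e e', ∑ a, χ e (-a) * χ e' a = if e = e' then (Fintype.card A : L) else 0 := by
    intro e e'
    have h1 : ∀ a : A, χ e (-a) * χ e' a = ψ (trace ((e' - e).1 * a.1)) := by
      intro a
      simp only [χ]
      rw [← AddChar.map_add_eq_mul]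
      congr 1
      change trace (e.1 * (-a.1)) + trace (e'.1 * a.1) = trace ((e'.1 - e.1) * a.1)
      rw [mul_neg, trace_neg, sub_mul, trace_sub]
      ring
    simp only [h1]
    rw [sum_tr h2F ψ hψ]
    by_cases h : e = e'
    · rw [if_pos h, if_pos (by rw [h, sub_self])]
    · rw [if_neg h, if_neg (sub_ne_zero.mpr (Ne.symm h))]
  have hPP : ∀ e e', P e * P e' = if e = e' then P e' else 0 :=
    fun e e' => fP_mul_fP z hzadd χ hχadd horth hcardA e e'
  have hsumP : ∑ e, P e = 1 := by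
    refine sum_fP z χ ?_ hcardA hz0
    intro a
    have h1 : ∀ e : A, χ e (-a) = ψ (trace ((-a).1 * e.1)) := by
      intro e
      simp only [χ]
      rw [trace_mul_comm]
    simp only [h1]
    rw [sum_tr h2F ψ hψ]
    simp only [neg_eq_zero]
    rfl
  -- a nonzero component
  obtain ⟨e₀, he₀, hPe₀⟩ : ∃ e : A, e ≠ 0 ∧ P e ≠ 0 := by
    by_contra hall
    push Not at hall
    have h1 : P 0 = 1 := by
      rw [← hsumP, Finset.sum_eq_single (0 : A)]
      · intro b _ hb
        exact hall b hb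
      · simp
    -- the root element is not central
    let S₀ : A := ⟨Matrix.single 0 0 1, by
      change (Matrix.single 0 0 (1 : F))ᵀ = _
      rw [transpose_single]⟩
    have h2 := z_mul_fP z hzadd χ hχadd S₀ (0 : A)
    change z S₀ * P 0 = χ 0 S₀ • P 0 at h2
    rw [h1] at h2
    have h3 : φ (spT S₀) = 1 := by
      simpa [χ, z] using h2
    have h4 : ρ (spT S₀) = 1 := eq_one_of_baseHom ρ L _ h3
    have h5 : spT S₀ ∈ Subgroup.center ↥(symplecticGroup (Fin (k + 2)) F) := hker h4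
    have h6 := Subgroup.mem_center_iff.mp h5 (spL S₀)
    have h7 := congrArg (fun g : ↥(symplecticGroup (Fin (k + 2)) F) =>
      (g : Matrix (Fin (k + 2) ⊕ Fin (k + 2)) (Fin (k + 2) ⊕ Fin (k + 2)) F) (Sum.inl 0) (Sum.inl 0)) h6
    change (fromBlocks 1 0 S₀.1 1 * fromBlocks 1 S₀.1 0 1 : Matrix (Fin (k + 2) ⊕ Fin (k + 2)) (Fin (k + 2) ⊕ Fin (k + 2)) F) (Sum.inl 0) (Sum.inl 0) =
      (fromBlocks 1 S₀.1 0 1 * fromBlocks 1 0 S₀.1 1 : Matrix (Fin (k + 2) ⊕ Fin (k + 2)) (Fin (k + 2) ⊕ Fin (k + 2)) F) (Sum.inl 0) (Sum.inl 0) at h7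
    rw [fromBlocks_multiply, fromBlocks_multiply] at h7
    simp only [fromBlocks_apply₁₁] at h7
    have hS₀ : S₀.1 = Matrix.single 0 0 1 := rfl
    rw [hS₀] at h7
    simp [Matrix.one_apply] at h7
  -- the Levi factor permutes the components
  have hconj : ∀ (M : GL (Fin (k + 2)) F) (e : A),
      φ (spM M) * P (cong (M : Matrix (Fin (k + 2)) (Fin (k + 2)) F)ᵀ e) = P e * φ (spM M) := by
    intro M e
    simp only [P, fP]
    rw [mul_smul_comm, smul_mul_assoc]
    congr 1
    rw [Finset.mul_sum, Finset.sum_mul]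
    let τ : A ≃ A :=
      { toFun := fun a => cong (M : Matrix (Fin (k + 2)) (Fin (k + 2)) F) a
        invFun := fun a => cong ((M⁻¹ : GL (Fin (k + 2)) F) : Matrix (Fin (k + 2)) (Fin (k + 2)) F) a
        left_inv := by
          intro a
          apply Subtype.ext
          change ((M⁻¹ : GL (Fin (k + 2)) F) : Matrix (Fin (k + 2)) (Fin (k + 2)) F) * ((M : Matrix (Fin (k + 2)) (Fin (k + 2)) F) * a.1 * (M : Matrix (Fin (k + 2)) (Fin (k + 2)) F)ᵀ) *
            (((M⁻¹ : GL (Fin (k + 2)) F) : Matrix (Fin (k + 2)) (Fin (k + 2)) F))ᵀ = a.1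
          have h1 : ((M⁻¹ : GL (Fin (k + 2)) F) : Matrix (Fin (k + 2)) (Fin (k + 2)) F) * (M : Matrix (Fin (k + 2)) (Fin (k + 2)) F) = 1 := by
            rw [← Units.val_mul, inv_mul_cancel, Units.val_one]
          have h2 : (M : Matrix (Fin (k + 2)) (Fin (k + 2)) F)ᵀ * (((M⁻¹ : GL (Fin (k + 2)) F) : Matrix (Fin (k + 2)) (Fin (k + 2)) F))ᵀ = 1 := by
            rw [← transpose_mul, h1, transpose_one]
          calc _ = (((M⁻¹ : GL (Fin (k + 2)) F) : Matrix (Fin (k + 2)) (Fin (k + 2)) F) * (M : Matrix (Fin (k + 2)) (Fin (k + 2)) F)) * a.1 *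
                ((M : Matrix (Fin (k + 2)) (Fin (k + 2)) F)ᵀ * (((M⁻¹ : GL (Fin (k + 2)) F) : Matrix (Fin (k + 2)) (Fin (k + 2)) F))ᵀ) := by
                simp only [mul_assoc]
            _ = a.1 := by rw [h1, h2, one_mul, mul_one]
        right_inv := by
          intro a
          apply Subtype.ext
          change (M : Matrix (Fin (k + 2)) (Fin (k + 2)) F) * (((M⁻¹ : GL (Fin (k + 2)) F) : Matrix (Fin (k + 2)) (Fin (k + 2)) F) * a.1 *
            (((M⁻¹ : GL (Fin (k + 2)) F) : Matrix (Fin (k + 2)) (Fin (k + 2)) F))ᵀ) * (M : Matrix (Fin (k + 2)) (Fin (k + 2)) F)ᵀ = a.1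
          have h1 : (M : Matrix (Fin (k + 2)) (Fin (k + 2)) F) * ((M⁻¹ : GL (Fin (k + 2)) F) : Matrix (Fin (k + 2)) (Fin (k + 2)) F) = 1 := by
            rw [← Units.val_mul, mul_inv_cancel, Units.val_one]
          have h2 : (((M⁻¹ : GL (Fin (k + 2)) F) : Matrix (Fin (k + 2)) (Fin (k + 2)) F))ᵀ * (M : Matrix (Fin (k + 2)) (Fin (k + 2)) F)ᵀ = 1 := by
            rw [← transpose_mul, h1, transpose_one]
          calc _ = ((M : Matrix (Fin (k + 2)) (Fin (k + 2)) F) * ((M⁻¹ : GL (Fin (k + 2)) F) : Matrix (Fin (k + 2)) (Fin (k + 2)) F)) * a.1 *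
                ((((M⁻¹ : GL (Fin (k + 2)) F) : Matrix (Fin (k + 2)) (Fin (k + 2)) F))ᵀ * (M : Matrix (Fin (k + 2)) (Fin (k + 2)) F)ᵀ) := by
                simp only [mul_assoc]
            _ = a.1 := by rw [h1, h2, one_mul, mul_one] }
    refine Fintype.sum_equiv τ _ _ fun a => ?_
    rw [mul_smul_comm, smul_mul_assoc]
    have e1 : φ (spM M) * z a = z (τ a) * φ (spM M) := by
      simp only [z]
      rw [← map_mul, ← map_mul, spM_mul_spT]
      rfl
    rw [e1]
    congr 1
    simp only [χ]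
    congr 1
    change trace ((M : Matrix (Fin (k + 2)) (Fin (k + 2)) F)ᵀ * e.1 * ((M : Matrix (Fin (k + 2)) (Fin (k + 2)) F)ᵀ)ᵀ * (-a.1)) =
      trace (e.1 * (-((M : Matrix (Fin (k + 2)) (Fin (k + 2)) F) * a.1 * (M : Matrix (Fin (k + 2)) (Fin (k + 2)) F)ᵀ)))
    rw [transpose_transpose, mul_neg, mul_neg, trace_neg, trace_neg]
    congr 1
    generalize (M : Matrix (Fin (k + 2)) (Fin (k + 2)) F) = m
    generalize e.1 = ee
    generalize a.1 = aa
    calc trace (mᵀ * ee * m * aa) = trace (mᵀ * (ee * (m * aa))) := by simp only [mul_assoc]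
      _ = trace ((ee * (m * aa)) * mᵀ) := trace_mul_comm _ _
      _ = trace (ee * (m * aa * mᵀ)) := by simp only [mul_assoc]
  -- invertibility
  have hinv : ∀ M : GL (Fin (k + 2)) F, φ (spM M) * φ (spM M⁻¹) = 1 := by
    intro M
    rw [← map_mul, ← spM_mul, mul_inv_cancel, spM_one, map_one]
  have hne : ∀ (R : GL (Fin (k + 2)) F), P (cong (R : Matrix (Fin (k + 2)) (Fin (k + 2)) F) e₀) ≠ 0 := by
    intro R h0
    have h1 := hconj (trGL R) e₀
    have h2 : ((trGL R : GL (Fin (k + 2)) F) : Matrix (Fin (k + 2)) (Fin (k + 2)) F)ᵀ = (R : Matrix (Fin (k + 2)) (Fin (k + 2)) F) :=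
      transpose_transpose _
    rw [h2, h0, mul_zero] at h1
    apply hPe₀
    calc P e₀ = P e₀ * (φ (spM (trGL R)) * φ (spM (trGL R)⁻¹)) := by rw [hinv, mul_one]
      _ = (P e₀ * φ (spM (trGL R))) * φ (spM (trGL R)⁻¹) := by rw [mul_assoc]
      _ = 0 := by rw [← h1, zero_mul]
  -- the injection
  obtain ⟨G, hG⟩ := exists_corner h2F e₀ he₀
  set e₁ : A := cong (G : Matrix (Fin (k + 2)) (Fin (k + 2)) F) e₀ with he₁
  set a := e₁.1 0 0 with ha
  have hS : ∀ s : ((powMonoidHom 2 : Fˣ →* Fˣ).range), ∃ t : Fˣ, t ^ 2 = s.1 := by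
    rintro ⟨s, t, rfl⟩
    exact ⟨t, rfl⟩
  choose tt htt using hS
  let Sq := ((powMonoidHom 2 : Fˣ →* Fˣ).range)
  let X := Sq × (Fin (k + 1) → F)
  have hdet : ∀ x : X, IsUnit (nn ((tt x.1 : Fˣ) : F) x.2).det := by
    intro x
    rw [nn_det]
    exact (tt x.1).isUnit
  let f : X → A := fun x => cong (nn ((tt x.1 : Fˣ) : F) x.2) e₁
  have hfne : ∀ x, P (f x) ≠ 0 := by
    intro x
    have h1 := hne (Matrix.GeneralLinearGroup.mk'' _ (hdet x) * G)
    have h2 : cong (((Matrix.GeneralLinearGroup.mk'' _ (hdet x) * G : GL (Fin (k + 2)) F)) : Matrix (Fin (k + 2)) (Fin (k + 2)) F) e₀ = f x := by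
      apply Subtype.ext
      change (nn ((tt x.1 : Fˣ) : F) x.2 * (G : Matrix (Fin (k + 2)) (Fin (k + 2)) F)) * e₀.1 *
        (nn ((tt x.1 : Fˣ) : F) x.2 * (G : Matrix (Fin (k + 2)) (Fin (k + 2)) F))ᵀ =
        nn ((tt x.1 : Fˣ) : F) x.2 * ((G : Matrix (Fin (k + 2)) (Fin (k + 2)) F) * e₀.1 * (G : Matrix (Fin (k + 2)) (Fin (k + 2)) F)ᵀ) * (nn ((tt x.1 : Fˣ) : F) x.2)ᵀ
      rw [transpose_mul]
      simp only [mul_assoc]
    rwa [h2] at h1
  have hfinj : Function.Injective f := by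
    rintro ⟨s, x⟩ ⟨s', x'⟩ hxx
    have he := congrArg Subtype.val hxx
    have h00 := congrFun (congrFun he 0) 0
    change (nn ((tt s : Fˣ) : F) x * e₁.1 * (nn ((tt s : Fˣ) : F) x)ᵀ) 0 0 =
      (nn ((tt s' : Fˣ) : F) x' * e₁.1 * (nn ((tt s' : Fˣ) : F) x')ᵀ) 0 0 at h00
    rw [nn_cong_zero, nn_cong_zero] at h00
    have hsq : (tt s : F) ^ 2 = (tt s' : F) ^ 2 := mul_right_cancel₀ hG h00
    have hss : s = s' := by
      apply Subtype.ext
      rw [← htt s, ← htt s']
      apply Units.ext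
      simpa using hsq
    subst hss
    have hxx' : x = x' := by
      funext l
      have h0l := congrFun (congrFun he 0) l.succ
      change (nn ((tt s : Fˣ) : F) x * e₁.1 * (nn ((tt s : Fˣ) : F) x)ᵀ) 0 l.succ =
        (nn ((tt s : Fˣ) : F) x' * e₁.1 * (nn ((tt s : Fˣ) : F) x')ᵀ) 0 l.succ at h0l
      rw [nn_cong_succ, nn_cong_succ] at h0l
      have h1 := mul_left_cancel₀ (tt s).ne_zero h0l
      have h2 : e₁.1 0 0 * x l = e₁.1 0 0 * x' l := add_right_cancel h1
      exact mul_left_cancel₀ hG h2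
    rw [hxx']
  have hcount := card_le_finrank_of_injective P hPP f hfinj hfne
  rw [Module.finrank_fin_fun] at hcount
  have hSq : Nat.card Sq = (q - 1) / 2 := by
    have h1 := IsCyclic.card_powMonoidHom_range (G := Fˣ) 2
    have h3 : Nat.card Fˣ = q - 1 := by
      rw [Nat.card_eq_fintype_card, Fintype.card_units, hq]
    rw [h3] at h1
    have h4 : (q - 1).gcd 2 = 2 := by
      apply Nat.gcd_eq_right
      rcases hodd with ⟨r, hr⟩
      exact ⟨r, by omega⟩
    rw [h4] at h1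
    exact h1
  have hcardX : Fintype.card X = (q - 1) / 2 * q ^ (k + 1) := by
    simp only [X, Fintype.card_prod]
    rw [← Nat.card_eq_fintype_card (α := Sq), hSq]
    simp [hq]
  rw [hcardX] at hcount
  have hfinal : q ^ (k + 2 - 1) * (q - 1) / 2 = (q - 1) / 2 * q ^ (k + 1) := by
    rcases hodd with ⟨r, hr⟩
    have h5 : q - 1 = 2 * r := by omega
    rw [h5]
    have : k + 2 - 1 = k + 1 := by omega
    rw [this, Nat.mul_div_cancel_left _ (by norm_num : 0 < 2), mul_comm (q ^ (k + 1)), mul_assoc,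
      Nat.mul_div_cancel_left _ (by norm_num : 0 < 2)]
  rw [hfinal]
  exact hcount

end CrossSp
end Cfsg.Agent.Lib.Known
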