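import Cfsg.Agent.Lib.Known.BNCox
import Cfsg.Agent.Lib.Char.PermChar
import Cfsg.Agent.Lib.Known.Discrete

set_option autoImplicit false
set_option linter.unusedVariables false

/-! The Steinberg character of a finite group with a (B,N)-pair. -/

namespace Cfsg.Agent.Lib.Known.BNSt

open Cfsg Cfsg.Agent.Lib.BN MulAction

variable {G : Type*} [Group G] {P : BNPair G} {ι : Type*} [DecidableEq ι] {I : Finset ι} {σ : ι → G}

/-- A labelling of the distinguished generators. -/
structure Lab (P : BNPair G) (I : Finset ι) (σ : ι → G) : Prop where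
  image : σ '' (I : Set ι) = P.S
  inj : Set.InjOn σ I

/-- The set of generators labelled by `J`. -/
abbrev JS (σ : ι → G) (J : Finset ι) : Set G := σ '' (J : Set ι)

theorem Lab.sub (hL : Lab P I σ) {J : Finset ι} (hJ : J ⊆ I) : JS σ J ⊆ P.S := by
  rw [← hL.image]
  exact Set.image_mono (by exact_mod_cast hJ)

theorem Lab.mem (hL : Lab P I σ) {i : ι} (hi : i ∈ I) : σ i ∈ P.S := by
  rw [← hL.image]
  exact ⟨i, hi, rfl⟩

open scoped _root_.Classical in
/-- The right descents of `n`. -/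
noncomputable def rd (P : BNPair G) (I : Finset ι) (σ : ι → G) (n : G) : Finset ι :=
  I.filter fun i => len P (n * σ i) < len P n

open scoped _root_.Classical in
/-- The left descents of `n`. -/
noncomputable def ld (P : BNPair G) (I : Finset ι) (σ : ι → G) (n : G) : Finset ι :=
  I.filter fun i => len P (σ i * n) < len P n

theorem rd_subset (n : G) : rd P I σ n ⊆ I := Finset.filter_subset _ _
theorem ld_subset (n : G) : ld P I σ n ⊆ I := Finset.filter_subset _ _

theorem mem_rd {n : G} {i : ι} : i ∈ rd P I σ n ↔ i ∈ I ∧ len P (n * σ i) < len P n := by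
  simp [rd]

theorem mem_ld {n : G} {i : ι} : i ∈ ld P I σ n ↔ i ∈ I ∧ len P (σ i * n) < len P n := by
  simp [ld]

theorem rd_congr (hL : Lab P I σ) {n n' : G} (hn : n ∈ P.N) (hn' : n' ∈ P.N) (h : n⁻¹ * n' ∈ P.B) :
    rd P I σ n' = rd P I σ n := by
  ext i
  rw [mem_rd, mem_rd]
  refine and_congr_right fun hi => ?_
  rw [len_mul_S_congr (hL.mem hi) hn hn' h, len_congr hn h hn']

theorem ld_congr (hL : Lab P I σ) {n n' : G} (hn : n ∈ P.N) (hn' : n' ∈ P.N) (h : n⁻¹ * n' ∈ P.B) :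
    ld P I σ n' = ld P I σ n := by
  ext i
  rw [mem_ld, mem_ld]
  refine and_congr_right fun hi => ?_
  rw [len_S_mul_congr (hL.mem hi) hn hn' h, len_congr hn h hn']

theorem red_iff (hL : Lab P I σ) {J K : Finset ι} (hJ : J ⊆ I) (hK : K ⊆ I) {n : G} (hn : n ∈ P.N) :
    Red P (JS σ J) (JS σ K) n ↔ Disjoint J (ld P I σ n) ∧ Disjoint K (rd P I σ n) := by
  constructor
  · rintro ⟨h1, h2⟩
    constructor
    · rw [Finset.disjoint_left]
      intro i hi hi'
      have := h1 (σ i) ⟨i, hi, rfl⟩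
      have h3 := (mem_ld.mp hi').2
      omega
    · rw [Finset.disjoint_left]
      intro i hi hi'
      have := h2 (σ i) ⟨i, hi, rfl⟩
      have h3 := (mem_rd.mp hi').2
      omega
  · rintro ⟨h1, h2⟩
    constructor
    · rintro _ ⟨i, hi, rfl⟩
      have hi' : i ∈ J := hi
      have h3 : i ∉ ld P I σ n := Finset.disjoint_left.mp h1 hi'
      rw [mem_ld] at h3
      have h4 := len_S_mul_ne (hL.mem (hJ hi')) hn
      have h5 : ¬ len P (σ i * n) < len P n := fun h => h3 ⟨hJ hi', h⟩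
      omega
    · rintro _ ⟨i, hi, rfl⟩
      have hi' : i ∈ K := hi
      have h3 : i ∉ rd P I σ n := Finset.disjoint_left.mp h2 hi'
      rw [mem_rd] at h3
      have h4 := len_mul_S_ne (hL.mem (hK hi')) hn
      have h5 : ¬ len P (n * σ i) < len P n := fun h => h3 ⟨hK hi', h⟩
      omega

theorem red_empty_iff (hL : Lab P I σ) {K : Finset ι} (hK : K ⊆ I) {n : G} (hn : n ∈ P.N) :
    Red P ∅ (JS σ K) n ↔ Disjoint K (rd P I σ n) := by
  have h := red_iff hL (J := ∅) (Finset.empty_subset I) hK hn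
  have e : JS σ (∅ : Finset ι) = ∅ := by simp [JS]
  rw [e] at h
  rw [h]
  simp

theorem top_iff (hL : Lab P I σ) {n : G} : Top P n ↔ rd P I σ n = I := by
  constructor
  · intro h
    apply Finset.filter_true_of_mem
    intro i hi
    exact h _ (hL.mem hi)
  · intro h s hs
    rw [← hL.image] at hs
    obtain ⟨i, hi, rfl⟩ := hs
    have hi' : i ∈ rd P I σ n := by rw [h]; exact hi
    exact (mem_rd.mp hi').2

/-! ### Cosets -/

/-- The projection from the cosets of `B` to the cosets of a parabolic subgroup. -/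
def toPar (J : Set G) : G ⧸ P.B → G ⧸ P.parabolic J :=
  Quotient.map' id (by
    intro a b h
    rw [QuotientGroup.leftRel_apply] at h ⊢
    exact B_le_parabolic J h)

@[simp] theorem toPar_mk (J : Set G) (g : G) : toPar (P := P) J (g : G ⧸ P.B) = (g : G ⧸ P.parabolic J) := rfl

theorem toPar_smul (J : Set G) (a : G) (x : G ⧸ P.B) : toPar J (a • x) = a • toPar J x := by
  obtain ⟨g, rfl⟩ := QuotientGroup.mk_surjective x
  rfl

/-- Chosen Bruhat element of a coset. -/
noncomputable def nOf (P : BNPair G) (x : G ⧸ P.B) : G := Classical.choose (bruhat (P := P) x.out)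

theorem nOf_mem (x : G ⧸ P.B) : nOf P x ∈ P.N := (Classical.choose_spec (bruhat (P := P) x.out)).1

theorem nOf_dc (x : G ⧸ P.B) : DC P (nOf P x) x.out := (Classical.choose_spec (bruhat (P := P) x.out)).2

/-- The descent set of a coset. -/
noncomputable def dsc (P : BNPair G) (I : Finset ι) (σ : ι → G) (x : G ⧸ P.B) : Finset ι :=
  rd P I σ (nOf P x)

theorem nOf_mk {g n : G} (hn : n ∈ P.N) (hg : DC P n g) : (nOf P (g : G ⧸ P.B))⁻¹ * n ∈ P.B := by
  apply dc_unique (nOf_mem _) hn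
  have h1 := nOf_dc (P := P) (g : G ⧸ P.B)
  have h2 : g⁻¹ * (Quotient.out (g : G ⧸ P.B)) ∈ P.B := by
    rw [← QuotientGroup.eq]
    exact (QuotientGroup.out_eq' _).symm
  have h3 : DC P n (Quotient.out (g : G ⧸ P.B)) := by
    have e : Quotient.out (g : G ⧸ P.B) = g * (g⁻¹ * (Quotient.out (g : G ⧸ P.B))) := by group
    rw [e]
    exact hg.mul_right h2
  exact h1.trans h3.symm

theorem dsc_mk (hL : Lab P I σ) {g n : G} (hn : n ∈ P.N) (hg : DC P n g) :
    dsc P I σ (g : G ⧸ P.B) = rd P I σ n :=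
  (rd_congr hL (nOf_mem _) hn (nOf_mk hn hg)).symm

theorem dsc_subset (x : G ⧸ P.B) : dsc P I σ x ⊆ I := rd_subset _

theorem dsc_smul (hL : Lab P I σ) {b : G} (hb : b ∈ P.B) (x : G ⧸ P.B) :
    dsc P I σ (b • x) = dsc P I σ x := by
  obtain ⟨g, rfl⟩ := QuotientGroup.mk_surjective x
  obtain ⟨n, hn, hg⟩ := bruhat (P := P) g
  rw [dsc_mk hL hn hg]
  exact dsc_mk hL hn (hg.mul_left hb)

/-- The basic bijection: the cosets of `P_K` are the `K`-reduced cosets of `B`. -/
theorem toPar_bijective (hL : Lab P I σ) {K : Finset ι} (hK : K ⊆ I) :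
    Function.Bijective (fun x : {x : G ⧸ P.B // Disjoint K (dsc P I σ x)} => toPar (JS σ K) x.1) := by
  have hKS := hL.sub hK
  have hE : (∅ : Set G) ⊆ P.S := Set.empty_subset _
  constructor
  · rintro ⟨x, hx⟩ ⟨x', hx'⟩ e
    obtain ⟨g, rfl⟩ := QuotientGroup.mk_surjective x
    obtain ⟨g', rfl⟩ := QuotientGroup.mk_surjective x'
    simp only [toPar_mk] at e
    rw [QuotientGroup.eq] at e
    obtain ⟨n, hn, hdc⟩ := bruhat (P := P) g
    obtain ⟨n', hn', hdc'⟩ := bruhat (P := P) g'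
    rw [dsc_mk hL hn hdc] at hx
    rw [dsc_mk hL hn' hdc'] at hx'
    have hr := (red_empty_iff hL hK hn).mpr hx
    have hr' := (red_empty_iff hL hK hn').mpr hx'
    obtain ⟨c, hc, b₃, h₃, b₄, h₄, e3⟩ := (mem_parabolic_iff hKS _).mp e
    have hcW := closure_le_WJ (P := P) _ hc
    have hcN := WJ_le_N hKS hcW
    obtain ⟨b₁, h₁, b₂, h₂, e1⟩ := hdc
    have e4 : g' = b₁ * (n * (b₂ * b₃) * c) * b₄ := by
      have : g' = g * (g⁻¹ * g') := by group
      rw [this, e3, e1]
      group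
    have h5 := dc_mul_of_red hKS hn hr hcW (P.B.mul_mem h₂ h₃)
    have h6 : DC P (n * c) g' := by
      rw [e4]
      exact (h5.mul_left h₁).mul_right h₄
    have h7 := dc_unique (P.N.mul_mem hn hcN) hn' (h6.trans hdc'.symm)
    -- `n' = n * (c * h)`
    have h8 : n⁻¹ * n' ∈ P.B := by
      apply red_unique hE hKS hn hn' hr hr' (a := 1) (c := c * ((n * c)⁻¹ * n')) (Subgroup.one_mem _)
      · apply Subgroup.mul_mem _ hcW
        apply H_le_WJ
        exact ⟨h7, P.N.mul_mem (P.N.inv_mem (P.N.mul_mem hn hcN)) hn'⟩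
      · group
    -- so `c ∈ B`
    have h9 : c ∈ P.B := by
      have e5 : c = (n⁻¹ * n') * ((n * c)⁻¹ * n')⁻¹ := by group
      rw [e5]
      exact P.B.mul_mem h8 (P.B.inv_mem h7)
    apply Subtype.ext
    simp only
    rw [QuotientGroup.eq, e3]
    exact P.B.mul_mem (P.B.mul_mem h₃ h9) h₄
  · intro y
    obtain ⟨g, rfl⟩ := QuotientGroup.mk_surjective y
    obtain ⟨n, hn, b₁, h₁, b₂, h₂, rfl⟩ := bruhat (P := P) g
    obtain ⟨a, ha, c, hc, hr⟩ := exists_red hE hKS hn
    have haN := WJ_le_N hE ha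
    have hcN := WJ_le_N hKS hc
    have haB : a ∈ P.B := by
      have : WJ P ∅ = P.B ⊓ P.N := by
        unfold WJ
        simp
      rw [this] at ha
      exact ha.1
    have hn₀ : a * n * c ∈ P.N := P.N.mul_mem (P.N.mul_mem haN hn) hcN
    set g₀ := b₁ * a⁻¹ * (a * n * c) with hg₀
    have hdc₀ : DC P (a * n * c) g₀ := ⟨b₁ * a⁻¹, P.B.mul_mem h₁ (P.B.inv_mem haB), 1, P.B.one_mem, by
      rw [hg₀]; group⟩
    refine ⟨⟨(g₀ : G ⧸ P.B), ?_⟩, ?_⟩
    · rw [dsc_mk hL hn₀ hdc₀]
      exact (red_empty_iff hL hK hn₀).mp hr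
    · simp only [toPar_mk]
      rw [QuotientGroup.eq]
      have hcP : c ∈ P.parabolic (JS σ K) := by
        have : WJ P (JS σ K) ≤ P.parabolic (JS σ K) :=
          sup_le le_sup_right (inf_le_left.trans le_sup_left)
        exact this hc
      have e : g₀⁻¹ * (b₁ * n * b₂) = c⁻¹ * b₂ := by
        rw [hg₀]; group
      rw [e]
      exact Subgroup.mul_mem _ (Subgroup.inv_mem _ hcP) (B_le_parabolic _ h₂)

/-- Fixed points of elements of `B` on the cosets of `P_K`. -/
theorem card_fixedBy_parabolic (hL : Lab P I σ) {K : Finset ι} (hK : K ⊆ I) {b : G} (hb : b ∈ P.B) :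
    Nat.card (fixedBy (G ⧸ P.parabolic (JS σ K)) b) =
      Nat.card {x : G ⧸ P.B // b • x = x ∧ Disjoint K (dsc P I σ x)} := by
  obtain ⟨hinj, hsurj⟩ := toPar_bijective hL hK
  symm
  apply Nat.card_congr
  refine Equiv.ofBijective (fun x => ⟨toPar (JS σ K) x.1, ?_⟩) ⟨?_, ?_⟩
  · have h := congrArg (toPar (JS σ K)) x.2.1
    rw [toPar_smul] at h
    exact h
  · rintro ⟨x, hx⟩ ⟨x', hx'⟩ e
    have e' : toPar (JS σ K) x = toPar (JS σ K) x' := congrArg Subtype.val e
    have := @hinj ⟨x, hx.2⟩ ⟨x', hx'.2⟩ e'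
    apply Subtype.ext
    change x = x'
    exact congrArg (fun z : {x : G ⧸ P.B // Disjoint K (dsc P I σ x)} => z.1) this
  · rintro ⟨y, hy⟩
    obtain ⟨⟨x, hx⟩, rfl⟩ := hsurj y
    have hy' : b • toPar (JS σ K) x = toPar (JS σ K) x := hy
    have hx' : Disjoint K (dsc P I σ (b • x)) := by
      rw [dsc_smul hL hb]
      exact hx
    have h1 : b • x = x := by
      have := @hinj ⟨b • x, hx'⟩ ⟨x, hx⟩ (by
        simp only
        rw [toPar_smul, hy'])
      exact congrArg (fun z : {x : G ⧸ P.B // Disjoint K (dsc P I σ x)} => z.1) this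
    exact ⟨⟨x, h1, hx⟩, rfl⟩

/-- The sign sum. -/
theorem sum_sign_disjoint (I D : Finset ι) (hD : D ⊆ I) :
    (∑ J ∈ I.powerset, (if Disjoint J D then (-1 : ℂ) ^ J.card else 0)) = if D = I then 1 else 0 := by
  have h1 : (∑ J ∈ I.powerset, (if Disjoint J D then (-1 : ℂ) ^ J.card else 0)) =
      ∑ J ∈ (I \ D).powerset, (-1 : ℂ) ^ J.card := by
    rw [← Finset.sum_filter]
    apply Finset.sum_congr _ (fun _ _ => rfl)
    ext J
    simp only [Finset.mem_filter, Finset.mem_powerset, Finset.subset_sdiff]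
  have h2 := Finset.sum_powerset_neg_one_pow_card (x := I \ D)
  have h3 := congrArg (fun z : ℤ => (z : ℂ)) h2
  simp only [Int.cast_sum, Int.cast_pow, Int.cast_neg, Int.cast_one] at h3
  rw [h1, h3]
  by_cases h : D = I
  · subst h
    simp
  · have h4 : I \ D ≠ ∅ := by
      intro h5
      apply h
      exact Finset.Subset.antisymm hD (Finset.sdiff_eq_empty_iff_subset.mp h5)
    simp [h, h4]

/-- The alternating sum of the permutation characters on the standard parabolic subgroups. -/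
noncomputable def St (P : BNPair G) (I : Finset ι) (σ : ι → G) (g : G) : ℂ :=
  ∑ J ∈ I.powerset, (-1 : ℂ) ^ J.card * (Nat.card (fixedBy (G ⧸ P.parabolic (JS σ J)) g) : ℂ)

/-- The value of `St` at an element of `B`. -/
theorem St_of_mem_B [Finite G] (hL : Lab P I σ) {b : G} (hb : b ∈ P.B) :
    St P I σ b = (Nat.card {x : G ⧸ P.B // b • x = x ∧ dsc P I σ x = I} : ℂ) := by
  classical
  letI : Fintype (G ⧸ P.B) := Fintype.ofFinite _
  have h1 : ∀ J ∈ I.powerset, (-1 : ℂ) ^ J.card * (Nat.card (fixedBy (G ⧸ P.parabolic (JS σ J)) b) : ℂ) =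
      ∑ x : G ⧸ P.B, (if b • x = x then (if Disjoint J (dsc P I σ x) then (-1 : ℂ) ^ J.card else 0) else 0) := by
    intro J hJ
    rw [card_fixedBy_parabolic hL (Finset.mem_powerset.mp hJ) hb, Nat.card_eq_fintype_card,
      Fintype.card_subtype, Finset.card_filter]
    push_cast
    rw [Finset.mul_sum]
    apply Finset.sum_congr rfl
    intro x _
    by_cases h2 : b • x = x <;> by_cases h3 : Disjoint J (dsc P I σ x) <;> simp [h2, h3]
  unfold St
  rw [Finset.sum_congr rfl h1, Finset.sum_comm]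
  rw [Nat.card_eq_fintype_card, Fintype.card_subtype, Finset.card_filter]
  push_cast
  apply Finset.sum_congr rfl
  intro x _
  by_cases h2 : b • x = x
  · simp only [h2, if_true, true_and]
    exact sum_sign_disjoint I _ (dsc_subset x)
  · simp [h2]

section TopCell

variable [Finite G]

/-- The subgroup of `B` fixing the top cell point. -/
def topStab (P : BNPair G) (n₀ : G) : Subgroup P.B := (P.B.map (MulAut.conj n₀).toMonoidHom).subgroupOf P.B

omit [Finite G] in
theorem mem_topStab {n₀ : G} {t : P.B} : t ∈ topStab P n₀ ↔ n₀⁻¹ * (t : G) * n₀ ∈ P.B := by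
  rw [topStab, Subgroup.mem_subgroupOf, Subgroup.mem_map]
  constructor
  · rintro ⟨b, hb, e⟩
    rw [← e]
    simpa [MulAut.conj_apply, mul_assoc] using hb
  · intro h
    refine ⟨_, h, ?_⟩
    simp [MulAut.conj_apply, mul_assoc]

/-- The value of `St` at an element of `B`: fixed points in the top cell. -/
theorem St_of_mem_B_eq (hL : Lab P I σ) {n₀ : G} (hn₀ : n₀ ∈ P.N) (htop : Top P n₀) (b : P.B) :
    St P I σ b = (Nat.card (fixedBy (P.B ⧸ topStab P n₀) b) : ℂ) := by
  rw [St_of_mem_B hL b.2]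
  congr 1
  symm
  apply Nat.card_congr
  -- the map `b' T ↦ b' n₀ B`
  let f : P.B ⧸ topStab P n₀ → G ⧸ P.B := Quotient.lift (fun t : P.B => (((t : G) * n₀ : G) : G ⧸ P.B)) (by
    intro a c h
    have h0 : a⁻¹ * c ∈ topStab P n₀ := QuotientGroup.leftRel_apply.mp h
    rw [mem_topStab] at h0
    change (((a : G) * n₀ : G) : G ⧸ P.B) = (((c : G) * n₀ : G) : G ⧸ P.B)
    rw [QuotientGroup.eq]
    have e : ((a : G) * n₀)⁻¹ * ((c : G) * n₀) = n₀⁻¹ * ((a⁻¹ * c : P.B) : G) * n₀ := by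
      simp; group
    rw [e]
    exact h0)
  have hf : ∀ t : P.B, f (t : P.B ⧸ topStab P n₀) = (((t : G) * n₀ : G) : G ⧸ P.B) := fun t => rfl
  have hfsmul : ∀ (a : P.B) (y : P.B ⧸ topStab P n₀), f (a • y) = (a : G) • f y := by
    intro a y
    obtain ⟨t, rfl⟩ := QuotientGroup.mk_surjective y
    change f ((a * t : P.B) : P.B ⧸ topStab P n₀) = _
    rw [hf, hf]
    change _ = (((a : G) * ((t : G) * n₀) : G) : G ⧸ P.B)
    congr 1
    simp [mul_assoc]
  have hfinj : Function.Injective f := by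
    intro y y' e
    obtain ⟨t, rfl⟩ := QuotientGroup.mk_surjective y
    obtain ⟨t', rfl⟩ := QuotientGroup.mk_surjective y'
    rw [hf, hf, QuotientGroup.eq] at e
    rw [QuotientGroup.eq, mem_topStab]
    have e2 : ((t : G) * n₀)⁻¹ * ((t' : G) * n₀) = n₀⁻¹ * ((t⁻¹ * t' : P.B) : G) * n₀ := by
      simp; group
    rwa [e2] at e
  have hfmem : ∀ x : G ⧸ P.B, dsc P I σ x = I ↔ ∃ y, f y = x := by
    intro x
    obtain ⟨g, rfl⟩ := QuotientGroup.mk_surjective x
    obtain ⟨n, hn, hg⟩ := bruhat (P := P) g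
    rw [dsc_mk hL hn hg, ← top_iff hL]
    constructor
    · intro htopn
      have h1 := top_unique hn hn₀ htopn htop
      have h2 : DC P n₀ g := by
        have : DC P n n₀ := ⟨1, P.B.one_mem, n⁻¹ * n₀, h1, by group⟩
        exact this.symm.trans hg
      obtain ⟨b₁, h₁, b₂, h₂', e⟩ := h2
      refine ⟨((⟨b₁, h₁⟩ : P.B) : P.B ⧸ topStab P n₀), ?_⟩
      rw [hf, QuotientGroup.eq, e]
      have e2 : (b₁ * n₀)⁻¹ * (b₁ * n₀ * b₂) = b₂ := by group
      simp only [e2]
      exact h₂'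
    · rintro ⟨y, hy⟩
      obtain ⟨t, rfl⟩ := QuotientGroup.mk_surjective y
      rw [hf, QuotientGroup.eq] at hy
      have h3 : DC P n₀ g := by
        refine ⟨t, t.2, ((t : G) * n₀)⁻¹ * g, hy, ?_⟩
        group
      have h4 := dc_unique hn₀ hn (h3.trans hg.symm)
      intro s hs
      rw [len_mul_S_congr hs hn₀ hn h4, ← len_congr hn₀ h4 hn]
      exact htop s hs
  refine Equiv.ofBijective (fun y => ⟨f y.1, ?_, ?_⟩) ⟨?_, ?_⟩
  · have h1 : b • y.1 = y.1 := y.2
    have h2 := hfsmul b y.1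
    rw [h1] at h2
    exact h2.symm
  · exact (hfmem _).mpr ⟨_, rfl⟩
  · rintro ⟨y, hy⟩ ⟨y', hy'⟩ e
    apply Subtype.ext
    exact hfinj (congrArg Subtype.val e)
  · rintro ⟨x, hx1, hx2⟩
    obtain ⟨y, rfl⟩ := (hfmem x).mp hx2
    refine ⟨⟨y, ?_⟩, rfl⟩
    apply hfinj
    rw [hfsmul]
    exact hx1

/-- The degree of `St`. -/
theorem St_one (hL : Lab P I σ) {n₀ : G} (hn₀ : n₀ ∈ P.N) (htop : Top P n₀) :
    St P I σ 1 = (Nat.card (P.B ⧸ topStab P n₀) : ℂ) := by
  have := St_of_mem_B_eq hL hn₀ htop (1 : P.B)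
  simp only [OneMemClass.coe_one] at this
  rw [this]
  congr 1
  apply Nat.card_congr
  refine ⟨fun y => y.1, fun y => ⟨y, one_smul _ _⟩, fun y => rfl, fun y => rfl⟩

end TopCell

section Norm

/-- The Weyl group. -/
abbrev Wey (P : BNPair G) := ↥P.N ⧸ (P.B ⊓ P.N).subgroupOf P.N

/-- A representative of an element of the Weyl group. -/
noncomputable def wrep (w : Wey P) : G := ((Quotient.out w : ↥P.N) : G)

theorem wrep_mem (w : Wey P) : wrep w ∈ P.N := (Quotient.out w).2

theorem exists_wrep {n : G} (hn : n ∈ P.N) : ∃ w : Wey P, (wrep w)⁻¹ * n ∈ P.B := by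
  refine ⟨((⟨n, hn⟩ : P.N) : Wey P), ?_⟩
  have h : (((Quotient.out ((⟨n, hn⟩ : P.N) : Wey P) : ↥P.N)) : Wey P) = ((⟨n, hn⟩ : P.N) : Wey P) :=
    QuotientGroup.out_eq' _
  rw [QuotientGroup.eq, Subgroup.mem_subgroupOf] at h
  exact h.1

theorem wrep_inj {w w' : Wey P} (h : (wrep w)⁻¹ * wrep w' ∈ P.B) : w = w' := by
  have h1 : ((Quotient.out w : ↥P.N) : Wey P) = ((Quotient.out w' : ↥P.N) : Wey P) := by
    rw [QuotientGroup.eq, Subgroup.mem_subgroupOf]
    refine ⟨h, ?_⟩
    exact P.N.mul_mem (P.N.inv_mem (wrep_mem w)) (wrep_mem w')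
  rwa [QuotientGroup.out_eq', QuotientGroup.out_eq'] at h1

/-- The orbits on a product of coset spaces are given by the reduced elements. -/
theorem card_orbits_eq {J K : Set G} (hJ : J ⊆ P.S) (hK : K ⊆ P.S) :
    Nat.card (orbitRel.Quotient G ((G ⧸ P.parabolic J) × (G ⧸ P.parabolic K))) =
      Nat.card {w : Wey P // Red P J K (wrep w)} := by
  have hWJ : ∀ {A : Set G}, WJ P A ≤ P.parabolic A := fun {A} =>
    sup_le le_sup_right (inf_le_left.trans le_sup_left)
  symm
  apply Nat.card_congr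
  refine Equiv.ofBijective (fun w => (Quotient.mk'' (((1 : G) : G ⧸ P.parabolic J),
    ((wrep w.1 : G) : G ⧸ P.parabolic K)) : orbitRel.Quotient G ((G ⧸ P.parabolic J) × (G ⧸ P.parabolic K)))) ⟨?_, ?_⟩
  · rintro ⟨w, hw⟩ ⟨w', hw'⟩ e
    apply Subtype.ext
    simp only at e
    have e' := Quotient.exact' e
    rw [orbitRel_apply, mem_orbit_iff] at e'
    obtain ⟨g, hg⟩ := e'
    have hg1 : (g • ((1 : G) : G ⧸ P.parabolic J)) = ((1 : G) : G ⧸ P.parabolic J) :=
      congrArg Prod.fst hg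
    have hg2 : (g • ((wrep w' : G) : G ⧸ P.parabolic K)) = ((wrep w : G) : G ⧸ P.parabolic K) :=
      congrArg Prod.snd hg
    have hg1' : ((g : G) : G ⧸ P.parabolic J) = ((1 : G) : G ⧸ P.parabolic J) := by
      rw [← hg1]
      change _ = ((g * 1 : G) : G ⧸ P.parabolic J)
      rw [mul_one]
    have hgJ : g ∈ P.parabolic J := by
      rw [QuotientGroup.eq] at hg1'
      have := Subgroup.inv_mem _ hg1'
      simpa using this
    have hg2' : ((g * wrep w' : G) : G ⧸ P.parabolic K) = ((wrep w : G) : G ⧸ P.parabolic K) := hg2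
    rw [QuotientGroup.eq] at hg2'
    have hp : (g * wrep w')⁻¹ * wrep w ∈ P.parabolic K := hg2'
    obtain ⟨a, ha, c, hc, hdc⟩ := exists_dc_of_parabolic hJ hK hgJ hp (wrep_mem w')
    have e1 : g * wrep w' * ((g * wrep w')⁻¹ * wrep w) = wrep w := by group
    rw [e1] at hdc
    have haW := closure_le_WJ (P := P) _ ha
    have hcW := closure_le_WJ (P := P) _ hc
    have hn₁ : a * wrep w' * c ∈ P.N :=
      P.N.mul_mem (P.N.mul_mem (closure_le_N hJ ha) (wrep_mem w')) (closure_le_N hK hc)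
    have h3 := dc_unique hn₁ (wrep_mem w) hdc
    have h4 : (wrep w')⁻¹ * wrep w ∈ P.B := by
      apply red_unique hJ hK (wrep_mem w') (wrep_mem w) hw' hw (a := a)
        (c := c * ((a * wrep w' * c)⁻¹ * wrep w)) haW
      · apply Subgroup.mul_mem _ hcW
        apply H_le_WJ
        exact ⟨h3, P.N.mul_mem (P.N.inv_mem hn₁) (wrep_mem w)⟩
      · group
    exact wrep_inj h4 |>.symm
  · intro ω
    induction ω using Quotient.inductionOn' with
    | h p =>
    obtain ⟨x, y⟩ := p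
    obtain ⟨g₁, rfl⟩ := QuotientGroup.mk_surjective x
    obtain ⟨g₂, rfl⟩ := QuotientGroup.mk_surjective y
    obtain ⟨n, hn, b₁, h₁, b₂, h₂, e⟩ := bruhat (P := P) (g₁⁻¹ * g₂)
    obtain ⟨a, ha, c, hc, hr⟩ := exists_red hJ hK hn
    have haN := WJ_le_N hJ ha
    have hcN := WJ_le_N hK hc
    have hn₀ : a * n * c ∈ P.N := P.N.mul_mem (P.N.mul_mem haN hn) hcN
    obtain ⟨w, hw⟩ := exists_wrep hn₀
    have hw1 : Red P J K (wrep w) := by
      apply Red_congr hJ hK hn₀ (wrep_mem w) _ hr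
      have := P.B.inv_mem hw
      simpa using this
    refine ⟨⟨w, hw1⟩, ?_⟩
    apply Quotient.sound'
    rw [orbitRel_apply, mem_orbit_iff]
    refine ⟨a * b₁⁻¹ * g₁⁻¹, ?_⟩
    apply Prod.ext
    · change ((a * b₁⁻¹ * g₁⁻¹ * g₁ : G) : G ⧸ P.parabolic J) = ((1 : G) : G ⧸ P.parabolic J)
      rw [QuotientGroup.eq]
      have : (a * b₁⁻¹ * g₁⁻¹ * g₁)⁻¹ * 1 = b₁ * a⁻¹ := by group
      rw [this]
      exact Subgroup.mul_mem _ (B_le_parabolic _ h₁) (Subgroup.inv_mem _ (hWJ ha))
    · change ((a * b₁⁻¹ * g₁⁻¹ * g₂ : G) : G ⧸ P.parabolic K) = ((wrep w : G) : G ⧸ P.parabolic K)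
      rw [QuotientGroup.eq]
      have e3 : g₂ = g₁ * (b₁ * n * b₂) := by rw [← e]; group
      have e4 : (a * b₁⁻¹ * g₁⁻¹ * g₂)⁻¹ * wrep w =
          b₂⁻¹ * c * ((wrep w)⁻¹ * (a * n * c))⁻¹ := by
        rw [e3]; group
      rw [e4]
      exact Subgroup.mul_mem _ (Subgroup.mul_mem _ (Subgroup.inv_mem _ (B_le_parabolic _ h₂)) (hWJ hc))
        (Subgroup.inv_mem _ (B_le_parabolic _ hw))

variable [Fintype G]

theorem St_real (g : G) : (starRingEnd ℂ) (St P I σ g) = St P I σ g := by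
  simp [St, map_sum, map_mul, map_pow, map_neg, map_one, map_natCast]

/-- The norm of the Steinberg character. -/
theorem classInner_St (hL : Lab P I σ) : classInner (St P I σ) (St P I σ) = 1 := by
  classical
  letI : Fintype (Wey P) := Fintype.ofFinite _
  -- expansion
  have h1 : ∀ g : G, St P I σ g * (starRingEnd ℂ) (St P I σ g) =
      ∑ J ∈ I.powerset, ∑ K ∈ I.powerset, (-1 : ℂ) ^ J.card * (-1 : ℂ) ^ K.card *
        (Nat.card (fixedBy ((G ⧸ P.parabolic (JS σ J)) × (G ⧸ P.parabolic (JS σ K))) g) : ℂ) := by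
    intro g
    rw [St_real]
    unfold St
    rw [Finset.sum_mul_sum]
    apply Finset.sum_congr rfl
    intro J _
    apply Finset.sum_congr rfl
    intro K _
    rw [Cfsg.Agent.Lib.Char.card_fixedBy_prod]
    push_cast
    ring
  unfold classInner
  simp only [h1]
  rw [Finset.sum_comm, Finset.mul_sum]
  have h2 : ∀ J ∈ I.powerset, ∀ K ∈ I.powerset,
      (Nat.card G : ℂ)⁻¹ * ∑ g : G, (-1 : ℂ) ^ J.card * (-1 : ℂ) ^ K.card *
        (Nat.card (fixedBy ((G ⧸ P.parabolic (JS σ J)) × (G ⧸ P.parabolic (JS σ K))) g) : ℂ) =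
      (-1 : ℂ) ^ J.card * (-1 : ℂ) ^ K.card *
        ∑ w : Wey P, (if Disjoint J (ld P I σ (wrep w)) then 1 else 0) * (if Disjoint K (rd P I σ (wrep w)) then 1 else 0) := by
    intro J hJ K hK
    have hJ' := Finset.mem_powerset.mp hJ
    have hK' := Finset.mem_powerset.mp hK
    have h3 := Cfsg.Agent.Lib.Char.classInner_permChar_one (G := G)
      (X := (G ⧸ P.parabolic (JS σ J)) × (G ⧸ P.parabolic (JS σ K)))
    unfold classInner at h3
    simp only [map_one, mul_one] at h3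
    rw [← Finset.mul_sum]
    rw [mul_left_comm, h3, card_orbits_eq (hL.sub hJ') (hL.sub hK')]
    congr 1
    rw [Nat.card_eq_fintype_card, Fintype.card_subtype, Finset.card_filter]
    push_cast
    apply Finset.sum_congr rfl
    intro w _
    have h4 := red_iff hL hJ' hK' (wrep_mem w)
    by_cases h5 : Disjoint J (ld P I σ (wrep w)) <;> by_cases h6 : Disjoint K (rd P I σ (wrep w)) <;>
      simp [h4, h5, h6]
  have h3 : ∀ J ∈ I.powerset, (Nat.card G : ℂ)⁻¹ * ∑ g : G, ∑ K ∈ I.powerset, (-1 : ℂ) ^ J.card * (-1 : ℂ) ^ K.card *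
        (Nat.card (fixedBy ((G ⧸ P.parabolic (JS σ J)) × (G ⧸ P.parabolic (JS σ K))) g) : ℂ) =
      ∑ K ∈ I.powerset, (-1 : ℂ) ^ J.card * (-1 : ℂ) ^ K.card *
        ∑ w : Wey P, (if Disjoint J (ld P I σ (wrep w)) then 1 else 0) * (if Disjoint K (rd P I σ (wrep w)) then 1 else 0) := by
    intro J hJ
    rw [Finset.sum_comm, Finset.mul_sum]
    apply Finset.sum_congr rfl
    intro K hK
    exact h2 J hJ K hK
  rw [Finset.sum_congr rfl h3]
  -- exchange the sums
  have h4 : ∑ J ∈ I.powerset, ∑ K ∈ I.powerset, (-1 : ℂ) ^ J.card * (-1 : ℂ) ^ K.card *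
        ∑ w : Wey P, (if Disjoint J (ld P I σ (wrep w)) then (1 : ℂ) else 0) * (if Disjoint K (rd P I σ (wrep w)) then 1 else 0) =
      ∑ w : Wey P, (∑ J ∈ I.powerset, if Disjoint J (ld P I σ (wrep w)) then (-1 : ℂ) ^ J.card else 0) *
        (∑ K ∈ I.powerset, if Disjoint K (rd P I σ (wrep w)) then (-1 : ℂ) ^ K.card else 0) := by
    simp only [Finset.sum_mul_sum]
    symm
    rw [Finset.sum_comm]
    apply Finset.sum_congr rfl
    intro J _
    rw [Finset.sum_comm]
    apply Finset.sum_congr rfl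
    intro K _
    rw [Finset.mul_sum]
    apply Finset.sum_congr rfl
    intro w _
    by_cases h5 : Disjoint J (ld P I σ (wrep w)) <;> by_cases h6 : Disjoint K (rd P I σ (wrep w)) <;>
      simp [h5, h6]
  rw [h4]
  simp only [sum_sign_disjoint I _ (ld_subset _), sum_sign_disjoint I _ (rd_subset _)]
  -- the longest element
  obtain ⟨n₀, hn₀, htop⟩ := exists_top (P := P)
  obtain ⟨w₀, hw₀⟩ := exists_wrep hn₀
  have htop₀ : Top P (wrep w₀) := by
    rw [top_iff hL, rd_congr hL hn₀ (wrep_mem w₀) (by simpa using P.B.inv_mem hw₀), ← top_iff hL]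
    exact htop
  rw [Finset.sum_eq_single w₀]
  · have h5 : rd P I σ (wrep w₀) = I := (top_iff hL).mp htop₀
    have h6 : ld P I σ (wrep w₀) = I := by
      apply Finset.filter_true_of_mem
      intro i hi
      exact top_left (wrep_mem w₀) htop₀ (hL.mem hi)
    simp [h5, h6]
  · intro w _ hne
    by_cases h5 : rd P I σ (wrep w) = I
    · exact absurd (wrep_inj (top_unique (wrep_mem w) (wrep_mem w₀) ((top_iff hL).mpr h5) htop₀)) hne
    · simp [h5]
  · intro h
    exact absurd (Finset.mem_univ _) h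

/-- `St` is a generalized character. -/
theorem St_generalized : IsGeneralizedCharacter G (St P I σ) := by
  classical
  refine ⟨fun g => ∑ J ∈ I.powerset.filter (fun J => Even J.card),
      (Nat.card (fixedBy (G ⧸ P.parabolic (JS σ J)) g) : ℂ),
    fun g => ∑ J ∈ I.powerset.filter (fun J => ¬ Even J.card),
      (Nat.card (fixedBy (G ⧸ P.parabolic (JS σ J)) g) : ℂ), ?_, ?_, ?_⟩
  · have := Cfsg.Agent.Lib.Char.IsCharacter.sum (G := G) (I.powerset.filter (fun J => Even J.card))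
      (f := fun J g => (Nat.card (fixedBy (G ⧸ P.parabolic (JS σ J)) g) : ℂ))
      (fun J _ => Cfsg.Agent.Lib.Char.isCharacter_permChar)
    convert this using 1
    funext g
    simp [Finset.sum_apply]
  · have := Cfsg.Agent.Lib.Char.IsCharacter.sum (G := G) (I.powerset.filter (fun J => ¬ Even J.card))
      (f := fun J g => (Nat.card (fixedBy (G ⧸ P.parabolic (JS σ J)) g) : ℂ))
      (fun J _ => Cfsg.Agent.Lib.Char.isCharacter_permChar)
    convert this using 1
    funext g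
    simp [Finset.sum_apply]
  · funext g
    unfold St
    rw [← Finset.sum_filter_add_sum_filter_not I.powerset (fun J => Even J.card)]
    simp only [Pi.sub_apply]
    rw [sub_eq_add_neg, ← Finset.sum_neg_distrib]
    congr 1
    · apply Finset.sum_congr rfl
      intro J hJ
      rw [(Finset.mem_filter.mp hJ).2.neg_one_pow, one_mul]
    · apply Finset.sum_congr rfl
      intro J hJ
      rw [(Nat.not_even_iff_odd.mp (Finset.mem_filter.mp hJ).2).neg_one_pow]
      ring

/-- `St` is an irreducible character. -/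
theorem St_irr (hL : Lab P I σ) : IsIrrCharacter G (St P I σ) := by
  obtain ⟨n₀, hn₀, htop⟩ := exists_top (P := P)
  exact isIrr_of_generalized St_generalized (classInner_St hL) (St_one hL hn₀ htop) Nat.card_pos

end Norm

end Cfsg.Agent.Lib.Known.BNSt
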