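import Cfsg.Agent.Lib.Known.GLFlag5
import Cfsg.Agent.Lib.Known.Discrete

set_option autoImplicit false
set_option linter.unusedVariables false
set_option linter.unusedSectionVars false

/-! The unipotent characters of `GL_n(q)` attached to partitions. -/

namespace Cfsg.Agent.Lib.Known.GLFlag

open Cfsg Finset
open scoped MatrixGroups ComplexConjugate

variable {n : ℕ} {F : Type*} [Field F] [Fintype F]

theorem lam_strictMono {ν : Fin n → ℕ} (h : Monotone ν) : StrictMono (fun i : Fin n => ν i + i.val) := by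
  intro a b hab
  have h1 := h (le_of_lt hab)
  have h2 : a.val < b.val := hab
  simp only
  omega

theorem fix_real {G : Type*} [Group G] (H : Subgroup G) (g : G) :
    conj (fixedPointCharacter H g) = fixedPointCharacter H g := by
  simp [fixedPointCharacter]

theorem uni_real (ν : Fin n → ℕ) (g : GL (Fin n) F) :
    conj (unipotentCharacterGL n F ν g) = unipotentCharacterGL n F ν g := by
  unfold unipotentCharacterGL
  rw [map_sum]
  apply sum_congr rfl
  intro κ _
  split_ifs
  · rw [map_mul, fix_real]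
    simp
  · simp

/-- The inner product of the partition characters. -/
theorem classInner_uni [Fintype (GL (Fin n) F)] {ν ν' : Fin n → ℕ} (hm : Monotone ν) (hs : ∑ i, ν i = n)
    (hm' : Monotone ν') (hs' : ∑ i, ν' i = n) :
    classInner (unipotentCharacterGL n F ν) (unipotentCharacterGL n F ν') = if ν = ν' then 1 else 0 := by
  classical
  have hc := cauchy_sum (lam_strictMono hm) (lam_strictMono hm')
  have hiff : (fun i : Fin n => ν i + i.val) = (fun i : Fin n => ν' i + i.val) ↔ ν = ν' := by
    constructor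
    · intro h
      funext i
      have : ν i + i.val = ν' i + i.val := congrFun h i
      omega
    · rintro rfl
      rfl
  simp only [hiff] at hc
  have hc' := congrArg (Int.cast : ℤ → ℂ) hc
  have e1 : (((if ν = ν' then 1 else 0 : ℤ)) : ℂ) = if ν = ν' then 1 else 0 := by
    split_ifs <;> simp
  rw [e1] at hc'
  rw [← hc']
  unfold classInner
  push_cast
  -- expand
  have h1 : ∀ g : GL (Fin n) F, unipotentCharacterGL n F ν g * conj (unipotentCharacterGL n F ν' g) =
      ∑ κ' : Equiv.Perm (Fin n), ∑ κ : Equiv.Perm (Fin n),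
        if (∀ i : Fin n, (κ i).val ≤ ν i + i.val) ∧ (∀ i : Fin n, (κ' i).val ≤ ν' i + i.val) then
          ((Equiv.Perm.sign κ' : ℤ) : ℂ) * ((Equiv.Perm.sign κ : ℤ) : ℂ) *
            (fixedPointCharacter (parabolicGL n F fun i => ν i + i.val - (κ i).val) g *
              fixedPointCharacter (parabolicGL n F fun i => ν' i + i.val - (κ' i).val) g) else 0 := by
    intro g
    rw [uni_real]
    unfold unipotentCharacterGL
    rw [mul_comm, sum_mul_sum]
    apply sum_congr rfl
    intro κ' _
    apply sum_congr rfl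
    intro κ _
    by_cases h2 : ∀ i : Fin n, (κ i).val ≤ ν i + i.val <;> by_cases h3 : ∀ i : Fin n, (κ' i).val ≤ ν' i + i.val <;>
      simp [h2, h3]
    ring
  simp only [h1]
  rw [sum_comm, mul_sum]
  apply sum_congr rfl
  intro κ' _
  rw [sum_comm, mul_sum]
  apply sum_congr rfl
  intro κ _
  by_cases h2 : ∀ i : Fin n, (κ i).val ≤ ν i + i.val
  · by_cases h3 : ∀ i : Fin n, (κ' i).val ≤ ν' i + i.val
    · simp only [h2, h3, implies_true, and_self, if_true]
      rw [← mul_sum, mul_left_comm, inner_fixed, card_orbits_GL (sum_comp hs κ h2) (sum_comp hs' κ' h3)]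
    · simp [h3]
  · simp [h2]

/-- The partition character is a generalized character. -/
theorem uni_generalized (ν : Fin n → ℕ) : IsGeneralizedCharacter (GL (Fin n) F) (unipotentCharacterGL n F ν) := by
  classical
  refine ⟨fun g => ∑ κ ∈ univ.filter (fun κ : Equiv.Perm (Fin n) => (∀ i : Fin n, (κ i).val ≤ ν i + i.val) ∧ Equiv.Perm.sign κ = 1),
      fixedPointCharacter (parabolicGL n F fun i => ν i + i.val - (κ i).val) g,
    fun g => ∑ κ ∈ univ.filter (fun κ : Equiv.Perm (Fin n) => (∀ i : Fin n, (κ i).val ≤ ν i + i.val) ∧ Equiv.Perm.sign κ ≠ 1),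
      fixedPointCharacter (parabolicGL n F fun i => ν i + i.val - (κ i).val) g, ?_, ?_, ?_⟩
  · have := Cfsg.Agent.Lib.Char.IsCharacter.sum (G := GL (Fin n) F)
      (univ.filter (fun κ : Equiv.Perm (Fin n) => (∀ i : Fin n, (κ i).val ≤ ν i + i.val) ∧ Equiv.Perm.sign κ = 1))
      (f := fun κ g => fixedPointCharacter (parabolicGL n F fun i => ν i + i.val - (κ i).val) g)
      (fun κ _ => Cfsg.Agent.Lib.Char.isCharacter_permChar)
    convert this using 1
    funext g
    simp [Finset.sum_apply]
  · have := Cfsg.Agent.Lib.Char.IsCharacter.sum (G := GL (Fin n) F)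
      (univ.filter (fun κ : Equiv.Perm (Fin n) => (∀ i : Fin n, (κ i).val ≤ ν i + i.val) ∧ Equiv.Perm.sign κ ≠ 1))
      (f := fun κ g => fixedPointCharacter (parabolicGL n F fun i => ν i + i.val - (κ i).val) g)
      (fun κ _ => Cfsg.Agent.Lib.Char.isCharacter_permChar)
    convert this using 1
    funext g
    simp [Finset.sum_apply]
  · funext g
    simp only [Pi.sub_apply]
    unfold unipotentCharacterGL
    rw [sum_filter, sum_filter, ← sum_sub_distrib]
    apply sum_congr rfl
    intro κ _
    by_cases h2 : ∀ i : Fin n, (κ i).val ≤ ν i + i.val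
    · rcases Int.units_eq_one_or (Equiv.Perm.sign κ) with h3 | h3
      · simp [h2, h3]
      · have h4 : Equiv.Perm.sign κ ≠ 1 := by
          rw [h3]
          decide
        simp [h2, h3]
    · simp [h2]

theorem Qi_strictMono {q : ℕ} (hq : 1 ≤ q) : StrictMono (Qi q) := by
  apply strictMono_nat_of_lt_succ
  intro r
  unfold Qi
  rw [sum_range_succ]
  have : 0 < q ^ r := Nat.pow_pos hq
  omega

theorem Qf_pos {q : ℕ} (hq : 1 ≤ q) (r : ℕ) : 0 < Qf q r := by
  unfold Qf
  apply prod_pos
  intro j _
  have : Qi q j < Qi q (j + 1) := Qi_strictMono hq (Nat.lt_succ_self j)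
  omega

/-- The degree is a positive integer. -/
theorem uni_degree {ν : Fin n → ℕ} (hm : Monotone ν) (hs : ∑ i, ν i = n) :
    ∃ m : ℕ, unipotentCharacterGL n F ν 1 = m ∧ 0 < m := by
  classical
  set q := Fintype.card F with hq
  have hq1 : 1 ≤ q := Fintype.card_pos
  have hf := degree_formula (F := F) hq.symm ν hs
  -- the degree is an integer
  let z : ℤ := ∑ κ : Equiv.Perm (Fin n), if ∀ i : Fin n, (κ i).val ≤ ν i + i.val then
      (Equiv.Perm.sign κ : ℤ) * (Nat.card (GL (Fin n) F ⧸ parabolicGL n F fun i => ν i + i.val - (κ i).val) : ℤ) else 0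
  have hz : unipotentCharacterGL n F ν 1 = (z : ℂ) := by
    unfold unipotentCharacterGL
    simp only [z]
    push_cast
    apply sum_congr rfl
    intro κ _
    by_cases h2 : ∀ i : Fin n, (κ i).val ≤ ν i + i.val
    · simp only [h2, implies_true, if_true]
      rw [fp_one]
    · simp [h2]
  rw [hz] at hf
  -- transfer to the integers
  have hf' : z * (q : ℤ) ^ (∑ j ∈ range n, j.choose 2) * ∏ i : Fin n, ((Qf q (ν i + i.val) : ℕ) : ℤ) =
      ((Qf q n : ℕ) : ℤ) * ∏ i : Fin n, ∏ j ∈ Ioi i,
        (((Qi q (ν j + j.val) : ℕ) : ℤ) - ((Qi q (ν i + i.val) : ℕ) : ℤ)) := by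
    have := congrArg (fun w : ℂ => w) hf
    exact_mod_cast hf
  have hR : 0 < ((Qf q n : ℕ) : ℤ) * ∏ i : Fin n, ∏ j ∈ Ioi i,
        (((Qi q (ν j + j.val) : ℕ) : ℤ) - ((Qi q (ν i + i.val) : ℕ) : ℤ)) := by
    apply mul_pos
    · exact_mod_cast Qf_pos hq1 n
    · apply prod_pos
      intro i _
      apply prod_pos
      intro j hj
      have h1 : i < j := mem_Ioi.mp hj
      have h2 := Qi_strictMono hq1 (lam_strictMono hm h1)
      simp only at h2
      have h3 : ((Qi q (ν i + i.val) : ℕ) : ℤ) < ((Qi q (ν j + j.val) : ℕ) : ℤ) := by exact_mod_cast h2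
      omega
  have hL : 0 < (q : ℤ) ^ (∑ j ∈ range n, j.choose 2) * ∏ i : Fin n, ((Qf q (ν i + i.val) : ℕ) : ℤ) := by
    apply mul_pos
    · apply pow_pos
      exact_mod_cast hq1
    · apply prod_pos
      intro i _
      exact_mod_cast Qf_pos hq1 _
  have hzpos : 0 < z := by
    rw [← hf', mul_assoc] at hR
    exact (pos_iff_pos_of_mul_pos hR).mpr hL
  refine ⟨z.toNat, ?_, ?_⟩
  · rw [hz]
    have : ((z.toNat : ℤ) : ℂ) = (z : ℂ) := by
      rw [Int.toNat_of_nonneg hzpos.le]
    exact_mod_cast this.symm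
  · omega

/-- **The partition characters are irreducible.** -/
theorem uni_irr {ν : Fin n → ℕ} (hm : Monotone ν) (hs : ∑ i, ν i = n) :
    IsIrrCharacter (GL (Fin n) F) (unipotentCharacterGL n F ν) := by
  classical
  letI : Fintype (GL (Fin n) F) := Fintype.ofFinite _
  obtain ⟨m, h1, h2⟩ := uni_degree (F := F) hm hs
  apply Cfsg.Agent.Lib.Known.isIrr_of_generalized (uni_generalized ν) _ h1 h2
  rw [classInner_uni hm hs hm hs, if_pos rfl]

/-- **The partition characters are distinct.** -/
theorem uni_inj {ν ν' : Fin n → ℕ} (hm : Monotone ν) (hs : ∑ i, ν i = n) (hm' : Monotone ν') (hs' : ∑ i, ν' i = n)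
    (h : unipotentCharacterGL n F ν = unipotentCharacterGL n F ν') : ν = ν' := by
  classical
  letI : Fintype (GL (Fin n) F) := Fintype.ofFinite _
  by_contra hne
  have h1 := classInner_uni (F := F) hm hs hm' hs'
  rw [if_neg hne, ← h, classInner_uni hm hs hm hs, if_pos rfl] at h1
  exact one_ne_zero h1

end Cfsg.Agent.Lib.Known.GLFlag
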