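import Cfsg.Agent.Lib.BN.Count

set_option autoImplicit false
set_option linter.unusedVariables false

/-! Coxeter-type combinatorics in a (B,N)-pair: minimal double coset representatives, descent sets,
the longest element. -/

namespace Cfsg.Agent.Lib.Known.BNSt

open Cfsg Cfsg.Agent.Lib.BN

variable {G : Type*} [Group G] {P : BNPair G}

theorem rep_append {l₁ l₂ : List G} {n₁ n₂ : G} (h₁ : Rep P l₁ n₁) (h₂ : Rep P l₂ n₂) (hn₁ : n₁ ∈ P.N) :
    Rep P (l₁ ++ l₂) (n₁ * n₂) := by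
  refine ⟨?_, ?_⟩
  · intro x hx
    rcases List.mem_append.1 hx with hx | hx
    · exact h₁.1 x hx
    · exact h₂.1 x hx
  · have e : (l₁ ++ l₂).prod⁻¹ * (n₁ * n₂) =
        (l₂.prod⁻¹ * (l₁.prod⁻¹ * n₁) * l₂.prod) * (l₂.prod⁻¹ * n₂) := by
      simp [List.prod_append]; group
    rw [e]
    exact P.B.mul_mem (conj_H' (word_prod_mem_N h₂.1) h₁.2
      (P.N.mul_mem (P.N.inv_mem (word_prod_mem_N h₁.1)) hn₁)) h₂.2

theorem len_mul_le {n₁ n₂ : G} (h₁ : n₁ ∈ P.N) (h₂ : n₂ ∈ P.N) :
    len P (n₁ * n₂) ≤ len P n₁ + len P n₂ := by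
  obtain ⟨l₁, hl₁, hlen₁⟩ := len_spec h₁
  obtain ⟨l₂, hl₂, hlen₂⟩ := len_spec h₂
  have := len_le (rep_append hl₁ hl₂ h₁)
  simpa [hlen₁, hlen₂] using this

theorem len_inv_S {s : G} (hs : s ∈ P.S) : len P s⁻¹ = 1 := by
  have e : s⁻¹ = (s * s)⁻¹ * s := by group
  rw [e, len_mul_H_left (S_mem_N hs) (sq_inv_mem hs) (P.N.inv_mem (sq_mem_N hs)), len_S hs]

theorem len_inv_le (k : ℕ) : ∀ {n : G}, n ∈ P.N → len P n ≤ k → len P n⁻¹ ≤ k := by
  induction k with
  | zero =>
    intro n hn h0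
    have h1 := (len_eq_zero_iff hn).1 (Nat.le_zero.1 h0)
    exact Nat.le_zero.2 ((len_eq_zero_iff (P.N.inv_mem hn)).2 (P.B.inv_mem h1))
  | succ k ih =>
    intro n hn hk
    by_cases h0 : len P n = 0
    · have h1 := (len_eq_zero_iff hn).1 h0
      have := (len_eq_zero_iff (P.N.inv_mem hn)).2 (P.B.inv_mem h1)
      omega
    obtain ⟨t, ht, m, hm, rfl, hlen⟩ := exists_left_factor hn h0
    have e : (t * m)⁻¹ = m⁻¹ * t⁻¹ := by group
    rw [e]
    have h1 := len_mul_le (P := P) (P.N.inv_mem hm) (P.N.inv_mem (S_mem_N ht))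
    rw [len_inv_S ht] at h1
    have h2 := ih hm (n := m) (by omega)
    omega

theorem len_inv {n : G} (hn : n ∈ P.N) : len P n⁻¹ = len P n := by
  apply le_antisymm
  · exact len_inv_le _ hn le_rfl
  · have := len_inv_le (P := P) _ (P.N.inv_mem hn) le_rfl
    simpa using this

theorem len_mul_S_ne {s n : G} (hs : s ∈ P.S) (hn : n ∈ P.N) : len P (n * s) ≠ len P n := by
  have hsN := S_mem_N hs
  have h := len_S_mul_ne hs (P.N.inv_mem hn)
  have e : (n * s)⁻¹ = (s * s)⁻¹ * (s * n⁻¹) := by group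
  rw [← len_inv (P.N.mul_mem hn hsN), e, len_mul_H_left (P.N.mul_mem hsN (P.N.inv_mem hn)) (sq_inv_mem hs)
    (P.N.inv_mem (sq_mem_N hs)), ← len_inv hn]
  exact h

theorem len_mul_S_eq {s n : G} (hs : s ∈ P.S) (hn : n ∈ P.N) :
    len P (n * s) = len P n + 1 ∨ len P (n * s) + 1 = len P n := by
  have h1 := len_mul_S_le hs hn
  have h2 := len_le_mul_S hs hn
  have h3 := len_mul_S_ne hs hn
  omega

/-- Right-hand form of the refined third axiom. -/
theorem t3_up_right {s n b : G} (hs : s ∈ P.S) (hn : n ∈ P.N) (hb : b ∈ P.B)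
    (hle : len P n ≤ len P (n * s)) : DC P (n * s) (n * b * s) := by
  have hsN := S_mem_N hs
  have hn' := P.N.inv_mem hn
  have e1 : (s * n⁻¹)⁻¹ = n * s * (s * s)⁻¹ := by group
  have h1 : len P n⁻¹ ≤ len P (s * n⁻¹) := by
    rw [len_inv hn, ← len_inv (P.N.mul_mem hsN hn'), e1,
      len_mul_H_right (P.N.mul_mem hn hsN) (sq_inv_mem hs) (P.N.inv_mem (sq_mem_N hs))]
    exact hle
  have h2 := t3_up hs hn' (P.B.inv_mem hb) h1
  have h3 : DC P (s * n⁻¹) ((s * s)⁻¹ * (s * b⁻¹ * n⁻¹)) := h2.mul_left (sq_inv_mem hs)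
  have h4 := h3.inv
  have e2 : ((s * s)⁻¹ * (s * b⁻¹ * n⁻¹))⁻¹ = n * b * s := by group
  rw [e1, e2] at h4
  exact (dc_mul_right_self (sq_inv_mem hs)).trans h4

/-- The parabolic Weyl group, together with the `H`-part. -/
def WJ (P : BNPair G) (J : Set G) : Subgroup G := Subgroup.closure J ⊔ (P.B ⊓ P.N)

theorem WJ_le_N {J : Set G} (hJ : J ⊆ P.S) : WJ P J ≤ P.N :=
  sup_le (closure_le_N hJ) inf_le_right

theorem H_le_WJ (J : Set G) : P.B ⊓ P.N ≤ WJ P J := le_sup_right

theorem subset_WJ {J : Set G} {s : G} (hs : s ∈ J) : s ∈ WJ P J :=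
  (le_sup_left : Subgroup.closure J ≤ WJ P J) (Subgroup.subset_closure hs)

theorem prod_mem_WJ {J : Set G} {l : List G} (hl : ∀ s ∈ l, s ∈ J) : l.prod ∈ WJ P J :=
  Subgroup.list_prod_mem _ fun s hs => subset_WJ (hl s hs)

/-- `n` is of minimal length in its double coset. -/
def DMin (P : BNPair G) (J K : Set G) (n : G) : Prop :=
  ∀ a ∈ WJ P J, ∀ c ∈ WJ P K, len P n ≤ len P (a * n * c)

/-- `n` has no left descent in `J` and no right descent in `K`. -/
def Red (P : BNPair G) (J K : Set G) (n : G) : Prop :=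
  (∀ s ∈ J, len P n < len P (s * n)) ∧ (∀ s ∈ K, len P n < len P (n * s))

variable {J K : Set G}

/-- The basic length formula for minimal double coset representatives. -/
theorem len_dc (hJ : J ⊆ P.S) (hK : K ⊆ P.S) {n : G} (hn : n ∈ P.N) (hmin : DMin P J K n) {a c : G}
    (ha : a ∈ WJ P J) (hc : c ∈ WJ P K) :
    ∃ a' ∈ WJ P J, ∃ c' ∈ WJ P K, (a * n * c)⁻¹ * (a' * n * c') ∈ P.B ∧
      len P (a * n * c) = len P a' + len P n + len P c' := by
  have haN := WJ_le_N hJ ha
  have hcN := WJ_le_N hK hc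
  obtain ⟨la, hla, hra, hlena⟩ := exists_reduced_of_closure hJ ha
  obtain ⟨lc, hlc, hrc, hlenc⟩ := exists_reduced_of_closure hK hc
  obtain ⟨ln, hrn, hlenn⟩ := len_spec hn
  have hL : Rep P ((la ++ ln) ++ lc) (a * n * c) :=
    rep_append (rep_append hra hrn haN) hrc (P.N.mul_mem haN hn)
  obtain ⟨l', hsub, hlen, hrep⟩ := exists_reduced_sublist _ hL.1
  obtain ⟨l₁, C, rfl, hl₁, hC⟩ := List.sublist_append_iff.mp hsub
  obtain ⟨A, N', rfl, hA, hN'⟩ := List.sublist_append_iff.mp hl₁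
  have hLprodN : ((la ++ ln) ++ lc).prod ∈ P.N := word_prod_mem_N hL.1
  have hxN : a * n * c ∈ P.N := P.N.mul_mem (P.N.mul_mem haN hn) hcN
  have hlenx : len P ((la ++ ln) ++ lc).prod = len P (a * n * c) := len_congr hLprodN hL.2 hxN
  -- the new word
  have hrep' : Rep P ((A ++ N') ++ C) (a * n * c) := by
    have := hrep.mul_B_right hL.2
    have e : ((la ++ ln) ++ lc).prod * (((la ++ ln) ++ lc).prod⁻¹ * (a * n * c)) = a * n * c := by group
    rwa [e] at this
  have hAS : ∀ x ∈ A, x ∈ P.S := fun x hx => hJ (hla x (hA.subset hx))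
  have hCS : ∀ x ∈ C, x ∈ P.S := fun x hx => hK (hlc x (hC.subset hx))
  have hNS : ∀ x ∈ N', x ∈ P.S := fun x hx => hrn.1 x (hN'.subset hx)
  have hAN := word_prod_mem_N (P := P) hAS
  have hCN := word_prod_mem_N (P := P) hCS
  have hNN := word_prod_mem_N (P := P) hNS
  set h := ((A ++ N') ++ C).prod⁻¹ * (a * n * c) with hh
  have hhB : h ∈ P.B := hrep'.2
  have hhN : h ∈ P.N := P.N.mul_mem (P.N.inv_mem (word_prod_mem_N hrep'.1)) hxN
  have hform : a * n * c = A.prod * N'.prod * C.prod * h := by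
    rw [hh]
    simp [List.prod_append]
    group
  have hA1 : A.prod⁻¹ * a ∈ WJ P J := Subgroup.mul_mem _ (Subgroup.inv_mem _ (prod_mem_WJ fun x hx => hla x (hA.subset hx))) ha
  have hC1 : c * C.prod⁻¹ ∈ WJ P K := Subgroup.mul_mem _ hc (Subgroup.inv_mem _ (prod_mem_WJ fun x hx => hlc x (hC.subset hx)))
  have h1 : len P n ≤ len P (A.prod⁻¹ * a * n * (c * C.prod⁻¹)) := hmin _ hA1 _ hC1
  have e1 : A.prod⁻¹ * a * n * (c * C.prod⁻¹) = N'.prod * (C.prod * h * C.prod⁻¹) := by
    have : A.prod⁻¹ * a * n * (c * C.prod⁻¹) = A.prod⁻¹ * (a * n * c) * C.prod⁻¹ := by group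
    rw [this, hform]
    group
  have h2 : len P (N'.prod * (C.prod * h * C.prod⁻¹)) = len P N'.prod :=
    len_mul_H_right hNN (conj_H hCN hhB hhN) (P.N.mul_mem (P.N.mul_mem hCN hhN) (P.N.inv_mem hCN))
  rw [e1, h2] at h1
  have h3 : len P N'.prod ≤ N'.length := len_le (rep_self hNS)
  have h4 : N'.length ≤ ln.length := hN'.length_le
  have h5 : N'.length = ln.length := by omega
  have h6 : N' = ln := hN'.eq_of_length h5
  subst h6
  refine ⟨A.prod, prod_mem_WJ fun x hx => hla x (hA.subset hx), C.prod,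
    prod_mem_WJ fun x hx => hlc x (hC.subset hx), ?_, ?_⟩
  · -- `(a n c)⁻¹ (a' n c') ∈ B`
    have e2 : (a * n * c)⁻¹ * (A.prod * n * C.prod) =
        h⁻¹ * (C.prod⁻¹ * (N'.prod⁻¹ * n) * C.prod) := by
      rw [hform]
      group
    rw [e2]
    exact P.B.mul_mem (P.B.inv_mem hhB) (conj_H' hCN hrn.2 (P.N.mul_mem (P.N.inv_mem hNN) hn))
  · have e3 : len P (a * n * c) = A.length + len P n + C.length := by
      rw [← hlenx, ← hlen]
      simp only [List.length_append]
      omega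
    have e4 : len P (A.prod * n * C.prod) = len P (a * n * c) := by
      symm
      apply len_congr hxN _ (P.N.mul_mem (P.N.mul_mem hAN hn) hCN)
      have e2 : (a * n * c)⁻¹ * (A.prod * n * C.prod) =
          h⁻¹ * (C.prod⁻¹ * (N'.prod⁻¹ * n) * C.prod) := by
        rw [hform]
        group
      rw [e2]
      exact P.B.mul_mem (P.B.inv_mem hhB) (conj_H' hCN hrn.2 (P.N.mul_mem (P.N.inv_mem hNN) hn))
    have h7 := len_mul_le (P := P) (P.N.mul_mem hAN hn) hCN
    have h8 := len_mul_le (P := P) hAN hn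
    have h9 : len P A.prod ≤ A.length := len_le (rep_self hAS)
    have h10 : len P C.prod ≤ C.length := len_le (rep_self hCS)
    omega

theorem mem_H_of_len_zero {n : G} (hn : n ∈ P.N) (h : len P n = 0) : n ∈ P.B ⊓ P.N :=
  ⟨(len_eq_zero_iff hn).mp h, hn⟩

/-- Two minimal representatives in one double coset agree modulo `H`. -/
theorem dmin_unique (hJ : J ⊆ P.S) (hK : K ⊆ P.S) {n n' : G} (hn : n ∈ P.N) (hn' : n' ∈ P.N)
    (hmin : DMin P J K n) (hmin' : DMin P J K n') {a c : G} (ha : a ∈ WJ P J) (hc : c ∈ WJ P K)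
    (e : n' = a * n * c) : n⁻¹ * n' ∈ P.B := by
  obtain ⟨a', ha', c', hc', h1, h2⟩ := len_dc hJ hK hn hmin ha hc
  have h3 : len P n' ≤ len P n := by
    have := hmin' _ (Subgroup.inv_mem _ ha) _ (Subgroup.inv_mem _ hc)
    have e2 : a⁻¹ * n' * c⁻¹ = n := by rw [e]; group
    rwa [e2] at this
  rw [← e] at h1 h2
  have ha'N := WJ_le_N hJ ha'
  have hc'N := WJ_le_N hK hc'
  have h4 : len P a' = 0 := by omega
  have h5 : len P c' = 0 := by omega
  have h6 := (len_eq_zero_iff ha'N).mp h4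
  have h7 := (len_eq_zero_iff hc'N).mp h5
  -- `n'⁻¹ a' n c' ∈ B`
  have e3 : n⁻¹ * n' = (n⁻¹ * a' * n) * c' * (n'⁻¹ * (a' * n * c'))⁻¹ := by group
  rw [e3]
  exact P.B.mul_mem (P.B.mul_mem (conj_H' hn h6 ha'N) h7) (P.B.inv_mem h1)

/-- Existence of minimal representatives. -/
theorem exists_dmin (hJ : J ⊆ P.S) (hK : K ⊆ P.S) {n : G} (hn : n ∈ P.N) :
    ∃ a ∈ WJ P J, ∃ c ∈ WJ P K, DMin P J K (a * n * c) := by
  classical
  have hex : ∃ k, ∃ a ∈ WJ P J, ∃ c ∈ WJ P K, len P (a * n * c) = k :=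
    ⟨_, 1, Subgroup.one_mem _, 1, Subgroup.one_mem _, rfl⟩
  obtain ⟨a, ha, c, hc, hk⟩ := Nat.find_spec hex
  refine ⟨a, ha, c, hc, ?_⟩
  intro a₂ ha₂ c₂ hc₂
  rw [hk]
  apply Nat.find_min' hex
  refine ⟨a₂ * a, Subgroup.mul_mem _ ha₂ ha, c * c₂, Subgroup.mul_mem _ hc hc₂, ?_⟩
  congr 1
  group

theorem DMin.red (hJ : J ⊆ P.S) (hK : K ⊆ P.S) {n : G} (hn : n ∈ P.N) (h : DMin P J K n) :
    Red P J K n := by
  constructor
  · intro s hs
    have h1 := h s (subset_WJ hs) 1 (Subgroup.one_mem _)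
    have h2 := len_S_mul_ne (hJ hs) hn
    rw [mul_one] at h1
    omega
  · intro s hs
    have h1 := h 1 (Subgroup.one_mem _) s (subset_WJ hs)
    have h2 := len_mul_S_ne (hK hs) hn
    rw [one_mul] at h1
    omega

/-- Removing the first letter of a reduced word. -/
theorem len_first_letter {t : G} {l : List G} {x : G} (hr : Rep P (t :: l) x)
    (hlen : (t :: l).length = len P x) (hx : x ∈ P.N) : len P (t * x) + 1 = len P x := by
  have ht : t ∈ P.S := hr.1 t (by simp)
  have htN := S_mem_N ht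
  have hrl : Rep P l (t⁻¹ * x) := by
    refine ⟨fun y hy => hr.1 y (by simp [hy]), ?_⟩
    have e : l.prod⁻¹ * (t⁻¹ * x) = (t :: l).prod⁻¹ * x := by
      simp [List.prod_cons]; group
    rw [e]
    exact hr.2
  have h1 := len_le hrl
  have e : t * x = (t * t) * (t⁻¹ * x) := by group
  have h2 : len P (t * x) = len P (t⁻¹ * x) := by
    rw [e]
    exact len_mul_H_left (P.N.mul_mem (P.N.inv_mem htN) hx) (P.sq_mem t ht) (sq_mem_N ht)
  have h3 := len_S_mul_eq ht hx
  simp only [List.length_cons] at hlen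
  omega

/-- Removing the last letter of a reduced word. -/
theorem len_last_letter {t : G} {l : List G} {x : G} (hr : Rep P (l ++ [t]) x)
    (hlen : (l ++ [t]).length = len P x) (hx : x ∈ P.N) : len P (x * t) + 1 = len P x := by
  have ht : t ∈ P.S := hr.1 t (by simp)
  have htN := S_mem_N ht
  have hlS : ∀ y ∈ l, y ∈ P.S := fun y hy => hr.1 y (by simp [hy])
  have hlN := word_prod_mem_N (P := P) hlS
  -- `x = l.prod * t * h`; `x * t = l.prod * (t * h * t)`
  set h := (l ++ [t]).prod⁻¹ * x with hh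
  have hhB : h ∈ P.B := hr.2
  have hhN : h ∈ P.N := P.N.mul_mem (P.N.inv_mem (word_prod_mem_N hr.1)) hx
  have e : x * t = l.prod * ((t * t) * (t⁻¹ * h * t)) := by
    rw [hh]
    simp [List.prod_append]
    group
  have h1 : len P (x * t) = len P l.prod := by
    rw [e]
    apply len_mul_H_right hlN
    · exact P.B.mul_mem (P.sq_mem t ht) (conj_H' htN hhB hhN)
    · exact P.N.mul_mem (sq_mem_N ht) (P.N.mul_mem (P.N.mul_mem (P.N.inv_mem htN) hhN) htN)
  have h2 : len P l.prod ≤ l.length := len_le (rep_self hlS)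
  have h3 := len_mul_S_eq ht hx
  simp only [List.length_append, List.length_cons, List.length_nil] at hlen
  omega

/-- Reduced elements are minimal. -/
theorem Red.dmin (hJ : J ⊆ P.S) (hK : K ⊆ P.S) {n : G} (hn : n ∈ P.N) (h : Red P J K n) :
    DMin P J K n := by
  obtain ⟨a, ha, c, hc, hmin⟩ := exists_dmin hJ hK hn
  have haN := WJ_le_N hJ ha
  have hcN := WJ_le_N hK hc
  set n₀ := a * n * c with hn₀
  have hn₀N : n₀ ∈ P.N := P.N.mul_mem (P.N.mul_mem haN hn) hcN
  have e0 : n = a⁻¹ * n₀ * c⁻¹ := by rw [hn₀]; group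
  obtain ⟨a', ha', c', hc', h1, h2⟩ := len_dc hJ hK hn₀N hmin (Subgroup.inv_mem _ ha) (Subgroup.inv_mem _ hc)
  rw [← e0] at h1 h2
  have ha'N := WJ_le_N hJ ha'
  have hc'N := WJ_le_N hK hc'
  set h₁ := n⁻¹ * (a' * n₀ * c') with hh₁
  have hh₁N : h₁ ∈ P.N := P.N.mul_mem (P.N.inv_mem hn) (P.N.mul_mem (P.N.mul_mem ha'N hn₀N) hc'N)
  have hsub := len_mul_le (P := P) (P.N.mul_mem ha'N hn₀N) hc'N
  -- no letter on the left
  have ha0 : len P a' = 0 := by
    by_contra hne
    obtain ⟨l, hl, hr, hlen⟩ := exists_reduced_of_closure hJ ha'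
    cases l with
    | nil => simp at hlen; omega
    | cons t l₀ =>
      have ht : t ∈ J := hl t (by simp)
      have h3 := len_first_letter hr hlen ha'N
      have h4 := h.1 t ht
      have htN := S_mem_N (hJ ht)
      have e : t * n = (t * a') * n₀ * c' * h₁⁻¹ := by
        rw [hh₁]; group
      have h5 : len P (t * n) = len P ((t * a') * n₀ * c') := by
        rw [e]
        exact len_mul_H_right (P.N.mul_mem (P.N.mul_mem (P.N.mul_mem htN ha'N) hn₀N) hc'N) (P.B.inv_mem h1)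
          (P.N.inv_mem hh₁N)
      have h6 := len_mul_le (P := P) (P.N.mul_mem (P.N.mul_mem htN ha'N) hn₀N) hc'N
      have h7 := len_mul_le (P := P) (P.N.mul_mem htN ha'N) hn₀N
      omega
  have hc0 : len P c' = 0 := by
    by_contra hne
    obtain ⟨l, hl, hr, hlen⟩ := exists_reduced_of_closure hK hc'
    rcases List.eq_nil_or_concat l with rfl | ⟨l₀, t, rfl⟩
    · simp at hlen; omega
    · simp only [List.concat_eq_append] at hl hr hlen
      have ht : t ∈ K := hl t (by simp)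
      have h3 := len_last_letter hr hlen hc'N
      have h4 := h.2 t ht
      have htN := S_mem_N (hK ht)
      have e : n * t = a' * n₀ * (c' * t) * (t⁻¹ * h₁⁻¹ * t) := by
        rw [hh₁]; group
      have h5 : len P (n * t) = len P (a' * n₀ * (c' * t)) := by
        rw [e]
        exact len_mul_H_right (P.N.mul_mem (P.N.mul_mem ha'N hn₀N) (P.N.mul_mem hc'N htN))
          (conj_H' htN (P.B.inv_mem h1) (P.N.inv_mem hh₁N))
          (P.N.mul_mem (P.N.mul_mem (P.N.inv_mem htN) (P.N.inv_mem hh₁N)) htN)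
      have h6 := len_mul_le (P := P) (P.N.mul_mem ha'N hn₀N) (P.N.mul_mem hc'N htN)
      have h7 := len_mul_le (P := P) ha'N hn₀N
      omega
  have h8 : len P n = len P n₀ := by omega
  intro a₂ ha₂ c₂ hc₂
  have e : a₂ * n * c₂ = (a₂ * a⁻¹) * n₀ * (c⁻¹ * c₂) := by
    rw [hn₀]; group
  rw [e, h8]
  exact hmin _ (Subgroup.mul_mem _ ha₂ (Subgroup.inv_mem _ ha)) _
    (Subgroup.mul_mem _ (Subgroup.inv_mem _ hc) hc₂)

/-- Uniqueness of reduced elements in a double coset. -/
theorem red_unique (hJ : J ⊆ P.S) (hK : K ⊆ P.S) {n n' : G} (hn : n ∈ P.N) (hn' : n' ∈ P.N)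
    (h : Red P J K n) (h' : Red P J K n') {a c : G} (ha : a ∈ WJ P J) (hc : c ∈ WJ P K)
    (e : n' = a * n * c) : n⁻¹ * n' ∈ P.B :=
  dmin_unique hJ hK hn hn' (h.dmin hJ hK hn) (h'.dmin hJ hK hn') ha hc e

/-- Existence of reduced elements in a double coset. -/
theorem exists_red (hJ : J ⊆ P.S) (hK : K ⊆ P.S) {n : G} (hn : n ∈ P.N) :
    ∃ a ∈ WJ P J, ∃ c ∈ WJ P K, Red P J K (a * n * c) := by
  obtain ⟨a, ha, c, hc, h⟩ := exists_dmin hJ hK hn
  exact ⟨a, ha, c, hc, h.red hJ hK (P.N.mul_mem (P.N.mul_mem (WJ_le_N hJ ha) hn) (WJ_le_N hK hc))⟩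

/-- The length formula for reduced elements and the right parabolic subgroup. -/
theorem len_mul_of_red (hK : K ⊆ P.S) {n c : G} (hn : n ∈ P.N) (h : Red P ∅ K n) (hc : c ∈ WJ P K) :
    len P (n * c) = len P n + len P c := by
  have hJ : (∅ : Set G) ⊆ P.S := Set.empty_subset _
  have hd := h.dmin hJ hK hn
  obtain ⟨a', ha', c', hc', h1, h2⟩ := len_dc hJ hK hn hd (Subgroup.one_mem _) hc
  rw [one_mul] at h1 h2
  have ha'N := WJ_le_N hJ ha'
  have hc'N := WJ_le_N hK hc'
  have hcN := WJ_le_N hK hc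
  have ha0 : a' ∈ P.B := by
    have : WJ P ∅ = P.B ⊓ P.N := by
      unfold WJ
      simp
    rw [this] at ha'
    exact ha'.1
  have h3 : len P a' = 0 := (len_eq_zero_iff ha'N).mpr ha0
  -- `c⁻¹ c' ∈ B`
  have h4 : c⁻¹ * (n⁻¹ * a' * n) * c' ∈ P.B := by
    have e : c⁻¹ * (n⁻¹ * a' * n) * c' = (n * c)⁻¹ * (a' * n * c') := by group
    rw [e]
    exact h1
  have h5 : len P c = len P c' := by
    apply len_congr hcN _ hc'N
    have hu : n⁻¹ * a' * n ∈ P.B := conj_H' hn ha0 ha'N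
    have hu' : c⁻¹ * (n⁻¹ * a' * n) * c ∈ P.B :=
      conj_H' hcN hu (P.N.mul_mem (P.N.mul_mem (P.N.inv_mem hn) ha'N) hn)
    have e : c⁻¹ * c' = (c⁻¹ * (n⁻¹ * a' * n) * c)⁻¹ * (c⁻¹ * (n⁻¹ * a' * n) * c') := by group
    rw [e]
    exact P.B.mul_mem (P.B.inv_mem hu') h4
  omega

/-- `n B c ⊆ B n c B` for `n` right-reduced and `c` in the parabolic. -/
theorem dc_mul_of_red (hK : K ⊆ P.S) {n c b : G} (hn : n ∈ P.N) (h : Red P ∅ K n) (hc : c ∈ WJ P K)
    (hb : b ∈ P.B) : DC P (n * c) (n * b * c) := by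
  obtain ⟨l, hl, hr, hlen⟩ := exists_reduced_of_closure hK hc
  -- induct along the word
  have key : ∀ (l₀ : List G) (hl₀ : ∀ s ∈ l₀, s ∈ K), l₀.length = len P l₀.prod →
      DC P (n * l₀.prod) (n * b * l₀.prod) := by
    intro l₀
    induction l₀ using List.reverseRecOn with
    | nil => intro _ _; simp; exact ⟨1, P.B.one_mem, b, hb, by simp⟩
    | append_singleton l₁ t ih =>
      intro hl₀ hred
      have hl₁K : ∀ s ∈ l₁, s ∈ K := fun s hs => hl₀ s (by simp [hs])
      have ht : t ∈ K := hl₀ t (by simp)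
      have htS := hK ht
      have hl₁N : l₁.prod ∈ P.N := word_prod_mem_N fun s hs => hK (hl₁K s hs)
      have hprod : (l₁ ++ [t]).prod = l₁.prod * t := by simp [List.prod_append]
      rw [hprod] at hred ⊢
      have hlen1 : len P l₁.prod + 1 = len P (l₁.prod * t) := by
        have h1 : len P l₁.prod ≤ l₁.length := len_le (rep_self fun s hs => hK (hl₁K s hs))
        have h2 := len_mul_S_le htS hl₁N
        simp only [List.length_append, List.length_cons, List.length_nil] at hred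
        omega
      have hred₁ : l₁.length = len P l₁.prod := by
        have h1 : len P l₁.prod ≤ l₁.length := len_le (rep_self fun s hs => hK (hl₁K s hs))
        simp only [List.length_append, List.length_cons, List.length_nil] at hred
        omega
      obtain ⟨b₁, h₁, b₂, h₂, e⟩ := ih hl₁K hred₁
      have hmem1 : l₁.prod ∈ WJ P K := prod_mem_WJ hl₁K
      have hmem2 : l₁.prod * t ∈ WJ P K := Subgroup.mul_mem _ hmem1 (subset_WJ ht)
      have h3 := len_mul_of_red hK hn h hmem1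
      have h4 := len_mul_of_red hK hn h hmem2
      have h5 : DC P (n * l₁.prod * t) (n * l₁.prod * b₂ * t) :=
        t3_up_right htS (P.N.mul_mem hn hl₁N) h₂ (by
          have e2 : n * l₁.prod * t = n * (l₁.prod * t) := by group
          rw [e2]
          omega)
      have e3 : n * b * (l₁.prod * t) = b₁ * (n * l₁.prod * b₂ * t) := by
        calc n * b * (l₁.prod * t) = (n * b * l₁.prod) * t := by group
          _ = _ := by rw [e]; group
      rw [e3]
      have e4 : n * (l₁.prod * t) = n * l₁.prod * t := by group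
      rw [e4]
      exact h5.mul_left h₁
  have h1 := key l hl (by
    rw [hlen]
    exact (len_congr (word_prod_mem_N fun s hs => hK (hl s hs)) hr.2 (WJ_le_N hK hc)).symm)
  -- pass from `l.prod` to `c`
  have hcN := WJ_le_N hK hc
  have hlN : l.prod ∈ P.N := word_prod_mem_N fun s hs => hK (hl s hs)
  have e : n * b * c = (n * b * l.prod) * (l.prod⁻¹ * c) := by group
  rw [e]
  have e2 : n * c = n * l.prod * (l.prod⁻¹ * c) := by group
  rw [e2]
  exact (dc_mul_right_self hr.2).symm.trans (h1.mul_right hr.2)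

/-! ### Exchange on the right, the longest element -/

/-- The exchange condition, on the right. -/
theorem exchange_right {s x : G} (hs : s ∈ P.S) {l : List G} (hr : Rep P l x) (hred : l.length = len P x)
    (hx : x ∈ P.N) (hdown : len P (x * s) < len P x) :
    ∃ l', l'.Sublist l ∧ l'.length + 1 = l.length ∧ Rep P l' (x * s) := by
  have hsN := S_mem_N hs
  have h1 : Rep P (l ++ [s]) (x * s) := hr.snoc hs hx
  have hxs : x * s ∈ P.N := P.N.mul_mem hx hsN
  obtain ⟨l', hsub, hlen, hrep⟩ := exists_reduced_sublist _ h1.1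
  have h2 : len P (l ++ [s]).prod = len P (x * s) := len_congr (word_prod_mem_N h1.1) h1.2 hxs
  have hrep' : Rep P l' (x * s) := by
    have := hrep.mul_B_right h1.2
    have e : (l ++ [s]).prod * ((l ++ [s]).prod⁻¹ * (x * s)) = x * s := by group
    rwa [e] at this
  obtain ⟨X, Y, rfl, hX, hY⟩ := List.sublist_append_iff.mp hsub
  have hlup : len P x ≤ len P (x * s) + 1 := len_le_mul_S hs hx
  rcases List.sublist_singleton.mp hY with rfl | rfl
  · simp only [List.append_nil] at hlen hrep' hsub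
    refine ⟨X, hX, ?_, hrep'⟩
    rw [h2] at hlen
    omega
  · exfalso
    -- `Rep X x`
    have hXS : ∀ y ∈ X, y ∈ P.S := fun y hy => hr.1 y (hX.subset hy)
    have hXN := word_prod_mem_N (P := P) hXS
    have hu : X.prod⁻¹ * x = s * ((X ++ [s]).prod⁻¹ * (x * s)) * s⁻¹ := by
      simp [List.prod_append]; group
    have h3 : (X ++ [s]).prod⁻¹ * (x * s) ∈ P.N :=
      P.N.mul_mem (P.N.inv_mem (word_prod_mem_N hrep'.1)) hxs
    have h4 : Rep P X x := ⟨hXS, by
      rw [hu]
      exact conj_H hsN hrep'.2 h3⟩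
    have h5 := len_le h4
    simp only [List.length_append, List.length_cons, List.length_nil] at hlen
    omega

/-- `n` has all right descents. -/
def Top (P : BNPair G) (n : G) : Prop := ∀ s ∈ P.S, len P (n * s) < len P n

/-- An element with all right descents has a reduced expression ending in any reduced word. -/
theorem top_word {n : G} (hn : n ∈ P.N) (h : Top P n) (l : List G) : (∀ x ∈ l, x ∈ P.S) →
    l.length = len P l.prod → ∃ U : List G, Rep P (U ++ l) n ∧ (U ++ l).length = len P n := by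
  induction l using List.reverseRecOn with
  | nil =>
    intro _ _
    obtain ⟨U, hU, hlen⟩ := len_spec hn
    exact ⟨U, by simpa using hU, by simpa using hlen⟩
  | append_singleton l₁ t ih =>
    intro hl hred
    have hl₁ : ∀ x ∈ l₁, x ∈ P.S := fun x hx => hl x (by simp [hx])
    have ht : t ∈ P.S := hl t (by simp)
    have htN := S_mem_N ht
    have hl₁N := word_prod_mem_N (P := P) hl₁
    have hprod : (l₁ ++ [t]).prod = l₁.prod * t := by simp [List.prod_append]
    have hle : len P l₁.prod ≤ l₁.length := len_le (rep_self hl₁)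
    have hle2 := len_mul_S_le ht hl₁N
    rw [hprod] at hred
    simp only [List.length_append, List.length_cons, List.length_nil] at hred
    obtain ⟨U, hU, hUlen⟩ := ih hl₁ (by omega)
    obtain ⟨L', hsub, hlen', hrep'⟩ := exchange_right ht hU hUlen hn (h t ht)
    obtain ⟨U', Y', rfl, hU', hY'⟩ := List.sublist_append_iff.mp hsub
    have hUS : ∀ x ∈ U, x ∈ P.S := fun x hx => hU.1 x (by simp [hx])
    have hU'S : ∀ x ∈ U', x ∈ P.S := fun x hx => hUS x (hU'.subset hx)
    have hY'S : ∀ x ∈ Y', x ∈ P.S := fun x hx => hl₁ x (hY'.subset hx)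
    have h1 := hU'.length_le
    have h2 := hY'.length_le
    simp only [List.length_append] at hlen'
    by_cases hY : Y'.length = l₁.length
    · have hYeq : Y' = l₁ := hY'.eq_of_length hY
      subst hYeq
      refine ⟨U', ?_, ?_⟩
      · have h3 := hrep'.snoc ht (P.N.mul_mem hn htN)
        have h4 := h3.mul_B_right (sq_inv_mem ht)
        have e : n * t * t * (t * t)⁻¹ = n := by group
        rw [e, List.append_assoc] at h4
        exact h4
      · have h5 := len_le hrep'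
        simp only [List.length_append, List.length_cons, List.length_nil] at hUlen ⊢
        omega
    · exfalso
      have hUeq : U'.length = U.length := by omega
      have hUe : U' = U := hU'.eq_of_length hUeq
      subst hUe
      have hrep2 : Rep P Y' (l₁.prod * t) := by
        refine ⟨hY'S, ?_⟩
        -- `n t ≡ U Y'`, `n ≡ U l₁`
        set h₁ := (U' ++ l₁).prod⁻¹ * n with hh₁
        have hh₁B : h₁ ∈ P.B := hU.2
        have hh₁N : h₁ ∈ P.N := P.N.mul_mem (P.N.inv_mem (word_prod_mem_N hU.1)) hn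
        have e1 : Y'.prod⁻¹ * (l₁.prod * t) = (U' ++ Y').prod⁻¹ * (n * t) * (t⁻¹ * h₁⁻¹ * t) := by
          rw [hh₁]
          simp [List.prod_append]
          group
        rw [e1]
        exact P.B.mul_mem hrep'.2 (conj_H' htN (P.B.inv_mem hh₁B) (P.N.inv_mem hh₁N))
      have h6 := len_le hrep2
      omega

theorem top_le {n : G} (hn : n ∈ P.N) (h : Top P n) {y : G} (hy : y ∈ P.N) : len P y ≤ len P n := by
  obtain ⟨l, hl, hlen⟩ := len_spec hy
  obtain ⟨U, hU, hUlen⟩ := top_word hn h l hl.1 (by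
    rw [hlen]
    exact (len_congr (word_prod_mem_N hl.1) hl.2 hy).symm)
  simp only [List.length_append] at hUlen
  omega

theorem top_unique {n n' : G} (hn : n ∈ P.N) (hn' : n' ∈ P.N) (h : Top P n) (h' : Top P n') :
    n⁻¹ * n' ∈ P.B := by
  obtain ⟨l, hl, hlen⟩ := len_spec hn'
  obtain ⟨U, hU, hUlen⟩ := top_word hn h l hl.1 (by
    rw [hlen]
    exact (len_congr (word_prod_mem_N hl.1) hl.2 hn').symm)
  simp only [List.length_append] at hUlen
  have h1 := top_le hn' h' hn
  have h2 : U = [] := by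
    apply List.eq_nil_of_length_eq_zero
    omega
  subst h2
  simp only [List.nil_append] at hU
  have e : n⁻¹ * n' = (l.prod⁻¹ * n)⁻¹ * (l.prod⁻¹ * n') := by group
  rw [e]
  exact P.B.mul_mem (P.B.inv_mem hU.2) hl.2

theorem top_left {n : G} (hn : n ∈ P.N) (h : Top P n) {s : G} (hs : s ∈ P.S) : len P (s * n) < len P n := by
  have h1 := top_le hn h (P.N.mul_mem (S_mem_N hs) hn)
  have h2 := len_S_mul_ne hs hn
  omega

theorem exists_top [Finite G] : ∃ n ∈ P.N, Top P n := by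
  classical
  obtain ⟨n, hn⟩ := Finite.exists_max (fun x : P.N => len P (x : G))
  refine ⟨n, n.2, ?_⟩
  intro s hs
  have h1 := hn ⟨(n : G) * s, P.N.mul_mem n.2 (S_mem_N hs)⟩
  have h2 := len_mul_S_ne hs n.2
  simp only at h1
  omega

/-- Descents are invariant under multiplication by `H`. -/
theorem len_mul_S_congr {n n' s : G} (hs : s ∈ P.S) (hn : n ∈ P.N) (hn' : n' ∈ P.N) (h : n⁻¹ * n' ∈ P.B) :
    len P (n' * s) = len P (n * s) := by
  have hsN := S_mem_N hs
  apply len_congr (P.N.mul_mem hn' hsN) _ (P.N.mul_mem hn hsN)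
  have e : (n' * s)⁻¹ * (n * s) = s⁻¹ * (n⁻¹ * n')⁻¹ * s := by group
  rw [e]
  exact conj_H' hsN (P.B.inv_mem h) (P.N.inv_mem (P.N.mul_mem (P.N.inv_mem hn) hn'))

theorem len_S_mul_congr {n n' s : G} (hs : s ∈ P.S) (hn : n ∈ P.N) (hn' : n' ∈ P.N) (h : n⁻¹ * n' ∈ P.B) :
    len P (s * n') = len P (s * n) := by
  have hsN := S_mem_N hs
  apply len_congr (P.N.mul_mem hsN hn') _ (P.N.mul_mem hsN hn)
  have e : (s * n')⁻¹ * (s * n) = (n⁻¹ * n')⁻¹ := by group
  rw [e]
  exact P.B.inv_mem h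

theorem Red_congr {n n' : G} (hJ : J ⊆ P.S) (hK : K ⊆ P.S) (hn : n ∈ P.N) (hn' : n' ∈ P.N) (h : n⁻¹ * n' ∈ P.B)
    (hr : Red P J K n) : Red P J K n' := by
  have hlen := len_congr hn h hn'
  constructor
  · intro s hs
    rw [len_S_mul_congr (hJ hs) hn hn' h, ← hlen]
    exact hr.1 s hs
  · intro s hs
    rw [len_mul_S_congr (hK hs) hn hn' h, ← hlen]
    exact hr.2 s hs

/-! ### Multiplying double cosets by parabolic subgroups -/

theorem dc_closure_left (hJ : J ⊆ P.S) {k : G} (hk : k ∈ Subgroup.closure J) :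
    ∀ {g m : G}, m ∈ P.N → DC P m g → ∃ a ∈ Subgroup.closure J, DC P (a * m) (k * g) := by
  induction hk using Subgroup.closure_induction_left with
  | one =>
    intro g m hm hg
    exact ⟨1, Subgroup.one_mem _, by simpa using hg⟩
  | mul_left x hx y _ ih =>
    intro g m hm hg
    obtain ⟨a, ha, hd⟩ := ih hm hg
    have haN := closure_le_N hJ ha
    obtain ⟨b₁, h₁, b₂, h₂, e⟩ := hd
    have hxS := hJ hx
    rw [mul_assoc, e]
    rcases t3 hxS (P.N.mul_mem haN hm) h₁ with h3 | h3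
    · refine ⟨x * a, Subgroup.mul_mem _ (Subgroup.subset_closure hx) ha, ?_⟩
      have h4 := h3.mul_right h₂
      have e1 : x * b₁ * (a * m) * b₂ = x * (b₁ * (a * m) * b₂) := by group
      rw [e1] at h4
      have e2 : x * a * m = x * (a * m) := by group
      rw [e2]
      exact h4
    · refine ⟨a, ha, ?_⟩
      have h4 := h3.mul_right h₂
      have e1 : x * b₁ * (a * m) * b₂ = x * (b₁ * (a * m) * b₂) := by group
      rw [e1] at h4
      exact h4
  | inv_mul_cancel x hx y _ ih =>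
    intro g m hm hg
    obtain ⟨a, ha, hd⟩ := ih hm hg
    have haN := closure_le_N hJ ha
    obtain ⟨b₁, h₁, b₂, h₂, e⟩ := hd
    have hxS := hJ hx
    have e0 : x⁻¹ * y * g = x⁻¹ * (y * g) := by group
    rw [e0, e]
    rcases t3_inv hxS (P.N.mul_mem haN hm) h₁ with h3 | h3
    · refine ⟨x * a, Subgroup.mul_mem _ (Subgroup.subset_closure hx) ha, ?_⟩
      have h4 := h3.mul_right h₂
      have e1 : x⁻¹ * b₁ * (a * m) * b₂ = x⁻¹ * (b₁ * (a * m) * b₂) := by group
      rw [e1] at h4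
      have e2 : x * a * m = x * (a * m) := by group
      rw [e2]
      exact h4
    · refine ⟨a, ha, ?_⟩
      have h4 := h3.mul_right h₂
      have e1 : x⁻¹ * b₁ * (a * m) * b₂ = x⁻¹ * (b₁ * (a * m) * b₂) := by group
      rw [e1] at h4
      exact h4

theorem dc_closure_right (hK : K ⊆ P.S) {k g m : G} (hk : k ∈ Subgroup.closure K) (hm : m ∈ P.N)
    (hg : DC P m g) : ∃ c ∈ Subgroup.closure K, DC P (m * c) (g * k) := by
  obtain ⟨a, ha, hd⟩ := dc_closure_left hK (Subgroup.inv_mem _ hk) (P.N.inv_mem hm) hg.inv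
  refine ⟨a⁻¹, Subgroup.inv_mem _ ha, ?_⟩
  have h := hd.inv
  have e1 : (a * m⁻¹)⁻¹ = m * a⁻¹ := by group
  have e2 : (k⁻¹ * g⁻¹)⁻¹ = g * k := by group
  rwa [e1, e2] at h

theorem closure_le_WJ (J : Set G) : Subgroup.closure J ≤ WJ P J := le_sup_left

/-- `P_J n P_K` is the union of the `B a n c B`. -/
theorem exists_dc_of_parabolic (hJ : J ⊆ P.S) (hK : K ⊆ P.S) {g p n : G} (hg : g ∈ P.parabolic J)
    (hp : p ∈ P.parabolic K) (hn : n ∈ P.N) :
    ∃ a ∈ Subgroup.closure J, ∃ c ∈ Subgroup.closure K, DC P (a * n * c) (g * n * p) := by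
  obtain ⟨k₁, hk₁, b₁, h₁, b₂, h₂, rfl⟩ := (mem_parabolic_iff hJ g).mp hg
  obtain ⟨k₂, hk₂, b₃, h₃, b₄, h₄, rfl⟩ := (mem_parabolic_iff hK p).mp hp
  have h1 : DC P n (b₂ * n * b₃) := ⟨b₂, h₂, b₃, h₃, rfl⟩
  obtain ⟨a, ha, h2⟩ := dc_closure_left hJ hk₁ hn h1
  have haN := closure_le_N hJ ha
  obtain ⟨c, hc, h3⟩ := dc_closure_right hK hk₂ (P.N.mul_mem haN hn) h2
  refine ⟨a, ha, c, hc, ?_⟩
  have e : b₁ * k₁ * b₂ * n * (b₃ * k₂ * b₄) = b₁ * (k₁ * (b₂ * n * b₃) * k₂) * b₄ := by group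
  rw [e]
  exact (h3.mul_left h₁).mul_right h₄

/-! ### The longest element of a parabolic Weyl group -/

/-- `n` has all right descents in `J`. -/
def TopIn (P : BNPair G) (J : Set G) (n : G) : Prop := ∀ s ∈ J, len P (n * s) < len P n

/-- Relative form of `top_word`. -/
theorem top_word_rel (hJ : J ⊆ P.S) {n : G} (hnJ : n ∈ WJ P J) (h : TopIn P J n) (l : List G) :
    (∀ x ∈ l, x ∈ J) → l.length = len P l.prod →
    ∃ U : List G, (∀ x ∈ U, x ∈ J) ∧ Rep P (U ++ l) n ∧ (U ++ l).length = len P n := by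
  have hn : n ∈ P.N := WJ_le_N hJ hnJ
  induction l using List.reverseRecOn with
  | nil =>
    intro _ _
    obtain ⟨U, hU1, hU, hlen⟩ := exists_reduced_of_closure hJ hnJ
    exact ⟨U, hU1, by simpa using hU, by simpa using hlen⟩
  | append_singleton l₁ t ih =>
    intro hl hred
    have hl₁ : ∀ x ∈ l₁, x ∈ J := fun x hx => hl x (by simp [hx])
    have hl₁S : ∀ x ∈ l₁, x ∈ P.S := fun x hx => hJ (hl₁ x hx)
    have htJ : t ∈ J := hl t (by simp)
    have ht : t ∈ P.S := hJ htJ
    have htN := S_mem_N ht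
    have hl₁N := word_prod_mem_N (P := P) hl₁S
    have hprod : (l₁ ++ [t]).prod = l₁.prod * t := by simp [List.prod_append]
    have hle : len P l₁.prod ≤ l₁.length := len_le (rep_self hl₁S)
    have hle2 := len_mul_S_le ht hl₁N
    rw [hprod] at hred
    simp only [List.length_append, List.length_cons, List.length_nil] at hred
    obtain ⟨U, hUJ, hU, hUlen⟩ := ih hl₁ (by omega)
    obtain ⟨L', hsub, hlen', hrep'⟩ := exchange_right ht hU hUlen hn (h t htJ)
    obtain ⟨U', Y', rfl, hU', hY'⟩ := List.sublist_append_iff.mp hsub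
    have hUS : ∀ x ∈ U, x ∈ P.S := fun x hx => hU.1 x (by simp [hx])
    have hU'S : ∀ x ∈ U', x ∈ P.S := fun x hx => hUS x (hU'.subset hx)
    have hY'S : ∀ x ∈ Y', x ∈ P.S := fun x hx => hl₁S x (hY'.subset hx)
    have h1 := hU'.length_le
    have h2 := hY'.length_le
    simp only [List.length_append] at hlen'
    by_cases hY : Y'.length = l₁.length
    · have hYeq : Y' = l₁ := hY'.eq_of_length hY
      subst hYeq
      refine ⟨U', fun x hx => hUJ x (hU'.subset hx), ?_, ?_⟩
      · have h3 := hrep'.snoc ht (P.N.mul_mem hn htN)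
        have h4 := h3.mul_B_right (sq_inv_mem ht)
        have e : n * t * t * (t * t)⁻¹ = n := by group
        rw [e, List.append_assoc] at h4
        exact h4
      · have h5 := len_le hrep'
        simp only [List.length_append, List.length_cons, List.length_nil] at hUlen ⊢
        omega
    · exfalso
      have hUeq : U'.length = U.length := by omega
      have hUe : U' = U := hU'.eq_of_length hUeq
      subst hUe
      have hrep2 : Rep P Y' (l₁.prod * t) := by
        refine ⟨hY'S, ?_⟩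
        set h₁ := (U' ++ l₁).prod⁻¹ * n with hh₁
        have hh₁B : h₁ ∈ P.B := hU.2
        have hh₁N : h₁ ∈ P.N := P.N.mul_mem (P.N.inv_mem (word_prod_mem_N hU.1)) hn
        have e1 : Y'.prod⁻¹ * (l₁.prod * t) = (U' ++ Y').prod⁻¹ * (n * t) * (t⁻¹ * h₁⁻¹ * t) := by
          rw [hh₁]
          simp [List.prod_append]
          group
        rw [e1]
        exact P.B.mul_mem hrep'.2 (conj_H' htN (P.B.inv_mem hh₁B) (P.N.inv_mem hh₁N))
      have h6 := len_le hrep2
      omega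

/-- In the parabolic Weyl group, the longest element is maximal with respect to the right weak order. -/
theorem top_rel_factor (hJ : J ⊆ P.S) {n : G} (hnJ : n ∈ WJ P J) (h : TopIn P J n) {y : G} (hy : y ∈ WJ P J) :
    len P (n * y⁻¹) + len P y = len P n := by
  have hn : n ∈ P.N := WJ_le_N hJ hnJ
  have hyN := WJ_le_N hJ hy
  obtain ⟨l, hl, hr, hlen⟩ := exists_reduced_of_closure hJ hy
  obtain ⟨U, hU1, hU, hUlen⟩ := top_word_rel hJ hnJ h l hl (by
    rw [hlen]
    exact (len_congr (word_prod_mem_N hr.1) hr.2 hyN).symm)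
  simp only [List.length_append] at hUlen
  have hUS : ∀ x ∈ U, x ∈ P.S := fun x hx => hJ (hU1 x hx)
  have hUN := word_prod_mem_N (P := P) hUS
  have hlN := word_prod_mem_N (P := P) hr.1
  have hsub := len_mul_le (P := P) (P.N.mul_mem hn (P.N.inv_mem hyN)) hyN
  have e0 : n * y⁻¹ * y = n := by group
  rw [e0] at hsub
  have hhn : (U ++ l).prod⁻¹ * n ∈ P.B := hU.2
  have hhnN : (U ++ l).prod⁻¹ * n ∈ P.N := P.N.mul_mem (P.N.inv_mem (word_prod_mem_N hU.1)) hn
  have hhy : l.prod⁻¹ * y ∈ P.B := hr.2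
  have hhyN : l.prod⁻¹ * y ∈ P.N := P.N.mul_mem (P.N.inv_mem hlN) hyN
  have e1 : n * y⁻¹ = U.prod * (l.prod * (((U ++ l).prod⁻¹ * n) * (l.prod⁻¹ * y)⁻¹) * l.prod⁻¹) := by
    simp [List.prod_append]; group
  have h2 : len P (n * y⁻¹) = len P U.prod := by
    rw [e1]
    apply len_mul_H_right hUN
    · exact conj_H hlN (P.B.mul_mem hhn (P.B.inv_mem hhy)) (P.N.mul_mem hhnN (P.N.inv_mem hhyN))
    · exact P.N.mul_mem (P.N.mul_mem hlN (P.N.mul_mem hhnN (P.N.inv_mem hhyN))) (P.N.inv_mem hlN)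
  have h3 : len P U.prod ≤ U.length := len_le (rep_self hUS)
  omega

theorem top_rel_unique (hJ : J ⊆ P.S) {n n' : G} (hn : n ∈ WJ P J) (hn' : n' ∈ WJ P J)
    (h : TopIn P J n) (h' : TopIn P J n') : n⁻¹ * n' ∈ P.B := by
  have hnN := WJ_le_N hJ hn
  have hnN' := WJ_le_N hJ hn'
  have key : ∀ {a b : G}, a ∈ WJ P J → b ∈ WJ P J → TopIn P J a → len P b ≤ len P a := by
    intro a b ha hb hta
    obtain ⟨l, hl, hr, hlen⟩ := exists_reduced_of_closure hJ hb
    obtain ⟨U, hU1, hU, hUlen⟩ := top_word_rel hJ ha hta l hl (by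
      rw [hlen]
      exact (len_congr (word_prod_mem_N hr.1) hr.2 (WJ_le_N hJ hb)).symm)
    simp only [List.length_append] at hUlen
    omega
  obtain ⟨l, hl, hr, hlen⟩ := exists_reduced_of_closure hJ hn'
  obtain ⟨U, hU1, hU, hUlen⟩ := top_word_rel hJ hn h l hl (by
    rw [hlen]
    exact (len_congr (word_prod_mem_N hr.1) hr.2 hnN').symm)
  simp only [List.length_append] at hUlen
  have h1 := key hn' hn h'
  have h2 : U = [] := by
    apply List.eq_nil_of_length_eq_zero
    omega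
  subst h2
  simp only [List.nil_append] at hU
  have e : n⁻¹ * n' = (l.prod⁻¹ * n)⁻¹ * (l.prod⁻¹ * n') := by group
  rw [e]
  exact P.B.mul_mem (P.B.inv_mem hU.2) hr.2

theorem exists_top_rel [Finite G] (hJ : J ⊆ P.S) : ∃ n ∈ WJ P J, TopIn P J n := by
  classical
  obtain ⟨n, hn⟩ := Finite.exists_max (fun x : WJ P J => len P (x : G))
  refine ⟨n, n.2, ?_⟩
  intro s hs
  have h1 := hn ⟨(n : G) * s, Subgroup.mul_mem _ n.2 (subset_WJ hs)⟩
  have h2 := len_mul_S_ne (hJ hs) (WJ_le_N hJ n.2)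
  simp only at h1
  omega

end Cfsg.Agent.Lib.Known.BNSt
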