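import Cfsg.Agent.Lib.Known.BNSt

set_option autoImplicit false
set_option linter.unusedVariables false
set_option linter.unusedSectionVars false

/-! Steinberg's count of the `p`-elements, for a finite group with a split (B,N)-pair. -/

namespace Cfsg.Agent.Lib.Known.BNSt

open Cfsg Cfsg.Agent.Lib.BN MulAction

variable {G : Type*} [Group G] {P : BNPair G} {ι : Type*} [DecidableEq ι] {I : Finset ι} {σ : ι → G}

/-- The coset `ξ` is represented in `A`. -/
def InP (A : Subgroup G) {C : Subgroup G} (ξ : G ⧸ C) : Prop := ∃ g ∈ A, ξ = (g : G ⧸ C)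

theorem inP_mk {A C : Subgroup G} (h : C ≤ A) {g : G} : InP A (g : G ⧸ C) ↔ g ∈ A := by
  constructor
  · rintro ⟨g', hg', e⟩
    have e1 : (g' : G ⧸ C) = (g : G ⧸ C) := e.symm
    rw [QuotientGroup.eq] at e1
    have e2 : g = g' * (g'⁻¹ * g) := by group
    rw [e2]
    exact A.mul_mem hg' (h e1)
  · intro hg
    exact ⟨g, hg, rfl⟩

theorem inP_smul {A C : Subgroup G} (h : C ≤ A) {a : G} (ha : a ∈ A) (ξ : G ⧸ C) : InP A (a • ξ) ↔ InP A ξ := by
  obtain ⟨g, rfl⟩ := QuotientGroup.mk_surjective ξ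
  change InP A ((a * g : G) : G ⧸ C) ↔ _
  rw [inP_mk h, inP_mk h]
  constructor
  · intro h1
    have e : g = a⁻¹ * (a * g) := by group
    rw [e]
    exact A.mul_mem (A.inv_mem ha) h1
  · exact fun h1 => A.mul_mem ha h1

/-- The number of cosets of `C` inside `A` fixed by `y`. -/
noncomputable def FixIn (A C : Subgroup G) (y : G) : ℕ := Nat.card {ξ : G ⧸ C // InP A ξ ∧ y • ξ = ξ}

theorem natCard_subtype_eq_sum [Finite G] {C : Subgroup G} (p : G ⧸ C → Prop) [Fintype (G ⧸ C)] [DecidablePred p] :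
    (Nat.card {ξ : G ⧸ C // p ξ} : ℂ) = ∑ ξ : G ⧸ C, if p ξ then 1 else 0 := by
  rw [Nat.card_eq_fintype_card, Fintype.card_subtype, Finset.card_filter]
  push_cast
  rfl

open scoped _root_.Classical in
/-- Transitivity of induction, in terms of fixed points. -/
theorem sum_conj_fix [Fintype G] {A C : Subgroup G} (h : C ≤ A) (g : G) :
    (∑ x : G, if x⁻¹ * g * x ∈ A then (FixIn A C (x⁻¹ * g * x) : ℂ) else 0) =
      (Nat.card A : ℂ) * (Nat.card (fixedBy (G ⧸ C) g) : ℂ) := by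
  classical
  letI : Fintype (G ⧸ C) := Fintype.ofFinite _
  -- inner reindexing
  have h1 : ∀ x : G, (if x⁻¹ * g * x ∈ A then (FixIn A C (x⁻¹ * g * x) : ℂ) else 0) =
      ∑ η : G ⧸ C, if InP A (x⁻¹ • η) ∧ g • η = η then (1 : ℂ) else 0 := by
    intro x
    have hterm : ∀ η : G ⧸ C, (InP A (x⁻¹ • η) ∧ g • η = η) →
        x⁻¹ * g * x ∈ A := by
      rintro η ⟨h2, h3⟩
      obtain ⟨z, rfl⟩ := QuotientGroup.mk_surjective η
      have h4 : ((x⁻¹ * z : G) : G ⧸ C) = x⁻¹ • (z : G ⧸ C) := rfl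
      rw [← h4, inP_mk h] at h2
      have h5 : ((g * z : G) : G ⧸ C) = (z : G ⧸ C) := h3
      rw [QuotientGroup.eq] at h5
      have h6 : z⁻¹ * g * z ∈ A := by
        have e : z⁻¹ * g * z = ((g * z)⁻¹ * z)⁻¹ := by group
        rw [e]
        exact A.inv_mem (h h5)
      have e : x⁻¹ * g * x = (x⁻¹ * z) * (z⁻¹ * g * z) * (x⁻¹ * z)⁻¹ := by group
      rw [e]
      exact A.mul_mem (A.mul_mem h2 h6) (A.inv_mem h2)
    have hsum : (FixIn A C (x⁻¹ * g * x) : ℂ) =
        ∑ η : G ⧸ C, if InP A (x⁻¹ • η) ∧ g • η = η then (1 : ℂ) else 0 := by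
      unfold FixIn
      rw [natCard_subtype_eq_sum]
      rw [← Equiv.sum_comp (MulAction.toPerm (x⁻¹ : G) : Equiv.Perm (G ⧸ C))]
      apply Finset.sum_congr rfl
      intro η _
      simp only [MulAction.toPerm_apply]
      have e1 : (x⁻¹ * g * x) • (x⁻¹ • η) = x⁻¹ • (g • η) := by
        rw [smul_smul, smul_smul]
        congr 1
        group
      have e2 : (x⁻¹ • (g • η) = x⁻¹ • η) ↔ g • η = η := smul_left_cancel_iff _
      simp only [e1, e2]
    by_cases hx : x⁻¹ * g * x ∈ A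
    · rw [if_pos hx, hsum]
    · rw [if_neg hx]
      symm
      apply Finset.sum_eq_zero
      intro η _
      rw [if_neg]
      exact fun hc => hx (hterm η hc)
  simp only [h1]
  rw [Finset.sum_comm]
  -- outer count
  have h2 : ∀ η : G ⧸ C, (∑ x : G, if InP A (x⁻¹ • η) ∧ g • η = η then (1 : ℂ) else 0) =
      (Nat.card A : ℂ) * (if g • η = η then 1 else 0) := by
    intro η
    by_cases h3 : g • η = η
    · simp only [h3, and_true, if_true, mul_one]
      obtain ⟨z, rfl⟩ := QuotientGroup.mk_surjective η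
      have h4 : ∀ x : G, InP A (x⁻¹ • (z : G ⧸ C)) ↔ x⁻¹ * z ∈ A := by
        intro x
        have h5 : ((x⁻¹ * z : G) : G ⧸ C) = x⁻¹ • (z : G ⧸ C) := rfl
        rw [← h5, inP_mk h]
      simp only [h4]
      have h6 : (Nat.card {x : G // x⁻¹ * z ∈ A} : ℂ) = ∑ x : G, if x⁻¹ * z ∈ A then 1 else 0 := by
        rw [Nat.card_eq_fintype_card, Fintype.card_subtype, Finset.card_filter]
        push_cast
        rfl
      rw [← h6]
      congr 1
      apply Nat.card_congr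
      refine ⟨fun x => ⟨x.1⁻¹ * z, x.2⟩, fun a => ⟨z * (a.1)⁻¹, ?_⟩, ?_, ?_⟩
      · have e : (z * (a.1)⁻¹)⁻¹ * z = a.1 := by group
        rw [e]
        exact a.2
      · intro x
        apply Subtype.ext
        group
      · intro a
        apply Subtype.ext
        change (z * (a.1)⁻¹)⁻¹ * z = a.1
        group
    · simp [h3]
  simp only [h2]
  rw [← Finset.mul_sum]
  congr 1
  have h3 : (Nat.card (fixedBy (G ⧸ C) g) : ℂ) = ∑ η : G ⧸ C, if g • η = η then 1 else 0 := by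
    have : Nat.card (fixedBy (G ⧸ C) g) = Nat.card {η : G ⧸ C // g • η = η} := rfl
    rw [this, natCard_subtype_eq_sum]
  exact h3.symm

theorem FixIn_conj {A C : Subgroup G} (h : C ≤ A) {z y : G} (hz : z ∈ A) :
    FixIn A C (z * y * z⁻¹) = FixIn A C y := by
  unfold FixIn
  apply Nat.card_congr
  refine ⟨fun ξ => ⟨z⁻¹ • ξ.1, ?_, ?_⟩, fun ξ => ⟨z • ξ.1, ?_, ?_⟩, ?_, ?_⟩
  · rw [inP_smul h (A.inv_mem hz)]
    exact ξ.2.1
  · have h1 := ξ.2.2
    have e : y • (z⁻¹ • ξ.1) = z⁻¹ • ((z * y * z⁻¹) • ξ.1) := by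
      rw [smul_smul, smul_smul]
      congr 1
      group
    rw [e, h1]
  · rw [inP_smul h hz]
    exact ξ.2.1
  · have h1 := ξ.2.2
    have e : (z * y * z⁻¹) • (z • ξ.1) = z • (y • ξ.1) := by
      rw [smul_smul, smul_smul]
      congr 1
      group
    rw [e, h1]
  · intro ξ
    apply Subtype.ext
    simp
  · intro ξ
    apply Subtype.ext
    simp

/-- The parabolic of `J`. -/
abbrev PJ (P : BNPair G) (σ : ι → G) (J : Finset ι) : Subgroup G := P.parabolic (JS σ J)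

theorem PJ_mono {J K : Finset ι} (h : K ⊆ J) : PJ P σ K ≤ PJ P σ J :=
  parabolic_mono (Set.image_mono (by exact_mod_cast h))

/-- The relative Steinberg function on `P_J`. -/
noncomputable def StJ (P : BNPair G) (σ : ι → G) (J : Finset ι) (y : G) : ℂ :=
  ∑ K ∈ J.powerset, (-1 : ℂ) ^ K.card * (FixIn (PJ P σ J) (PJ P σ K) y : ℂ)

theorem StJ_conj {J : Finset ι} {z y : G} (hz : z ∈ PJ P σ J) : StJ P σ J (z * y * z⁻¹) = StJ P σ J y := by
  unfold StJ
  apply Finset.sum_congr rfl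
  intro K hK
  rw [FixIn_conj (PJ_mono (Finset.mem_powerset.mp hK)) hz]

open scoped _root_.Classical in
/-- The alternating sum formula `(I1)`. -/
theorem sum_StJ [Fintype G] (hL : Lab P I σ) (g : G) :
    (∑ J ∈ I.powerset, (-1 : ℂ) ^ J.card * ((Nat.card (PJ P σ J) : ℂ)⁻¹ *
      ∑ x : G, if x⁻¹ * g * x ∈ PJ P σ J then StJ P σ J (x⁻¹ * g * x) else 0)) = 1 := by
  classical
  have h1 : ∀ J ∈ I.powerset, (∑ x : G, if x⁻¹ * g * x ∈ PJ P σ J then StJ P σ J (x⁻¹ * g * x) else 0) =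
      (Nat.card (PJ P σ J) : ℂ) * ∑ K ∈ J.powerset, (-1 : ℂ) ^ K.card *
        (Nat.card (fixedBy (G ⧸ PJ P σ K) g) : ℂ) := by
    intro J hJ
    unfold StJ
    have h2 : ∀ x : G, (if x⁻¹ * g * x ∈ PJ P σ J then
        ∑ K ∈ J.powerset, (-1 : ℂ) ^ K.card * (FixIn (PJ P σ J) (PJ P σ K) (x⁻¹ * g * x) : ℂ) else 0) =
        ∑ K ∈ J.powerset, (-1 : ℂ) ^ K.card *
          (if x⁻¹ * g * x ∈ PJ P σ J then (FixIn (PJ P σ J) (PJ P σ K) (x⁻¹ * g * x) : ℂ) else 0) := by
      intro x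
      by_cases hx : x⁻¹ * g * x ∈ PJ P σ J <;> simp [hx]
    simp only [h2]
    rw [Finset.sum_comm, Finset.mul_sum]
    apply Finset.sum_congr rfl
    intro K hK
    rw [← Finset.mul_sum, sum_conj_fix (PJ_mono (Finset.mem_powerset.mp hK))]
    ring
  have h0 : ∀ J : Finset ι, (Nat.card (PJ P σ J) : ℂ) ≠ 0 := by
    intro J
    exact_mod_cast (Nat.card_pos (α := PJ P σ J)).ne'
  rw [Finset.sum_congr rfl (fun J hJ => by rw [h1 J hJ, inv_mul_cancel_left₀ (h0 J)])]
  -- exchange the sums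
  have h3 : (∑ J ∈ I.powerset, (-1 : ℂ) ^ J.card * ∑ K ∈ J.powerset, (-1 : ℂ) ^ K.card *
        (Nat.card (fixedBy (G ⧸ PJ P σ K) g) : ℂ)) =
      ∑ K ∈ I.powerset, (-1 : ℂ) ^ K.card * (Nat.card (fixedBy (G ⧸ PJ P σ K) g) : ℂ) *
        ∑ J ∈ I.powerset, if K ⊆ J then (-1 : ℂ) ^ J.card else 0 := by
    have h4 : ∀ J ∈ I.powerset, (-1 : ℂ) ^ J.card * ∑ K ∈ J.powerset, (-1 : ℂ) ^ K.card *
        (Nat.card (fixedBy (G ⧸ PJ P σ K) g) : ℂ) = ∑ K ∈ I.powerset, if K ⊆ J then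
          (-1 : ℂ) ^ K.card * (Nat.card (fixedBy (G ⧸ PJ P σ K) g) : ℂ) * (-1 : ℂ) ^ J.card else 0 := by
      intro J hJ
      have hJ' := Finset.mem_powerset.mp hJ
      rw [Finset.mul_sum]
      have : J.powerset = I.powerset.filter (fun K => K ⊆ J) := by
        ext K
        simp only [Finset.mem_powerset, Finset.mem_filter]
        exact ⟨fun h => ⟨h.trans hJ', h⟩, fun h => h.2⟩
      rw [this, Finset.sum_filter]
      apply Finset.sum_congr rfl
      intro K _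
      by_cases hKJ : K ⊆ J <;> simp [hKJ]
      ring
    rw [Finset.sum_congr rfl h4, Finset.sum_comm]
    apply Finset.sum_congr rfl
    intro K _
    rw [Finset.mul_sum]
    apply Finset.sum_congr rfl
    intro J _
    by_cases hKJ : K ⊆ J <;> simp [hKJ]
  rw [h3]
  -- the inner sum vanishes unless `K = I`
  have h5 : ∀ K ∈ I.powerset, (∑ J ∈ I.powerset, if K ⊆ J then (-1 : ℂ) ^ J.card else 0) =
      if K = I then (-1 : ℂ) ^ I.card else 0 := by
    intro K hK
    have hK' := Finset.mem_powerset.mp hK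
    -- complement
    have h6 : (∑ J ∈ I.powerset, if K ⊆ J then (-1 : ℂ) ^ J.card else 0) =
        ∑ J ∈ I.powerset, if K ⊆ I \ J then (-1 : ℂ) ^ (I \ J).card else 0 := by
      apply Finset.sum_nbij' (fun J => I \ J) (fun J => I \ J)
      · intro J _
        exact Finset.mem_powerset.mpr Finset.sdiff_subset
      · intro J _
        exact Finset.mem_powerset.mpr Finset.sdiff_subset
      · intro J hJ
        exact Finset.sdiff_sdiff_eq_self (Finset.mem_powerset.mp hJ)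
      · intro J hJ
        exact Finset.sdiff_sdiff_eq_self (Finset.mem_powerset.mp hJ)
      · intro J hJ
        rw [Finset.sdiff_sdiff_eq_self (Finset.mem_powerset.mp hJ)]
    rw [h6]
    have h7 : ∀ J ∈ I.powerset, (if K ⊆ I \ J then (-1 : ℂ) ^ (I \ J).card else 0) =
        (-1 : ℂ) ^ I.card * (if Disjoint J K then (-1 : ℂ) ^ J.card else 0) := by
      intro J hJ
      have hJ' := Finset.mem_powerset.mp hJ
      have h8 : K ⊆ I \ J ↔ Disjoint J K := by
        rw [Finset.subset_sdiff]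
        constructor
        · exact fun h => h.2.symm
        · exact fun h => ⟨hK', h.symm⟩
      by_cases h9 : Disjoint J K
      · rw [if_pos (h8.mpr h9), if_pos h9]
        have h10 : (I \ J).card + J.card = I.card := Finset.card_sdiff_add_card_eq_card hJ'
        rw [← h10, pow_add]
        have h11 : ((-1 : ℂ) ^ J.card) * ((-1 : ℂ) ^ J.card) = 1 := by
          rw [← mul_pow]
          simp
        calc _ = (-1 : ℂ) ^ (I \ J).card * (((-1 : ℂ) ^ J.card) * ((-1 : ℂ) ^ J.card)) := by rw [h11, mul_one]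
          _ = _ := by ring
      · rw [if_neg (fun h => h9 (h8.mp h)), if_neg h9, mul_zero]
    rw [Finset.sum_congr rfl h7, ← Finset.mul_sum, sum_sign_disjoint I K hK']
    by_cases h8 : K = I <;> simp [h8]
  rw [Finset.sum_congr rfl (fun K hK => by rw [h5 K hK])]
  rw [Finset.sum_eq_single I]
  · simp only [if_true]
    have h6 : PJ P σ I = ⊤ := by
      have e : JS σ I = P.S := hL.image
      unfold PJ
      rw [e, parabolic_S]
    have h7 : (Nat.card (fixedBy (G ⧸ PJ P σ I) g) : ℂ) = 1 := by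
      have h8 : Nat.card (fixedBy (G ⧸ PJ P σ I) g) = 1 := by
        rw [h6]
        rw [Nat.card_eq_one_iff_unique]
        refine ⟨⟨?_⟩, ⟨⟨(1 : G), ?_⟩⟩⟩
        · rintro ⟨a, ha⟩ ⟨b, hb⟩
          apply Subtype.ext
          obtain ⟨a, rfl⟩ := QuotientGroup.mk_surjective a
          obtain ⟨b, rfl⟩ := QuotientGroup.mk_surjective b
          rw [QuotientGroup.eq]
          trivial
        · rw [mem_fixedBy]
          change ((g * 1 : G) : G ⧸ (⊤ : Subgroup G)) = ((1 : G) : G ⧸ (⊤ : Subgroup G))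
          rw [QuotientGroup.eq]
          trivial
      rw [h8]
      simp
    rw [h7, mul_one, ← mul_pow]
    simp
  · intro K _ hK
    simp [hK]
  · intro h
    exact absurd (Finset.mem_powerset.mpr (Finset.Subset.refl I)) h

section Count

variable [Finite G]

theorem FixIn_B (hL : Lab P I σ) {K J : Finset ι} (hKJ : K ⊆ J) (hJ : J ⊆ I) {b : G} (hb : b ∈ P.B) :
    FixIn (PJ P σ J) (PJ P σ K) b =
      Nat.card {x : G ⧸ P.B // InP (PJ P σ J) x ∧ b • x = x ∧ Disjoint K (dsc P I σ x)} := by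
  obtain ⟨hinj, hsurj⟩ := toPar_bijective hL (hKJ.trans hJ)
  have hIn : ∀ x : G ⧸ P.B, InP (PJ P σ J) (toPar (JS σ K) x) ↔ InP (PJ P σ J) x := by
    intro x
    obtain ⟨g, rfl⟩ := QuotientGroup.mk_surjective x
    rw [toPar_mk]
    rw [inP_mk (PJ_mono hKJ), inP_mk (B_le_parabolic _)]
  symm
  apply Nat.card_congr
  refine Equiv.ofBijective (fun x => ⟨toPar (JS σ K) x.1, (hIn _).mpr x.2.1, ?_⟩) ⟨?_, ?_⟩
  · have h := congrArg (toPar (JS σ K)) x.2.2.1
    rw [toPar_smul] at h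
    exact h
  · rintro ⟨x, hx⟩ ⟨x', hx'⟩ e
    have e' : toPar (JS σ K) x = toPar (JS σ K) x' := congrArg Subtype.val e
    have := @hinj ⟨x, hx.2.2⟩ ⟨x', hx'.2.2⟩ e'
    apply Subtype.ext
    change x = x'
    exact congrArg (fun z : {x : G ⧸ P.B // Disjoint K (dsc P I σ x)} => z.1) this
  · rintro ⟨y, hy1, hy⟩
    obtain ⟨⟨x, hx⟩, rfl⟩ := hsurj y
    have hy' : b • toPar (JS σ K) x = toPar (JS σ K) x := hy
    have hx' : Disjoint K (dsc P I σ (b • x)) := by
      rw [dsc_smul hL hb]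
      exact hx
    have h1 : b • x = x := by
      have := @hinj ⟨b • x, hx'⟩ ⟨x, hx⟩ (by
        simp only
        rw [toPar_smul, hy'])
      exact congrArg (fun z : {x : G ⧸ P.B // Disjoint K (dsc P I σ x)} => z.1) this
    exact ⟨⟨x, (hIn _).mp hy1, h1, hx⟩, rfl⟩

theorem StJ_B (hL : Lab P I σ) {J : Finset ι} (hJ : J ⊆ I) {b : G} (hb : b ∈ P.B) :
    StJ P σ J b = (Nat.card {x : G ⧸ P.B // InP (PJ P σ J) x ∧ b • x = x ∧ J ⊆ dsc P I σ x} : ℂ) := by
  classical
  letI : Fintype (G ⧸ P.B) := Fintype.ofFinite _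
  have h1 : ∀ K ∈ J.powerset, (-1 : ℂ) ^ K.card * (FixIn (PJ P σ J) (PJ P σ K) b : ℂ) =
      ∑ x : G ⧸ P.B, (if InP (PJ P σ J) x ∧ b • x = x then
        (if Disjoint K (dsc P I σ x ∩ J) then (-1 : ℂ) ^ K.card else 0) else 0) := by
    intro K hK
    have hK' := Finset.mem_powerset.mp hK
    rw [FixIn_B hL hK' hJ hb, Nat.card_eq_fintype_card, Fintype.card_subtype, Finset.card_filter]
    push_cast
    rw [Finset.mul_sum]
    apply Finset.sum_congr rfl
    intro x _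
    have hd : Disjoint K (dsc P I σ x) ↔ Disjoint K (dsc P I σ x ∩ J) := by
      rw [Finset.disjoint_left, Finset.disjoint_left]
      constructor
      · intro h a ha ha'
        exact h ha (Finset.mem_inter.mp ha').1
      · intro h a ha ha'
        exact h ha (Finset.mem_inter.mpr ⟨ha', hK' ha⟩)
    by_cases h2 : InP (PJ P σ J) x ∧ b • x = x <;> by_cases h3 : Disjoint K (dsc P I σ x ∩ J) <;>
      simp [h2, h3, hd, and_assoc]
  unfold StJ
  rw [Finset.sum_congr rfl h1, Finset.sum_comm]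
  rw [Nat.card_eq_fintype_card, Fintype.card_subtype, Finset.card_filter]
  push_cast
  apply Finset.sum_congr rfl
  intro x _
  by_cases h2 : InP (PJ P σ J) x ∧ b • x = x
  · simp only [h2, if_true, and_self, true_and]
    rw [sum_sign_disjoint J _ Finset.inter_subset_right]
    have h3 : (dsc P I σ x ∩ J = J) ↔ J ⊆ dsc P I σ x := Finset.inter_eq_right
    simp only [h3]
  · have h3 : ¬ (InP (PJ P σ J) x ∧ b • x = x ∧ J ⊆ dsc P I σ x) := fun h => h2 ⟨h.1, h.2.1⟩
    simp [h2, h3]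

omit [Finite G] in
theorem WJ_le_PJ {J : Set G} : WJ P J ≤ P.parabolic J :=
  sup_le le_sup_right (inf_le_left.trans le_sup_left)

omit [Finite G] in
theorem cell_iff (hL : Lab P I σ) {J : Finset ι} (hJ : J ⊆ I) {n : G} (hn : n ∈ WJ P (JS σ J))
    (htop : TopIn P (JS σ J) n) (x : G ⧸ P.B) :
    (InP (PJ P σ J) x ∧ J ⊆ dsc P I σ x) ↔ ∃ c ∈ P.B, x = ((c * n : G) : G ⧸ P.B) := by
  have hJS := hL.sub hJ
  have hnN := WJ_le_N hJS hn
  constructor
  · rintro ⟨h1, h2⟩
    obtain ⟨g, rfl⟩ := QuotientGroup.mk_surjective x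
    rw [inP_mk (B_le_parabolic _)] at h1
    obtain ⟨m, hm, hdc⟩ := (mem_parabolic_iff hJS g).mp h1
    have hmW := closure_le_WJ (P := P) _ hm
    have hmN := WJ_le_N hJS hmW
    rw [dsc_mk hL hmN hdc] at h2
    have htm : TopIn P (JS σ J) m := by
      rintro _ ⟨i, hi, rfl⟩
      exact (mem_rd.mp (h2 hi)).2
    have h3 := top_rel_unique hJS hn hmW htop htm
    obtain ⟨b₁, hb₁, b₂, hb₂, rfl⟩ := hdc
    refine ⟨b₁, hb₁, ?_⟩
    rw [QuotientGroup.eq]
    have e : (b₁ * m * b₂)⁻¹ * (b₁ * n) = b₂⁻¹ * (n⁻¹ * m)⁻¹ := by group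
    rw [e]
    exact P.B.mul_mem (P.B.inv_mem hb₂) (P.B.inv_mem h3)
  · rintro ⟨c, hc, rfl⟩
    constructor
    · rw [inP_mk (B_le_parabolic _)]
      exact Subgroup.mul_mem _ (B_le_parabolic _ hc) (WJ_le_PJ hn)
    · rw [dsc_mk hL hnN ⟨c, hc, 1, P.B.one_mem, by group⟩]
      intro i hi
      exact mem_rd.mpr ⟨hJ hi, htop _ ⟨i, hi, rfl⟩⟩

end Count

/-- The splitting data on a finite (B,N)-pair. -/
structure Split (P : BNPair G) (I : Finset ι) (σ : ι → G) (p : ℕ) where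
  U : Subgroup G
  H : Subgroup G
  R : Finset ι → Subgroup G
  top : Finset ι → G
  U_le : U ≤ P.B
  U_norm : ∀ b ∈ P.B, ∀ u ∈ U, b * u * b⁻¹ ∈ U
  H_le : H ≤ P.B
  UH_inf : ∀ x ∈ U, x ∈ H → x = 1
  B_form : ∀ b ∈ P.B, ∃ u ∈ U, ∃ k ∈ H, b = u * k
  R_le : ∀ J, J ⊆ I → R J ≤ U
  R_norm : ∀ J, J ⊆ I → ∀ g ∈ PJ P σ J, ∀ r ∈ R J, g * r * g⁻¹ ∈ R J
  top_mem : ∀ J, J ⊆ I → top J ∈ WJ P (JS σ J)
  top_top : ∀ J, J ⊆ I → TopIn P (JS σ J) (top J)
  stab : ∀ J, J ⊆ I → ∀ t ∈ P.B, ((top J)⁻¹ * t * top J ∈ P.B ↔ ∃ k ∈ H, ∃ r ∈ R J, t = k * r)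
  card_U : Nat.card U = p ^ (Nat.card G).factorization p

namespace Split

variable {p : ℕ} (S : Split P I σ p)

include S in
theorem fix_cell {J : Finset ι} (hJ : J ⊆ I) {y : G} (hy : y ∈ S.U) {c : G} (hc : c ∈ P.B) :
    y • ((c * S.top J : G) : G ⧸ P.B) = ((c * S.top J : G) : G ⧸ P.B) ↔ y ∈ S.R J := by
  have hcP : c ∈ PJ P σ J := B_le_parabolic _ hc
  have h0 : y • ((c * S.top J : G) : G ⧸ P.B) = ((c * S.top J : G) : G ⧸ P.B) ↔
      (S.top J)⁻¹ * (c⁻¹ * y * c) * S.top J ∈ P.B := by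
    have h1 : y • ((c * S.top J : G) : G ⧸ P.B) = ((y * (c * S.top J) : G) : G ⧸ P.B) := rfl
    rw [h1, eq_comm, QuotientGroup.eq]
    have e : (c * S.top J)⁻¹ * (y * (c * S.top J)) = (S.top J)⁻¹ * (c⁻¹ * y * c) * S.top J := by group
    rw [e]
  rw [h0]
  have ht : c⁻¹ * y * c ∈ S.U := by
    have := S.U_norm c⁻¹ (P.B.inv_mem hc) y hy
    simpa using this
  rw [S.stab J hJ _ (S.U_le ht)]
  constructor
  · rintro ⟨k, hk, r, hr, e⟩
    have hrU := S.R_le J hJ hr
    have hkU : k ∈ S.U := by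
      have e1 : k = (c⁻¹ * y * c) * r⁻¹ := by rw [e]; group
      rw [e1]
      exact S.U.mul_mem ht (S.U.inv_mem hrU)
    have hk1 := S.UH_inf k hkU hk
    rw [hk1, one_mul] at e
    have e2 : y = c * r * c⁻¹ := by rw [← e]; group
    rw [e2]
    exact S.R_norm J hJ c hcP r hr
  · intro hyR
    refine ⟨1, S.H.one_mem, c⁻¹ * y * c, ?_, by group⟩
    have := S.R_norm J hJ c⁻¹ (Subgroup.inv_mem _ hcP) y hyR
    simpa using this

variable [Finite G]

/-- The size of the top cell of `P_J`. -/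
noncomputable def d (P : BNPair G) (I : Finset ι) (σ : ι → G) (J : Finset ι) : ℕ :=
  Nat.card {x : G ⧸ P.B // InP (PJ P σ J) x ∧ J ⊆ dsc P I σ x}

include S in
theorem StJ_U (hL : Lab P I σ) {J : Finset ι} (hJ : J ⊆ I) {y : G} (hy : y ∈ S.U) :
    StJ P σ J y = (Nat.card {x : G ⧸ P.B // InP (PJ P σ J) x ∧ J ⊆ dsc P I σ x ∧ y ∈ S.R J} : ℂ) := by
  rw [StJ_B hL hJ (S.U_le hy)]
  congr 1
  apply Nat.card_congr
  apply Equiv.subtypeEquivRight
  intro x
  constructor
  · rintro ⟨h1, h2, h3⟩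
    refine ⟨h1, h3, ?_⟩
    obtain ⟨c, hc, rfl⟩ := (cell_iff hL hJ (S.top_mem J hJ) (S.top_top J hJ) x).mp ⟨h1, h3⟩
    exact (S.fix_cell hJ hy hc).mp h2
  · rintro ⟨h1, h3, h4⟩
    refine ⟨h1, ?_, h3⟩
    obtain ⟨c, hc, rfl⟩ := (cell_iff hL hJ (S.top_mem J hJ) (S.top_top J hJ) x).mp ⟨h1, h3⟩
    exact (S.fix_cell hJ hy hc).mpr h4

open scoped _root_.Classical in
include S in
theorem StJ_U' (hL : Lab P I σ) {J : Finset ι} (hJ : J ⊆ I) {y : G} (hy : y ∈ S.U) :
    StJ P σ J y = if y ∈ S.R J then (d P I σ J : ℂ) else 0 := by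
  classical
  rw [S.StJ_U hL hJ hy]
  by_cases h : y ∈ S.R J
  · rw [if_pos h]
    unfold d
    congr 1
    apply Nat.card_congr
    apply Equiv.subtypeEquivRight
    intro x
    simp [h]
  · rw [if_neg h]
    have : IsEmpty {x : G ⧸ P.B // InP (PJ P σ J) x ∧ J ⊆ dsc P I σ x ∧ y ∈ S.R J} :=
      ⟨fun x => h x.2.2.2⟩
    rw [Nat.card_of_isEmpty]
    simp

/-- A `p`-element of `P_J` is conjugate into `U` inside `P_J`. -/
theorem exists_conj_U [Fact p.Prime] {J : Finset ι} {y : G} (hy : y ∈ PJ P σ J) (hp : ∃ k, orderOf y = p ^ k) :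
    ∃ z ∈ PJ P σ J, z * y * z⁻¹ ∈ S.U := by
  set A := PJ P σ J with hA
  have hUA : S.U ≤ A := S.U_le.trans (B_le_parabolic _)
  have hcard : Nat.card (S.U.subgroupOf A) = p ^ (Nat.card A).factorization p := by
    have h1 : Nat.card (S.U.subgroupOf A) = Nat.card S.U := by
      apply Nat.card_congr
      exact (Subgroup.subgroupOfEquivOfLe hUA).toEquiv
    rw [h1, S.card_U]
    congr 1
    apply le_antisymm
    · have h2 : Nat.card (S.U.subgroupOf A) ∣ Nat.card A := Subgroup.card_subgroup_dvd_card _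
      rw [h1, S.card_U] at h2
      exact (Fact.out : p.Prime).pow_dvd_iff_le_factorization (Nat.card_pos.ne') |>.mp h2
    · exact (Nat.factorization_le_iff_dvd Nat.card_pos.ne' Nat.card_pos.ne').mpr (Subgroup.card_subgroup_dvd_card A) p
  let Syl : Sylow p A := Sylow.ofCard (S.U.subgroupOf A) hcard
  let y' : A := ⟨y, hy⟩
  have hy' : IsPGroup p (Subgroup.zpowers y') := by
    obtain ⟨k, hk⟩ := hp
    apply IsPGroup.of_card (n := k)
    rw [Nat.card_zpowers]
    have : orderOf y' = orderOf y := Subgroup.orderOf_mk y hy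
    rw [this, hk]
  obtain ⟨Q, hQ⟩ := hy'.exists_le_sylow
  obtain ⟨g, hg⟩ := MulAction.exists_smul_eq A Q Syl
  have h3 : y' ∈ (Q : Subgroup A) := hQ (Subgroup.mem_zpowers y')
  have h4 : g * y' * g⁻¹ ∈ (Syl : Subgroup A) := by
    rw [← hg, Sylow.coe_subgroup_smul]
    have := Subgroup.smul_mem_pointwise_smul y' (MulAut.conj g) (Q : Subgroup A) h3
    simpa [MulAut.conj_apply] using this
  refine ⟨g, g.2, ?_⟩
  have h5 : (g * y' * g⁻¹ : A) ∈ S.U.subgroupOf A := h4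
  rw [Subgroup.mem_subgroupOf] at h5
  simpa using h5

open scoped _root_.Classical in
include S in
theorem StJ_pelt [Fact p.Prime] (hL : Lab P I σ) {J : Finset ι} (hJ : J ⊆ I) {y : G} (hy : y ∈ PJ P σ J)
    (hp : ∃ k, orderOf y = p ^ k) : StJ P σ J y = if y ∈ S.R J then (d P I σ J : ℂ) else 0 := by
  obtain ⟨z, hz, hU⟩ := S.exists_conj_U hy hp
  rw [← StJ_conj hz, S.StJ_U' hL hJ hU]
  have h : z * y * z⁻¹ ∈ S.R J ↔ y ∈ S.R J := by
    constructor
    · intro h1
      have := S.R_norm J hJ z⁻¹ (Subgroup.inv_mem _ hz) _ h1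
      have e : z⁻¹ * (z * y * z⁻¹) * z⁻¹⁻¹ = y := by group
      rwa [e] at this
    · intro h1
      exact S.R_norm J hJ z hz y h1
  simp only [h]

/-- `(Deg)` : the relative degree. -/
theorem card_R_mul_d (hL : Lab P I σ) {J : Finset ι} (hJ : J ⊆ I) :
    Nat.card (S.R J) * d P I σ J = Nat.card S.U := by
  classical
  have hRU := S.R_le J hJ
  have htop := S.top_mem J hJ
  have htopt := S.top_top J hJ
  -- the action of `U` on the cell
  let x₀ : G ⧸ P.B := ((S.top J : G) : G ⧸ P.B)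
  have horb : Nat.card (MulAction.orbit S.U x₀) = d P I σ J := by
    unfold d
    apply Nat.card_congr
    apply Equiv.subtypeEquivRight
    intro x
    rw [cell_iff hL hJ htop htopt x, MulAction.mem_orbit_iff]
    constructor
    · rintro ⟨u, rfl⟩
      exact ⟨u.1, S.U_le u.2, rfl⟩
    · rintro ⟨c, hc, rfl⟩
      obtain ⟨u, hu, k, hk, rfl⟩ := S.B_form c hc
      refine ⟨⟨u, hu⟩, ?_⟩
      change ((u * S.top J : G) : G ⧸ P.B) = _
      rw [QuotientGroup.eq]
      have e : (u * S.top J)⁻¹ * (u * k * S.top J) = (S.top J)⁻¹ * k * S.top J := by group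
      rw [e]
      exact (S.stab J hJ k (S.H_le hk)).mpr ⟨k, hk, 1, (S.R J).one_mem, by group⟩
  have hstab : Nat.card (MulAction.stabilizer S.U x₀) = Nat.card (S.R J) := by
    apply Nat.card_congr
    refine ⟨fun u => ⟨u.1.1, ?_⟩, fun r => ⟨⟨r.1, hRU r.2⟩, ?_⟩, ?_, ?_⟩
    · have h1 := u.2
      rw [MulAction.mem_stabilizer_iff] at h1
      have h2 : (u.1.1) • ((1 * S.top J : G) : G ⧸ P.B) = ((1 * S.top J : G) : G ⧸ P.B) := by
        rw [one_mul]
        exact h1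
      exact (S.fix_cell hJ u.1.2 P.B.one_mem).mp h2
    · rw [MulAction.mem_stabilizer_iff]
      have h2 := (S.fix_cell hJ (hRU r.2) P.B.one_mem).mpr r.2
      rw [one_mul] at h2
      exact h2
    · intro u
      rfl
    · intro r
      rfl
  letI : Fintype S.U := Fintype.ofFinite _
  letI : Fintype (MulAction.orbit S.U x₀) := Fintype.ofFinite _
  letI : Fintype (MulAction.stabilizer S.U x₀) := Fintype.ofFinite _
  have h := MulAction.card_orbit_mul_card_stabilizer_eq_card_group S.U x₀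
  rw [← horb, ← hstab, mul_comm]
  rw [Nat.card_eq_fintype_card, Nat.card_eq_fintype_card, Nat.card_eq_fintype_card]
  exact h

/-- The count of the `p`-elements. -/
theorem card_pelements [Fact p.Prime] (hL : Lab P I σ) :
    (Nat.card {g : G // ∃ k, orderOf g = p ^ k} : ℂ) = (Nat.card S.U : ℂ) * St P I σ 1 := by
  classical
  letI : Fintype G := Fintype.ofFinite G
  have hpU : ∀ y ∈ S.U, ∃ k, orderOf y = p ^ k := by
    intro y hy
    have hG : IsPGroup p S.U := IsPGroup.of_card S.card_U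
    obtain ⟨k, hk⟩ := (IsPGroup.iff_orderOf.mp hG) ⟨y, hy⟩
    refine ⟨k, ?_⟩
    rw [← hk]
    exact (Subgroup.orderOf_mk y hy).symm
  have hR : ∀ J ∈ I.powerset, ∀ x : G, (∑ g : G, if (∃ k, orderOf g = p ^ k) then
      (if x⁻¹ * g * x ∈ PJ P σ J then StJ P σ J (x⁻¹ * g * x) else 0) else 0) = (Nat.card S.U : ℂ) := by
    intro J hJ x
    have hJ' := Finset.mem_powerset.mp hJ
    rw [← Equiv.sum_comp (MulAut.conj x).toEquiv]
    have h1 : ∀ y : G, (if (∃ k, orderOf ((MulAut.conj x).toEquiv y) = p ^ k) then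
        (if x⁻¹ * ((MulAut.conj x).toEquiv y) * x ∈ PJ P σ J then StJ P σ J (x⁻¹ * ((MulAut.conj x).toEquiv y) * x) else 0) else 0) =
        if y ∈ S.R J then (d P I σ J : ℂ) else 0 := by
      intro y
      have e1 : x⁻¹ * ((MulAut.conj x).toEquiv y) * x = y := by
        simp [MulAut.conj_apply]
        group
      have e2 : orderOf ((MulAut.conj x).toEquiv y) = orderOf y :=
        orderOf_injective (MulAut.conj x).toMonoidHom (MulAut.conj x).injective y
      rw [e1, e2]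
      by_cases hy : y ∈ S.R J
      · have hyU := S.R_le J hJ' hy
        have hyP : y ∈ PJ P σ J := (S.U_le.trans (B_le_parabolic _)) hyU
        rw [if_pos (hpU y hyU), if_pos hyP, S.StJ_pelt hL hJ' hyP (hpU y hyU)]
      · rw [if_neg hy]
        by_cases h2 : ∃ k, orderOf y = p ^ k
        · rw [if_pos h2]
          by_cases hyP : y ∈ PJ P σ J
          · rw [if_pos hyP, S.StJ_pelt hL hJ' hyP h2, if_neg hy]
          · rw [if_neg hyP]
        · rw [if_neg h2]
    rw [Finset.sum_congr rfl (fun y _ => h1 y)]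
    rw [← S.card_R_mul_d hL hJ']
    push_cast
    rw [Finset.sum_ite, Finset.sum_const_zero, add_zero, Finset.sum_const, nsmul_eq_mul]
    congr 2
    rw [Nat.card_eq_fintype_card]
    rw [Fintype.card_subtype]
  have hsum : (Nat.card {g : G // ∃ k, orderOf g = p ^ k} : ℂ) =
      ∑ g : G, if (∃ k, orderOf g = p ^ k) then
        (∑ J ∈ I.powerset, (-1 : ℂ) ^ J.card * ((Nat.card (PJ P σ J) : ℂ)⁻¹ *
          ∑ x : G, if x⁻¹ * g * x ∈ PJ P σ J then StJ P σ J (x⁻¹ * g * x) else 0)) else 0 := by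
    simp only [sum_StJ hL]
    rw [Nat.card_eq_fintype_card, Fintype.card_subtype, Finset.card_filter]
    push_cast
    rfl
  rw [hsum]
  have h2 : ∀ g : G, (if (∃ k, orderOf g = p ^ k) then
        (∑ J ∈ I.powerset, (-1 : ℂ) ^ J.card * ((Nat.card (PJ P σ J) : ℂ)⁻¹ *
          ∑ x : G, if x⁻¹ * g * x ∈ PJ P σ J then StJ P σ J (x⁻¹ * g * x) else 0)) else 0) =
      ∑ J ∈ I.powerset, (-1 : ℂ) ^ J.card * ((Nat.card (PJ P σ J) : ℂ)⁻¹ *
          ∑ x : G, if (∃ k, orderOf g = p ^ k) then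
            (if x⁻¹ * g * x ∈ PJ P σ J then StJ P σ J (x⁻¹ * g * x) else 0) else 0) := by
    intro g
    by_cases h : ∃ k, orderOf g = p ^ k
    · simp only [h, if_true]
    · simp [h]
  rw [Finset.sum_congr rfl (fun g _ => h2 g), Finset.sum_comm]
  unfold St
  rw [Finset.mul_sum]
  apply Finset.sum_congr rfl
  intro J hJ
  rw [← Finset.mul_sum, ← Finset.mul_sum, Finset.sum_comm]
  rw [Finset.sum_congr rfl (fun x _ => hR J hJ x)]
  rw [Finset.sum_const, Finset.card_univ, nsmul_eq_mul]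
  have h3 : Nat.card (fixedBy (G ⧸ P.parabolic (JS σ J)) (1 : G)) = Nat.card (G ⧸ PJ P σ J) := by
    apply Nat.card_congr
    refine ⟨fun y => y.1, fun y => ⟨y, one_smul _ _⟩, fun y => rfl, fun y => rfl⟩
  rw [h3]
  have h4 : (Nat.card G : ℂ) = (Nat.card (G ⧸ PJ P σ J) : ℂ) * (Nat.card (PJ P σ J) : ℂ) := by
    rw [← Nat.cast_mul]
    congr 1
    exact Subgroup.card_eq_card_quotient_mul_card_subgroup _
  have h5 : (Nat.card (PJ P σ J) : ℂ) ≠ 0 := by
    exact_mod_cast (Nat.card_pos (α := PJ P σ J)).ne'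
  rw [← Nat.card_eq_fintype_card, h4]
  field_simp

end Split

end Cfsg.Agent.Lib.Known.BNSt
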