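import Mathlib

set_option autoImplicit false

/-! The Borel–Tits flag of a `p`-subgroup of `SL_n(F)`. -/

namespace Cfsg.Agent.Lib.Known

open Matrix

variable {F : Type*} [Field F] {n : ℕ}

theorem sln_mul_coe (a b : SpecialLinearGroup (Fin n) F) :
    ((a * b : SpecialLinearGroup (Fin n) F) : Matrix (Fin n) (Fin n) F) =
      (a : Matrix (Fin n) (Fin n) F) * (b : Matrix (Fin n) (Fin n) F) := rfl

/-- The upper central-type series of `F^n` for a subgroup `U`. -/
def flagW (U : Subgroup (SpecialLinearGroup (Fin n) F)) : ℕ → Submodule F (Fin n → F)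
  | 0 => ⊥
  | (i + 1) =>
    { carrier := {v | ∀ u ∈ U, (u : Matrix (Fin n) (Fin n) F).mulVec v - v ∈ flagW U i}
      add_mem' := by
        intro a b ha hb u hu
        have : (u : Matrix (Fin n) (Fin n) F).mulVec (a + b) - (a + b)
            = ((u : Matrix (Fin n) (Fin n) F).mulVec a - a) +
              ((u : Matrix (Fin n) (Fin n) F).mulVec b - b) := by
          rw [Matrix.mulVec_add]; abel
        rw [this]
        exact add_mem (ha u hu) (hb u hu)
      zero_mem' := by
        intro u _
        simp
      smul_mem' := by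
        intro c a ha u hu
        have : (u : Matrix (Fin n) (Fin n) F).mulVec (c • a) - (c • a)
            = c • ((u : Matrix (Fin n) (Fin n) F).mulVec a - a) := by
          rw [Matrix.mulVec_smul, smul_sub]
        rw [this]
        exact Submodule.smul_mem _ c (ha u hu) }

theorem mem_flagW_succ (U : Subgroup (SpecialLinearGroup (Fin n) F)) (i : ℕ)
    (v : Fin n → F) :
    v ∈ flagW U (i + 1) ↔
      ∀ u ∈ U, (u : Matrix (Fin n) (Fin n) F).mulVec v - v ∈ flagW U i := Iff.rfl

theorem flagW_le_succ (U : Subgroup (SpecialLinearGroup (Fin n) F)) (i : ℕ) :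
    flagW U i ≤ flagW U (i + 1) := by
  induction i with
  | zero => exact bot_le
  | succ i ih =>
    intro v hv u hu
    exact ih (hv u hu)

theorem flagW_invariant (U : Subgroup (SpecialLinearGroup (Fin n) F)) (i : ℕ)
    {u : SpecialLinearGroup (Fin n) F} (hu : u ∈ U) {v : Fin n → F} (hv : v ∈ flagW U i) :
    (u : Matrix (Fin n) (Fin n) F).mulVec v ∈ flagW U i := by
  induction i generalizing v with
  | zero =>
    have : v = 0 := hv
    simp [this]
  | succ i ih =>
    have h1 := flagW_le_succ U i (hv u hu)
    have : (u : Matrix (Fin n) (Fin n) F).mulVec v =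
        ((u : Matrix (Fin n) (Fin n) F).mulVec v - v) + v := by abel
    rw [this]
    exact add_mem h1 hv

/-- Normalising elements preserve the series. -/
theorem flagW_normalizer (U : Subgroup (SpecialLinearGroup (Fin n) F)) (i : ℕ)
    {g : SpecialLinearGroup (Fin n) F}
    (hg : g ∈ Subgroup.normalizer (U : Set (SpecialLinearGroup (Fin n) F)))
    {v : Fin n → F} (hv : v ∈ flagW U i) :
    (g : Matrix (Fin n) (Fin n) F).mulVec v ∈ flagW U i := by
  induction i generalizing v with
  | zero =>
    have : v = 0 := hv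
    simp [this]
  | succ i ih =>
    intro u hu
    have hg' : g⁻¹ ∈ Subgroup.normalizer (U : Set (SpecialLinearGroup (Fin n) F)) := inv_mem hg
    have h1 : g⁻¹ * u * g⁻¹⁻¹ ∈ U := (Subgroup.mem_normalizer_iff.mp hg' u).mp hu
    rw [inv_inv] at h1
    have h2 := ih (hv _ h1)
    have h3 : (g : Matrix (Fin n) (Fin n) F).mulVec
        (((g⁻¹ * u * g : SpecialLinearGroup (Fin n) F) : Matrix (Fin n) (Fin n) F).mulVec v - v)
        = (u : Matrix (Fin n) (Fin n) F).mulVec ((g : Matrix (Fin n) (Fin n) F).mulVec v)
          - (g : Matrix (Fin n) (Fin n) F).mulVec v := by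
      rw [Matrix.mulVec_sub, Matrix.mulVec_mulVec, Matrix.mulVec_mulVec]
      congr 2
      rw [← sln_mul_coe, ← sln_mul_coe]
      have : g * (g⁻¹ * u * g) = u * g := by group
      rw [this]
    rw [← h3]
    exact h2

theorem flagW_map_normalizer (U : Subgroup (SpecialLinearGroup (Fin n) F)) (i : ℕ)
    {g : SpecialLinearGroup (Fin n) F}
    (hg : g ∈ Subgroup.normalizer (U : Set (SpecialLinearGroup (Fin n) F))) :
    (flagW U i).map (Matrix.mulVecLin (g : Matrix (Fin n) (Fin n) F)) = flagW U i := by
  apply le_antisymm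
  · rintro _ ⟨v, hv, rfl⟩
    exact flagW_normalizer U i hg hv
  · intro v hv
    refine ⟨(((g⁻¹ : SpecialLinearGroup (Fin n) F)) : Matrix (Fin n) (Fin n) F).mulVec v,
      flagW_normalizer U i (inv_mem hg) hv, ?_⟩
    simp only [Matrix.mulVecLin_apply, Matrix.mulVec_mulVec]
    rw [← sln_mul_coe, mul_inv_cancel]
    simp

theorem flagW_lt_succ [Fintype F] (p : ℕ) [hp : Fact p.Prime] [CharP F p]
    (U : Subgroup (SpecialLinearGroup (Fin n) F)) (hU : IsPGroup p ↥U) (i : ℕ)
    (hi : flagW U i ≠ ⊤) : flagW U i < flagW U (i + 1) := by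
  classical
  refine lt_of_le_of_ne (flagW_le_succ U i) ?_
  intro heq
  set W := flagW U i with hW
  have hinv : ∀ u : U, W ≤ W.comap (Matrix.mulVecLin ((u : SpecialLinearGroup (Fin n) F) : Matrix (Fin n) (Fin n) F)) := by
    intro u v hv
    exact flagW_invariant U i u.2 hv
  letI act : MulAction U ((Fin n → F) ⧸ W) :=
    { smul := fun u x => Submodule.mapQ W W (Matrix.mulVecLin ((u : SpecialLinearGroup (Fin n) F) : Matrix (Fin n) (Fin n) F)) (hinv u) x
      one_smul := by
        intro x
        induction x using Submodule.Quotient.induction_on with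
        | H v =>
          change Submodule.mapQ W W _ _ (Submodule.Quotient.mk v) = _
          rw [Submodule.mapQ_apply]
          simp
      mul_smul := by
        intro a b x
        induction x using Submodule.Quotient.induction_on with
        | H v =>
          change Submodule.mapQ W W _ _ (Submodule.Quotient.mk v) =
            Submodule.mapQ W W _ _ (Submodule.mapQ W W _ _ (Submodule.Quotient.mk v))
          rw [Submodule.mapQ_apply, Submodule.mapQ_apply, Submodule.mapQ_apply]
          simp [Matrix.mulVec_mulVec] }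
  have hsm : ∀ (u : U) (v : Fin n → F), u • (Submodule.Quotient.mk v : (Fin n → F) ⧸ W) =
      Submodule.Quotient.mk (((u : SpecialLinearGroup (Fin n) F) : Matrix (Fin n) (Fin n) F).mulVec v) := by
    intro u v
    rfl
  haveI : Nontrivial ((Fin n → F) ⧸ W) := Submodule.Quotient.nontrivial_iff.mpr hi
  obtain ⟨x, hx⟩ := exists_ne (0 : (Fin n → F) ⧸ W)
  have hcard : p ∣ Nat.card ((Fin n → F) ⧸ W) := by
    have h1 : p • x = 0 := by
      rw [← Nat.cast_smul_eq_nsmul F, CharP.cast_eq_zero, zero_smul]
    have h2 := addOrderOf_eq_prime h1 hx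
    rw [← h2]
    exact addOrderOf_dvd_natCard x
  have h0 : (0 : (Fin n → F) ⧸ W) ∈ MulAction.fixedPoints U ((Fin n → F) ⧸ W) := by
    intro u
    have := hsm u 0
    simpa using this
  obtain ⟨b, hb, hb0⟩ := IsPGroup.exists_fixed_point_of_prime_dvd_card_of_fixed_point hU _ hcard h0
  induction b using Submodule.Quotient.induction_on with
  | H v =>
    apply hb0
    have hv : v ∈ flagW U (i + 1) := by
      intro u hu
      have := hb ⟨u, hu⟩
      rw [hsm] at this
      exact (Submodule.Quotient.eq W).mp this
    rw [← heq] at hv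
    exact ((Submodule.Quotient.mk_eq_zero W).mpr hv).symm

theorem flagW_eventually_top [Fintype F] (p : ℕ) [hp : Fact p.Prime] [CharP F p]
    (U : Subgroup (SpecialLinearGroup (Fin n) F)) (hU : IsPGroup p ↥U) :
    ∃ i, flagW U i = ⊤ := by
  by_contra hne
  push Not at hne
  have h : ∀ i, i ≤ Module.finrank F (flagW U i) := by
    intro i
    induction i with
    | zero => exact Nat.zero_le _
    | succ i ih =>
      have := Submodule.finrank_lt_finrank_of_lt (flagW_lt_succ p U hU i (hne i))
      omega
  have h1 := h (n + 1)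
  have h2 := Submodule.finrank_le (flagW U (n + 1))
  simp at h2
  omega

end Cfsg.Agent.Lib.Known
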