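import Cfsg.Agent.Lib.Known.GLFlag3
import Cfsg.Agent.Lib.Char.PermChar

set_option autoImplicit false
set_option linter.unusedVariables false
set_option linter.unusedSectionVars false

/-! Double cosets of parabolic subgroups of `GL_n` and Young subgroups of the symmetric group:
both are counted by the contingency tables. -/

namespace Cfsg.Agent.Lib.Known.GLFlag

open Cfsg Finset Matrix MulAction
open scoped MatrixGroups

section General

variable {G : Type*} [Group G]

/-- Orbits on pairs of cosets. -/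
theorem card_orbits_of (A B : Subgroup G) {X : Type*} (f : G → X) (h1 : ∀ g, ∀ a ∈ A, ∀ b ∈ B, f (a * g * b) = f g)
    (h2 : Function.Surjective f) (h3 : ∀ g g', f g = f g' → ∃ a ∈ A, ∃ b ∈ B, g' = a * g * b) :
    Nat.card (orbitRel.Quotient G ((G ⧸ A) × (G ⧸ B))) = Nat.card X := by
  let F : (G ⧸ A) × (G ⧸ B) → X := fun p => f ((Quotient.out p.1)⁻¹ * Quotient.out p.2)
  have hF : ∀ x y : G, F ((x : G ⧸ A), (y : G ⧸ B)) = f (x⁻¹ * y) := by
    intro x y
    have hx : x⁻¹ * Quotient.out (x : G ⧸ A) ∈ A := by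
      rw [← QuotientGroup.eq]
      exact (QuotientGroup.out_eq' _).symm
    have hy : y⁻¹ * Quotient.out (y : G ⧸ B) ∈ B := by
      rw [← QuotientGroup.eq]
      exact (QuotientGroup.out_eq' _).symm
    have := h1 (x⁻¹ * y) _ (A.inv_mem hx) _ hy
    have e0 : F ((x : G ⧸ A), (y : G ⧸ B)) = f ((Quotient.out (x : G ⧸ A))⁻¹ * Quotient.out (y : G ⧸ B)) := rfl
    rw [e0, ← this]
    congr 1
    group
  have hinv : ∀ p p' : (G ⧸ A) × (G ⧸ B), (orbitRel G _) p p' → F p = F p' := by
    rintro ⟨p1, p2⟩ ⟨q1, q2⟩ h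
    rw [orbitRel_apply, mem_orbit_iff] at h
    obtain ⟨g, hg⟩ := h
    obtain ⟨x, rfl⟩ := QuotientGroup.mk_surjective q1
    obtain ⟨y, rfl⟩ := QuotientGroup.mk_surjective q2
    have e1 : p1 = ((g * x : G) : G ⧸ A) := (congrArg Prod.fst hg).symm
    have e2 : p2 = ((g * y : G) : G ⧸ B) := (congrArg Prod.snd hg).symm
    rw [e1, e2, hF, hF]
    congr 1
    group
  apply Nat.card_congr
  refine Equiv.ofBijective (Quotient.lift F hinv) ⟨?_, ?_⟩
  · intro ω ω'
    induction ω using Quotient.inductionOn' with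
    | h p =>
    induction ω' using Quotient.inductionOn' with
    | h p' =>
    obtain ⟨p1, p2⟩ := p
    obtain ⟨q1, q2⟩ := p'
    obtain ⟨x, rfl⟩ := QuotientGroup.mk_surjective p1
    obtain ⟨y, rfl⟩ := QuotientGroup.mk_surjective p2
    obtain ⟨x', rfl⟩ := QuotientGroup.mk_surjective q1
    obtain ⟨y', rfl⟩ := QuotientGroup.mk_surjective q2
    intro e
    have e' : f (x⁻¹ * y) = f (x'⁻¹ * y') := by
      have : F ((x : G ⧸ A), (y : G ⧸ B)) = F ((x' : G ⧸ A), (y' : G ⧸ B)) := e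
      rwa [hF, hF] at this
    obtain ⟨a, ha, b, hb, e2⟩ := h3 _ _ e'
    apply Quotient.sound'
    rw [orbitRel_apply, mem_orbit_iff]
    refine ⟨x * a⁻¹ * x'⁻¹, ?_⟩
    apply Prod.ext
    · change ((x * a⁻¹ * x'⁻¹ * x' : G) : G ⧸ A) = (x : G ⧸ A)
      rw [QuotientGroup.eq]
      have : (x * a⁻¹ * x'⁻¹ * x')⁻¹ * x = a := by group
      rw [this]
      exact ha
    · change ((x * a⁻¹ * x'⁻¹ * y' : G) : G ⧸ B) = (y : G ⧸ B)
      rw [QuotientGroup.eq]
      have e3 : y' = x' * (a * (x⁻¹ * y) * b) := by rw [← e2]; group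
      have : (x * a⁻¹ * x'⁻¹ * y')⁻¹ * y = b⁻¹ := by
        rw [e3]
        group
      rw [this]
      exact B.inv_mem hb
  · intro z
    obtain ⟨g, rfl⟩ := h2 z
    refine ⟨Quotient.mk'' (((1 : G) : G ⧸ A), (g : G ⧸ B)), ?_⟩
    change F _ = _
    rw [hF]
    congr 1
    group

/-- The inner product of two coset permutation characters. -/
theorem inner_fixed [Fintype G] (A B : Subgroup G) :
    (Nat.card G : ℂ)⁻¹ * ∑ g : G, fixedPointCharacter A g * fixedPointCharacter B g =
      (Nat.card (orbitRel.Quotient G ((G ⧸ A) × (G ⧸ B))) : ℂ) := by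
  rw [← Cfsg.Agent.Lib.Char.classInner_permChar_one]
  simp only [classInner, map_one, mul_one, fixedPointCharacter, Cfsg.Agent.Lib.Char.card_fixedBy_prod, Nat.cast_mul]

end General

section Perm

variable {X Z : Type*} [Fintype X] [DecidableEq Z]

/-- Two functions with fibres of the same size differ by a permutation. -/
theorem exists_perm_of_fibres (f f' : X → Z)
    (h : ∀ z, Nat.card {x // f x = z} = Nat.card {x // f' x = z}) : ∃ π : Equiv.Perm X, ∀ x, f (π x) = f' x := by
  classical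
  have e : ∀ z, {x // f' x = z} ≃ {x // f x = z} := fun z =>
    Fintype.equivOfCardEq (by
      rw [← Nat.card_eq_fintype_card, ← Nat.card_eq_fintype_card, h])
  refine ⟨(Equiv.sigmaFiberEquiv f').symm.trans ((Equiv.sigmaCongrRight e).trans (Equiv.sigmaFiberEquiv f)), ?_⟩
  intro x
  simp only [Equiv.trans_apply, Equiv.sigmaFiberEquiv, Equiv.sigmaCongrRight]
  exact (e (f' x) ⟨x, rfl⟩).2

/-- Splitting the fibres of a function into prescribed sizes. -/
theorem exists_refine {Y : Type*} [DecidableEq Y] [Fintype Z] (ℓ : X → Y) (m : Y → Z → ℕ)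
    (h : ∀ y, ∑ z, m y z = Nat.card {x // ℓ x = y}) :
    ∃ u : X → Z, ∀ y z, Nat.card {x // ℓ x = y ∧ u x = z} = m y z := by
  classical
  have e : ∀ y, {x // ℓ x = y} ≃ Σ z : Z, Fin (m y z) := fun y =>
    Fintype.equivOfCardEq (by
      rw [Fintype.card_sigma, ← Nat.card_eq_fintype_card, ← h y]
      simp)
  refine ⟨fun x => (e (ℓ x) ⟨x, rfl⟩).1, ?_⟩
  intro y z
  have h0 : Nat.card (Fin (m y z)) = m y z := by simp
  rw [← h0]
  calc Nat.card {x // ℓ x = y ∧ (e (ℓ x) ⟨x, rfl⟩).1 = z}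
      = Nat.card {w : {x // ℓ x = y} // (e (ℓ w.1) ⟨w.1, rfl⟩).1 = z} :=
        Nat.card_congr (Equiv.subtypeSubtypeEquivSubtypeInter _ _).symm
    _ = Nat.card {w : {x // ℓ x = y} // (e y w).1 = z} :=
        Nat.card_congr (Equiv.subtypeEquivRight (fun w => by
          obtain ⟨x, rfl⟩ := w
          rfl))
    _ = Nat.card {s : Σ z : Z, Fin (m y z) // s.1 = z} :=
        Nat.card_congr ((e y).subtypeEquiv (fun w => Iff.rfl))
    _ = Nat.card (Fin (m y z)) := Nat.card_congr (Equiv.sigmaSubtype z)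

end Perm

section Rank

variable {n : ℕ} {F : Type*} [Field F]

/-- Rows of label at least `s`. -/
abbrev Rw (ℓ : Fin n → ℕ) (s : ℕ) := {i : Fin n // s ≤ ℓ i}

/-- Columns of label less than `t`. -/
abbrev Cl (ℓ' : Fin n → ℕ) (t : ℕ) := {j : Fin n // ℓ' j < t}

/-- The rank table. -/
noncomputable def rk (ℓ ℓ' : Fin n → ℕ) (M : Matrix (Fin n) (Fin n) F) (s t : ℕ) : ℕ :=
  (M.submatrix (Subtype.val : Rw ℓ s → Fin n) (Subtype.val : Cl ℓ' t → Fin n)).rank

theorem sum_sub {p : Fin n → Prop} [DecidablePred p] (f : Fin n → F) (h : ∀ k, ¬ p k → f k = 0) :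
    ∑ k, f k = ∑ k : {k // p k}, f k.1 := by
  have h1 : ∑ k, f k = ∑ k ∈ univ.filter p, f k :=
    (Finset.sum_filter_of_ne (fun k _ hk => by_contra fun hp => hk (h k hp))).symm
  rw [h1, Finset.sum_subtype (p := p) (univ.filter p) (by simp) f]

theorem sub_mul_left {ℓ : Fin n → ℕ} {a : Matrix (Fin n) (Fin n) F} (ha : a.BlockTriangular ℓ) (s : ℕ) {m : Type*}
    (M : Matrix (Fin n) m F) [Fintype m] {r : Type*} (c : r → m) :
    (a * M).submatrix (Subtype.val : Rw ℓ s → Fin n) c =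
      a.submatrix (Subtype.val : Rw ℓ s → Fin n) (Subtype.val : Rw ℓ s → Fin n) *
        M.submatrix (Subtype.val : Rw ℓ s → Fin n) c := by
  ext i j
  simp only [Matrix.submatrix_apply, Matrix.mul_apply]
  rw [sum_sub (p := fun k => s ≤ ℓ k)]
  intro k hk
  have h1 : ℓ k < ℓ i.1 := by
    have := i.2
    omega
  rw [ha h1, zero_mul]

theorem sub_mul_right {ℓ' : Fin n → ℕ} {c : Matrix (Fin n) (Fin n) F} (hc : c.BlockTriangular ℓ') (t : ℕ) {m : Type*}
    (M : Matrix m (Fin n) F) {r : Type*} (a : r → m) :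
    (M * c).submatrix a (Subtype.val : Cl ℓ' t → Fin n) =
      M.submatrix a (Subtype.val : Cl ℓ' t → Fin n) *
        c.submatrix (Subtype.val : Cl ℓ' t → Fin n) (Subtype.val : Cl ℓ' t → Fin n) := by
  ext i j
  simp only [Matrix.submatrix_apply, Matrix.mul_apply]
  rw [sum_sub (p := fun k => ℓ' k < t)]
  intro k hk
  have h1 : ℓ' j.1 < ℓ' k := by
    have := j.2
    omega
  rw [hc h1, mul_zero]

theorem rk_mul {ℓ ℓ' : Fin n → ℕ} {a c : GL (Fin n) F} (ha : a ∈ bt F ℓ) (hc : c ∈ bt F ℓ')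
    (M : Matrix (Fin n) (Fin n) F) (s t : ℕ) :
    rk ℓ ℓ' ((a : Matrix (Fin n) (Fin n) F) * M * (c : Matrix (Fin n) (Fin n) F)) s t = rk ℓ ℓ' M s t := by
  unfold rk
  have ha' : (a : Matrix (Fin n) (Fin n) F).BlockTriangular ℓ := ha
  have hc' : (c : Matrix (Fin n) (Fin n) F).BlockTriangular ℓ' := hc
  have hai : ((a⁻¹ : GL (Fin n) F) : Matrix (Fin n) (Fin n) F).BlockTriangular ℓ := Subgroup.inv_mem _ ha
  have hci : ((c⁻¹ : GL (Fin n) F) : Matrix (Fin n) (Fin n) F).BlockTriangular ℓ' := Subgroup.inv_mem _ hc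
  rw [sub_mul_right hc', sub_mul_left ha']
  have hA : IsUnit (((a : Matrix (Fin n) (Fin n) F)).submatrix (Subtype.val : Rw ℓ s → Fin n) (Subtype.val : Rw ℓ s → Fin n)).det := by
    apply Matrix.isUnit_det_of_right_inverse (B := ((a⁻¹ : GL (Fin n) F) : Matrix (Fin n) (Fin n) F).submatrix (Subtype.val : Rw ℓ s → Fin n) (Subtype.val : Rw ℓ s → Fin n))
    rw [← sub_mul_left ha']
    have : (a : Matrix (Fin n) (Fin n) F) * ((a⁻¹ : GL (Fin n) F) : Matrix (Fin n) (Fin n) F) = 1 := by
      rw [← Units.val_mul, mul_inv_cancel, Units.val_one]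
    rw [this]
    ext i j
    simp [Matrix.one_apply, Subtype.ext_iff]
  have hC : IsUnit (((c : Matrix (Fin n) (Fin n) F)).submatrix (Subtype.val : Cl ℓ' t → Fin n) (Subtype.val : Cl ℓ' t → Fin n)).det := by
    apply Matrix.isUnit_det_of_left_inverse (B := ((c⁻¹ : GL (Fin n) F) : Matrix (Fin n) (Fin n) F).submatrix (Subtype.val : Cl ℓ' t → Fin n) (Subtype.val : Cl ℓ' t → Fin n))
    rw [← sub_mul_right hc']
    have : ((c⁻¹ : GL (Fin n) F) : Matrix (Fin n) (Fin n) F) * (c : Matrix (Fin n) (Fin n) F) = 1 := by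
      rw [← Units.val_mul, inv_mul_cancel, Units.val_one]
    rw [this]
    ext i j
    simp [Matrix.one_apply, Subtype.ext_iff]
  rw [Matrix.rank_mul_eq_left_of_isUnit_det _ _ hC, Matrix.rank_mul_eq_right_of_isUnit_det _ _ hA]

/-- The rank table of a permutation matrix. -/
theorem rk_pm (ℓ ℓ' : Fin n → ℕ) (σ : Equiv.Perm (Fin n)) (s t : ℕ) :
    rk ℓ ℓ' (pm F σ) s t = (univ.filter (fun j : Fin n => ℓ' j < t ∧ s ≤ ℓ (σ j))).card := by
  classical
  unfold rk
  set X := (pm F σ).submatrix (Subtype.val : Rw ℓ s → Fin n) (Subtype.val : Cl ℓ' t → Fin n) with hX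
  let w : Cl ℓ' t → F := fun j => if s ≤ ℓ (σ j.1) then 1 else 0
  have h1 : Xᵀ * X = Matrix.diagonal w := by
    ext j j'
    simp only [Matrix.mul_apply, Matrix.transpose_apply, hX, Matrix.submatrix_apply, pm, Matrix.of_apply, Matrix.diagonal_apply]
    by_cases h2 : s ≤ ℓ (σ j.1)
    · rw [Finset.sum_eq_single (⟨σ j.1, h2⟩ : Rw ℓ s)]
      · simp only [w, h2, if_true]
        by_cases h3 : j = j'
        · subst h3
          simp
        · have h4 : j.1 ≠ j'.1 := fun e => h3 (Subtype.ext e)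
          simp [h3, h4]
      · intro i _ hi
        have h5 : i.1 ≠ σ j.1 := fun e => hi (Subtype.ext e)
        simp [h5]
      · simp
    · rw [Finset.sum_eq_zero]
      · by_cases h3 : j = j'
        · subst h3
          simp [w, h2]
        · simp [h3]
      · intro i _
        have h5 : i.1 ≠ σ j.1 := by
          intro e
          apply h2
          rw [← e]
          exact i.2
        simp [h5]
  have h2 : X = X * Matrix.diagonal w := by
    ext i j
    rw [Matrix.mul_diagonal]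
    by_cases h3 : s ≤ ℓ (σ j.1)
    · simp [w, h3]
    · have h5 : i.1 ≠ σ j.1 := by
        intro e
        apply h3
        rw [← e]
        exact i.2
      simp [w, h3, hX, pm, h5]
  have h3 : X.rank = (Matrix.diagonal w).rank := by
    apply le_antisymm
    · conv_lhs => rw [h2]
      exact Matrix.rank_mul_le_right _ _
    · rw [← h1]
      exact Matrix.rank_mul_le_right _ _
  rw [h3, Matrix.rank_diagonal, Fintype.card_subtype]
  -- transfer to `Fin n`
  have h4 : ((univ.filter (fun i : Cl ℓ' t => w i ≠ 0)).map ⟨Subtype.val, Subtype.val_injective⟩) =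
      univ.filter (fun j : Fin n => ℓ' j < t ∧ s ≤ ℓ (σ j)) := by
    ext j
    simp only [mem_map, mem_filter, mem_univ, true_and, Function.Embedding.coeFn_mk]
    constructor
    · rintro ⟨i, hi, rfl⟩
      refine ⟨i.2, ?_⟩
      by_contra hc
      exact hi (by simp [w, hc])
    · rintro ⟨h5, h6⟩
      exact ⟨⟨j, h5⟩, by simp [w, h6], rfl⟩
  rw [← h4, card_map]

/-- The counting table of a permutation. -/
def cnt (ℓ ℓ' : Fin n → ℕ) (σ : Equiv.Perm (Fin n)) (a b : ℕ) : ℕ :=
  (univ.filter (fun j : Fin n => ℓ' j = b ∧ ℓ (σ j) = a)).card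

theorem cnt_add (ℓ ℓ' : Fin n → ℕ) (σ : Equiv.Perm (Fin n)) (a b : ℕ) :
    (univ.filter (fun j : Fin n => ℓ' j < b + 1 ∧ a ≤ ℓ (σ j))).card + (univ.filter (fun j : Fin n => ℓ' j < b ∧ a + 1 ≤ ℓ (σ j))).card =
      cnt ℓ ℓ' σ a b + (univ.filter (fun j : Fin n => ℓ' j < b + 1 ∧ a + 1 ≤ ℓ (σ j))).card +
        (univ.filter (fun j : Fin n => ℓ' j < b ∧ a ≤ ℓ (σ j))).card := by
  classical
  unfold cnt
  simp only [card_filter]
  rw [← sum_add_distrib, ← sum_add_distrib, ← sum_add_distrib]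
  apply sum_congr rfl
  intro j _
  by_cases h1 : ℓ' j < b <;> by_cases h2 : ℓ' j = b <;> by_cases h3 : ℓ (σ j) = a <;> by_cases h4 : a + 1 ≤ ℓ (σ j) <;>
    by_cases h5 : a ≤ ℓ (σ j) <;> by_cases h6 : ℓ' j < b + 1 <;> simp [h1, h2, h3, h4, h5, h6] <;> omega

/-- **The counting table is an invariant of the double coset.** -/
theorem cnt_of_double {ℓ ℓ' : Fin n → ℕ} {a c : GL (Fin n) F} (ha : a ∈ bt F ℓ) (hc : c ∈ bt F ℓ')
    {σ σ' : Equiv.Perm (Fin n)} (h : pmG F σ' = a * pmG F σ * c) : cnt ℓ ℓ' σ' = cnt ℓ ℓ' σ := by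
  have h1 : ∀ s t, rk ℓ ℓ' (pm F σ') s t = rk ℓ ℓ' (pm F σ) s t := by
    intro s t
    rw [← rk_mul ha hc (pm F σ) s t]
    have := congrArg (fun g : GL (Fin n) F => (g : Matrix (Fin n) (Fin n) F)) h
    simp only [Units.val_mul, pmG_val] at this
    rw [this]
  funext s t
  have h2 := cnt_add ℓ ℓ' σ s t
  have h3 := cnt_add ℓ ℓ' σ' s t
  have h4 := h1 s (t + 1)
  have h5 := h1 (s + 1) t
  have h6 := h1 (s + 1) (t + 1)
  have h7 := h1 s t
  simp only [rk_pm] at h4 h5 h6 h7
  omega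

end Rank

section Tables

variable {n : ℕ}

/-- Contingency tables. -/
def Tab (α β : Fin n → ℕ) : Type :=
  {M : Fin n → Fin n → ℕ // (∀ a, ∑ b, M a b = α a) ∧ ∀ b, ∑ a, M a b = β b}

/-- The labels with values in `Fin n`. -/
def Lb {α : Fin n → ℕ} (hα : ∑ k, α k = n) (i : Fin n) : Fin n := ⟨compLabel α i, compLabel_lt hα i⟩

theorem card_filter_eq_Lb {α : Fin n → ℕ} (hα : ∑ k, α k = n) (a : Fin n) :
    Nat.card {x // Lb hα x = a} = α a := by
  rw [Nat.card_eq_fintype_card, Fintype.card_subtype, ← card_fibre hα a]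
  congr 1
  ext i
  simp only [mem_filter, mem_univ, true_and, Lb, Fin.ext_iff]

variable {α β : Fin n → ℕ} (hα : ∑ k, α k = n) (hβ : ∑ k, β k = n)

include hβ in
theorem sum_cnt_row (σ : Equiv.Perm (Fin n)) (a : ℕ) :
    ∑ b : Fin n, cnt (compLabel α) (compLabel β) σ a b = (univ.filter (fun j : Fin n => compLabel α (σ j) = a)).card := by
  classical
  rw [card_eq_sum_card_fiberwise (f := Lb hβ) (t := univ) (fun x _ => mem_coe.mpr (mem_univ _))]
  apply sum_congr rfl
  intro b _
  unfold cnt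
  congr 1
  ext j
  simp only [mem_filter, mem_univ, true_and, Lb, Fin.ext_iff]
  tauto

include hα in
theorem sum_cnt_col (σ : Equiv.Perm (Fin n)) (b : ℕ) :
    ∑ a : Fin n, cnt (compLabel α) (compLabel β) σ a b = (univ.filter (fun j : Fin n => compLabel β j = b)).card := by
  classical
  rw [card_eq_sum_card_fiberwise (f := fun j => Lb hα (σ j)) (t := univ) (fun x _ => mem_coe.mpr (mem_univ _))]
  apply sum_congr rfl
  intro a _
  unfold cnt
  congr 1
  ext j
  simp only [mem_filter, mem_univ, true_and, Lb, Fin.ext_iff]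

/-- The table of a permutation. -/
def tabOf (σ : Equiv.Perm (Fin n)) : Tab α β :=
  ⟨fun a b => cnt (compLabel α) (compLabel β) σ a b, by
    intro a
    rw [sum_cnt_row hβ σ a, ← card_fibre hα a]
    apply card_bij (fun j _ => σ j)
    · intro j hj
      simpa using hj
    · intro j _ j' _ e
      exact σ.injective e
    · intro i hi
      refine ⟨σ⁻¹ i, ?_, by simp⟩
      simpa using hi, by
    intro b
    rw [sum_cnt_col hα σ b, card_fibre hβ b]⟩

include hα hβ in
/-- The labels are bounded, so the table determines the count. -/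
theorem cnt_eq_of_tabOf {σ σ' : Equiv.Perm (Fin n)} (h : tabOf hα hβ σ = tabOf hα hβ σ') :
    cnt (compLabel α) (compLabel β) σ = cnt (compLabel α) (compLabel β) σ' := by
  funext a b
  by_cases ha : a < n
  · by_cases hb : b < n
    · have := congrFun (congrFun (congrArg Subtype.val h) ⟨a, ha⟩) ⟨b, hb⟩
      exact this
    · have h1 : ∀ τ : Equiv.Perm (Fin n), cnt (compLabel α) (compLabel β) τ a b = 0 := by
        intro τ
        unfold cnt
        rw [card_eq_zero, filter_eq_empty_iff]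
        rintro j _ ⟨h2, _⟩
        have := compLabel_lt hβ j
        omega
      rw [h1, h1]
  · have h1 : ∀ τ : Equiv.Perm (Fin n), cnt (compLabel α) (compLabel β) τ a b = 0 := by
      intro τ
      unfold cnt
      rw [card_eq_zero, filter_eq_empty_iff]
      rintro j _ ⟨_, h2⟩
      have := compLabel_lt hα (τ j)
      omega
    rw [h1, h1]

theorem tabOf_eq_of_cnt {σ σ' : Equiv.Perm (Fin n)}
    (h : cnt (compLabel α) (compLabel β) σ = cnt (compLabel α) (compLabel β) σ') :
    tabOf hα hβ σ = tabOf hα hβ σ' := by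
  apply Subtype.ext
  funext a b
  exact congrFun (congrFun h a) b

/-- Every table is realised by a permutation. -/
theorem tabOf_surjective : Function.Surjective (tabOf hα hβ) := by
  classical
  rintro ⟨M, hr, hc⟩
  obtain ⟨u, hu⟩ := exists_refine (Lb hβ) (fun b a => M a b) (fun b => by
    rw [card_filter_eq_Lb hβ, hc])
  obtain ⟨v, hv⟩ := exists_refine (Lb hα) (fun a b => M a b) (fun a => by
    rw [card_filter_eq_Lb hα, hr])
  obtain ⟨π, hπ⟩ := exists_perm_of_fibres (fun i => (Lb hα i, v i)) (fun j => (u j, Lb hβ j)) (by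
    rintro ⟨a, b⟩
    have h1 := hv a b
    have h2 := hu b a
    simp only [Prod.mk.injEq]
    rw [h1, ← h2]
    apply Nat.card_congr
    exact Equiv.subtypeEquivRight (fun x => and_comm))
  refine ⟨π, ?_⟩
  apply Subtype.ext
  funext a b
  have h1 : ∀ j, Lb hα (π j) = u j := fun j => congrArg Prod.fst (hπ j)
  have h2 := hu b a
  change cnt (compLabel α) (compLabel β) π a b = M a b
  rw [← h2, Nat.card_eq_fintype_card, Fintype.card_subtype]
  unfold cnt
  congr 1
  ext j
  simp only [mem_filter, mem_univ, true_and, Lb, Fin.ext_iff]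
  have h3 := h1 j
  have h4 : compLabel α (π j) = (u j).val := by
    rw [← h3]
    rfl
  rw [h4]

/-- Equal tables means the same double coset of Young subgroups. -/
theorem young_of_cnt {σ σ' : Equiv.Perm (Fin n)}
    (h : cnt (compLabel α) (compLabel β) σ = cnt (compLabel α) (compLabel β) σ') :
    ∃ y ∈ youngSubgroup α, ∃ y' ∈ youngSubgroup β, σ' = y * σ * y' := by
  classical
  obtain ⟨π, hπ⟩ := exists_perm_of_fibres (fun j => (compLabel α (σ j), compLabel β j))
    (fun j => (compLabel α (σ' j), compLabel β j)) (by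
    rintro ⟨a, b⟩
    have h1 := congrFun (congrFun h a) b
    unfold cnt at h1
    rw [Nat.card_eq_fintype_card, Nat.card_eq_fintype_card, Fintype.card_subtype, Fintype.card_subtype]
    convert h1 using 2
    · ext j
      simp only [mem_filter, mem_univ, true_and, Prod.mk.injEq]
      tauto
    · ext j
      simp only [mem_filter, mem_univ, true_and, Prod.mk.injEq]
      tauto)
  have h1 : ∀ j, compLabel α (σ (π j)) = compLabel α (σ' j) := fun j => congrArg Prod.fst (hπ j)
  have h2 : ∀ j, compLabel β (π j) = compLabel β j := fun j => congrArg Prod.snd (hπ j)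
  refine ⟨σ' * π⁻¹ * σ⁻¹, ?_, π, h2, ?_⟩
  · intro i
    have e : i = σ (π (π⁻¹ (σ⁻¹ i))) := by simp
    have h3 := h1 (π⁻¹ (σ⁻¹ i))
    rw [← e] at h3
    simp only [Equiv.Perm.mul_apply]
    exact h3.symm
  · group

theorem cnt_young_mul {σ y y' : Equiv.Perm (Fin n)} (hy : y ∈ youngSubgroup α) (hy' : y' ∈ youngSubgroup β) :
    cnt (compLabel α) (compLabel β) (y * σ * y') = cnt (compLabel α) (compLabel β) σ := by
  funext a b
  unfold cnt
  apply card_bij (fun j _ => y' j)
  · intro j hj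
    obtain ⟨-, h3, h4⟩ := mem_filter.mp hj
    have h1 : compLabel β (y' j) = compLabel β j := hy' j
    have h2 : compLabel α (y (σ (y' j))) = compLabel α (σ (y' j)) := hy _
    refine mem_filter.mpr ⟨mem_univ _, ?_, ?_⟩
    · rw [h1]
      exact h3
    · rw [← h2]
      exact h4
  · intro j _ j' _ e
    exact y'.injective e
  · intro i hi
    obtain ⟨-, h3, h4⟩ := mem_filter.mp hi
    refine ⟨y'⁻¹ i, ?_, by simp⟩
    have h1 : compLabel β (y' (y'⁻¹ i)) = compLabel β (y'⁻¹ i) := hy' _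
    have h2 : y' (y'⁻¹ i) = i := by simp
    rw [h2] at h1
    refine mem_filter.mpr ⟨mem_univ _, ?_, ?_⟩
    · rw [← h1]
      exact h3
    · have h5 : (y * σ * y') (y'⁻¹ i) = y (σ i) := by simp
      rw [h5]
      have h6 : compLabel α (y (σ i)) = compLabel α (σ i) := hy _
      rw [h6]
      exact h4

include hα hβ in
/-- The count of the orbits of the symmetric group. -/
theorem card_orbits_young :
    Nat.card (orbitRel.Quotient (Equiv.Perm (Fin n))
      ((Equiv.Perm (Fin n) ⧸ youngSubgroup α) × (Equiv.Perm (Fin n) ⧸ youngSubgroup β))) = Nat.card (Tab α β) := by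
  apply card_orbits_of _ _ (tabOf hα hβ)
  · intro g a ha b hb
    exact tabOf_eq_of_cnt hα hβ (cnt_young_mul ha hb)
  · exact tabOf_surjective hα hβ
  · intro g g' e
    exact young_of_cnt (cnt_eq_of_tabOf hα hβ e)

section GLsec

variable {F : Type*} [Field F]

theorem pm_mem_bt {ℓ : Fin n → ℕ} {y : Equiv.Perm (Fin n)} (hy : ∀ i, ℓ (y i) = ℓ i) : pmG F y ∈ bt F ℓ := by
  rw [mem_bt]
  intro i j hij
  simp only [pmG_val, pm, Matrix.of_apply]
  rw [if_neg]
  rintro rfl
  rw [hy] at hij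
  omega

theorem bruhatGL' (g : GL (Fin n) F) : ∃ σ : Equiv.Perm (Fin n), ∃ A ∈ bt F (fun i : Fin n => i.val),
    ∃ C ∈ bt F (fun i : Fin n => i.val), g = A * pmG F σ * C := by
  obtain ⟨A, hA, C, hC, σ, e⟩ := bruhatGL g
  exact ⟨σ, A, hA, C, hC, e⟩

/-- The permutation chosen by the Bruhat decomposition. -/
noncomputable def bσ (g : GL (Fin n) F) : Equiv.Perm (Fin n) := Classical.choose (bruhatGL' g)

theorem bσ_spec (g : GL (Fin n) F) : ∃ A ∈ bt F (fun i : Fin n => i.val), ∃ C ∈ bt F (fun i : Fin n => i.val),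
    g = A * pmG F (bσ g) * C := Classical.choose_spec (bruhatGL' g)

include hα hβ in
/-- The count of the orbits of the linear group. -/
theorem card_orbits_GL :
    Nat.card (orbitRel.Quotient (GL (Fin n) F)
      ((GL (Fin n) F ⧸ parabolicGL n F α) × (GL (Fin n) F ⧸ parabolicGL n F β))) = Nat.card (Tab α β) := by
  have hA : bt F (fun i : Fin n => i.val) ≤ bt F (compLabel α) := bt_id_le (compLabel_mono α)
  have hB : bt F (fun i : Fin n => i.val) ≤ bt F (compLabel β) := bt_id_le (compLabel_mono β)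
  have key : ∀ (g : GL (Fin n) F) (τ : Equiv.Perm (Fin n)) (a c : GL (Fin n) F), a ∈ bt F (compLabel α) → c ∈ bt F (compLabel β) →
      g = a * pmG F τ * c → cnt (compLabel α) (compLabel β) (bσ g) = cnt (compLabel α) (compLabel β) τ := by
    intro g τ a c ha hc e
    obtain ⟨A, hA', C, hC', e'⟩ := bσ_spec g
    apply cnt_of_double (F := F) (a := A⁻¹ * a) (c := c * C⁻¹)
    · exact Subgroup.mul_mem _ (Subgroup.inv_mem _ (hA hA')) ha
    · exact Subgroup.mul_mem _ hc (Subgroup.inv_mem _ (hB hC'))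
    · have e2 : pmG F (bσ g) = A⁻¹ * g * C⁻¹ := by
        have h : A⁻¹ * g * C⁻¹ = A⁻¹ * (A * pmG F (bσ g) * C) * C⁻¹ := by rw [← e']
        rw [h]
        group
      rw [e2, e]
      group
  apply card_orbits_of (parabolicGL n F α) (parabolicGL n F β) (fun g => tabOf hα hβ (bσ g))
  · intro g a ha b hb
    apply tabOf_eq_of_cnt
    obtain ⟨A, hA', C, hC', e'⟩ := bσ_spec g
    have h1 := key (a * g * b) (bσ g) (a * A) (C * b) (Subgroup.mul_mem _ ha (hA hA')) (Subgroup.mul_mem _ (hB hC') hb) (by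
      conv_lhs => rw [e']
      group)
    exact h1
  · intro M
    obtain ⟨σ, rfl⟩ := tabOf_surjective hα hβ M
    refine ⟨pmG F σ, ?_⟩
    apply tabOf_eq_of_cnt
    exact key _ σ 1 1 (Subgroup.one_mem _) (Subgroup.one_mem _) (by simp)
  · intro g g' e
    have h1 := cnt_eq_of_tabOf hα hβ e
    obtain ⟨y, hy, y', hy', e2⟩ := young_of_cnt h1
    obtain ⟨A, hA', C, hC', e3⟩ := bσ_spec g
    obtain ⟨A₁, hA₁, C₁, hC₁, e4⟩ := bσ_spec g'
    refine ⟨A₁ * pmG F y * A⁻¹, ?_, C⁻¹ * pmG F y' * C₁, ?_, ?_⟩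
    · exact Subgroup.mul_mem _ (Subgroup.mul_mem _ (hA hA₁) (pm_mem_bt hy)) (Subgroup.inv_mem _ (hA hA'))
    · exact Subgroup.mul_mem _ (Subgroup.mul_mem _ (Subgroup.inv_mem _ (hB hC')) (pm_mem_bt hy')) (hB hC₁)
    · conv_lhs => rw [e4, e2]
      conv_rhs => rw [e3]
      simp only [map_mul]
      group

end GLsec

end Tables

end Cfsg.Agent.Lib.Known.GLFlag
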