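import Cfsg.Agent.Lib.Known.GLFlag4

set_option autoImplicit false
set_option linter.unusedVariables false
set_option linter.unusedSectionVars false

/-! The determinantal identity behind the orthogonality of the unipotent characters of `GL_n(q)`:
a Jacobi–Trudi/bialternant computation in the polynomial ring. -/

namespace Cfsg.Agent.Lib.Known.GLFlag

open Finset

variable {n : ℕ}

/-- The polynomial ring in the variables `y_j`. -/
abbrev Rr (n : ℕ) := MvPolynomial (Fin n) ℤ

/-- The geometric series in `y_l t`. -/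
noncomputable def uu (l : Fin n) : PowerSeries (Rr n) := PowerSeries.mk fun m => (MvPolynomial.X l) ^ m

/-- The generating series of the complete symmetric polynomials. -/
noncomputable def gg (n : ℕ) : PowerSeries (Rr n) := ∏ l : Fin n, uu l

/-- The complete symmetric polynomials. -/
noncomputable def HH (n m : ℕ) : Rr n := PowerSeries.coeff m (gg n)

theorem uu_mul (l : Fin n) :
    (1 - PowerSeries.C (MvPolynomial.X l : Rr n) * PowerSeries.X) * uu l = 1 := by
  ext m
  rw [sub_mul, one_mul, map_sub, mul_assoc]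
  cases m with
  | zero =>
    simp [uu, PowerSeries.coeff_zero_eq_constantCoeff]
  | succ m =>
    rw [PowerSeries.coeff_C_mul, PowerSeries.coeff_succ_X_mul]
    simp [uu, PowerSeries.coeff_one, pow_succ']

/-- `∏_{l ≠ k} (1 - y_l t)` -/
noncomputable def PP (k : Fin n) : Polynomial (Rr n) :=
  ∏ l ∈ univ.erase k, (1 - Polynomial.C (MvPolynomial.X l) * Polynomial.X)

theorem PP_coe (k : Fin n) : ((PP k : Polynomial (Rr n)) : PowerSeries (Rr n)) =
    ∏ l ∈ univ.erase k, (1 - PowerSeries.C (MvPolynomial.X l : Rr n) * PowerSeries.X) := by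
  have := map_prod (Polynomial.coeToPowerSeries.ringHom (R := Rr n))
    (fun l => (1 - Polynomial.C (MvPolynomial.X l) * Polynomial.X : Polynomial (Rr n))) (univ.erase k)
  simp only [Polynomial.coeToPowerSeries.ringHom_apply] at this
  unfold PP
  rw [this]
  apply prod_congr rfl
  intro l _
  simp

theorem PP_mul (k : Fin n) : ((PP k : Polynomial (Rr n)) : PowerSeries (Rr n)) * gg n = uu k := by
  rw [PP_coe]
  unfold gg
  rw [← mul_prod_erase univ _ (mem_univ k), mul_left_comm, ← prod_mul_distrib]
  rw [prod_congr rfl (fun l _ => uu_mul l)]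
  simp

theorem PP_coeff {k : Fin n} {a : ℕ} (h : n ≤ a) : (PP k).coeff a = 0 := by
  apply Polynomial.coeff_eq_zero_of_natDegree_lt
  have h1 : (PP k).natDegree ≤ ∑ l ∈ univ.erase k, (1 - Polynomial.C (MvPolynomial.X l : Rr n) * Polynomial.X).natDegree :=
    Polynomial.natDegree_prod_le _ _
  have h2 : ∑ l ∈ univ.erase k, (1 - Polynomial.C (MvPolynomial.X l : Rr n) * Polynomial.X).natDegree ≤ ∑ l ∈ univ.erase k, 1 := by
    apply sum_le_sum
    intro l _
    refine (Polynomial.natDegree_sub_le _ _).trans ?_
    simp only [Polynomial.natDegree_one]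
    apply max_le (Nat.zero_le _)
    exact (Polynomial.natDegree_C_mul_le _ _).trans Polynomial.natDegree_X_le
  simp only [sum_const, smul_eq_mul, mul_one] at h2
  rw [card_erase_of_mem (mem_univ k), card_univ, Fintype.card_fin] at h2
  have := k.isLt
  omega

theorem sum_range_eq_of_zero {M : Type*} [AddCommMonoid M] (f : ℕ → M) {a b : ℕ} (h1 : ∀ x, a ≤ x → f x = 0)
    (h2 : ∀ x, b ≤ x → f x = 0) : ∑ x ∈ range a, f x = ∑ x ∈ range b, f x := by
  rcases le_total a b with h | h
  · apply sum_subset (range_subset_range.mpr h)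
    intro x _ hx
    exact h1 x (not_lt.mp (fun h3 => hx (mem_range.mpr h3)))
  · symm
    apply sum_subset (range_subset_range.mpr h)
    intro x _ hx
    exact h2 x (not_lt.mp (fun h3 => hx (mem_range.mpr h3)))

/-- The matrix of the complete symmetric polynomials. -/
noncomputable def AA (lam : Fin n → ℕ) : Matrix (Fin n) (Fin n) (Rr n) :=
  Matrix.of fun i j => if j.val ≤ lam i then HH n (lam i - j.val) else 0

/-- The coefficients of the `P_k`. -/
noncomputable def EE (n : ℕ) : Matrix (Fin n) (Fin n) (Rr n) := Matrix.of fun j k => (PP k).coeff j.val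

/-- The alternant. -/
noncomputable def WW (lam : Fin n → ℕ) : Matrix (Fin n) (Fin n) (Rr n) :=
  Matrix.of fun i k => (MvPolynomial.X k) ^ (lam i)

theorem AA_mul_EE (lam : Fin n → ℕ) : AA lam * EE n = WW lam := by
  ext1 i k
  have h1 := congrArg (PowerSeries.coeff (lam i)) (PP_mul k)
  rw [PowerSeries.coeff_mul] at h1
  simp only [Polynomial.coeff_coe] at h1
  rw [Finset.Nat.sum_antidiagonal_eq_sum_range_succ_mk] at h1
  simp only [Matrix.mul_apply, AA, EE, WW, Matrix.of_apply]
  have h2 : PowerSeries.coeff (lam i) (uu k) = (MvPolynomial.X k : Rr n) ^ (lam i) := by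
    simp [uu]
  rw [← h2, ← h1]
  rw [Fin.sum_univ_eq_sum_range (fun a => (if a ≤ lam i then HH n (lam i - a) else 0) * (PP k).coeff a) n]
  rw [sum_range_eq_of_zero (fun a => (if a ≤ lam i then HH n (lam i - a) else 0) * (PP k).coeff a) (b := lam i + 1)
    (fun x hx => by
      show (if x ≤ lam i then HH n (lam i - x) else 0) * (PP k).coeff x = 0
      rw [PP_coeff hx, mul_zero])
    (fun x hx => by
      have : ¬ x ≤ lam i := by omega
      simp [this])]
  apply sum_congr rfl
  intro a ha
  have : a ≤ lam i := by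
    have := mem_range.mp ha
    omega
  simp only [this, if_true]
  rw [mul_comm]
  rfl

/-- The determinant of `E` is the Vandermonde determinant. -/
theorem det_EE : (EE n).det = (Matrix.vandermonde (fun i : Fin n => (MvPolynomial.X i : Rr n))).det := by
  have h1 := AA_mul_EE (fun i : Fin n => i.val)
  have h2 : (AA (fun i : Fin n => i.val)).det = 1 := by
    rw [Matrix.det_of_lowerTriangular]
    · simp only [AA, Matrix.of_apply]
      apply prod_eq_one
      intro i _
      simp only [le_refl, if_true, Nat.sub_self]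
      simp [HH, gg, uu, PowerSeries.coeff_zero_eq_constantCoeff]
    · intro i j hij
      simp only [AA, Matrix.of_apply]
      rw [if_neg]
      exact not_le.mpr hij
  have h3 := congrArg Matrix.det h1
  rw [Matrix.det_mul, h2, one_mul] at h3
  rw [h3, ← Matrix.det_transpose]
  rfl

theorem vand_mul_det (lam : Fin n → ℕ) :
    (Matrix.vandermonde (fun i : Fin n => (MvPolynomial.X i : Rr n))).det * (AA lam).det = (WW lam).det := by
  rw [← det_EE, mul_comm, ← Matrix.det_mul, AA_mul_EE]

/-- Exponents. -/
noncomputable def ex (f : Fin n → ℕ) : Fin n →₀ ℕ := Finsupp.equivFunOnFinite.symm f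

@[simp] theorem ex_apply (f : Fin n → ℕ) (i : Fin n) : ex f i = f i := rfl

theorem ex_inj {f g : Fin n → ℕ} : ex f = ex g ↔ f = g := by
  constructor
  · intro h
    funext i
    exact DFunLike.congr_fun h i
  · rintro rfl
    rfl

theorem prod_X_pow (f : Fin n → ℕ) : ∏ i : Fin n, (MvPolynomial.X i : Rr n) ^ (f i) = MvPolynomial.monomial (ex f) 1 := by
  rw [MvPolynomial.monomial_eq, Finsupp.prod_fintype]
  · simp
  · intro i
    simp

/-- The coefficient in the alternant. -/
theorem coeff_det_WW {lam lam' : Fin n → ℕ} (h : StrictMono lam) (h' : StrictMono lam') :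
    MvPolynomial.coeff (ex lam') (WW lam).det = if lam = lam' then 1 else 0 := by
  classical
  rw [Matrix.det_apply', MvPolynomial.coeff_sum]
  have h1 : ∀ π : Equiv.Perm (Fin n), MvPolynomial.coeff (ex lam')
      ((Equiv.Perm.sign π : ℤ) * ∏ i : Fin n, WW lam (π i) i : Rr n) =
      if lam ∘ π = lam' then ((Equiv.Perm.sign π : ℤ)) else 0 := by
    intro π
    have e : ∏ i : Fin n, WW lam (π i) i = MvPolynomial.monomial (ex (lam ∘ π)) 1 := by
      rw [← prod_X_pow]
      apply prod_congr rfl
      intro i _
      rfl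
    rw [e]
    have e2 : ((Equiv.Perm.sign π : ℤ) : Rr n) = MvPolynomial.C ((Equiv.Perm.sign π : ℤ)) := by
      simp
    rw [e2, MvPolynomial.coeff_C_mul, MvPolynomial.coeff_monomial]
    by_cases h2 : lam ∘ π = lam'
    · simp [h2]
    · have h3 : ex (lam ∘ π) ≠ ex lam' := fun e => h2 (ex_inj.mp e)
      simp [h2, h3]
  simp only [h1]
  have key : ∀ π : Equiv.Perm (Fin n), lam ∘ π = lam' → π = 1 := by
    intro π e
    have hπ : StrictMono π := by
      intro a b hab
      have := h' hab
      have e1 : lam (π a) = lam' a := congrFun e a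
      have e2 : lam (π b) = lam' b := congrFun e b
      rw [← e1, ← e2] at this
      exact h.lt_iff_lt.mp this
    have := hπ.eq_id
    ext i
    simp [this]
  rw [Finset.sum_ite, Finset.sum_const_zero, add_zero]
  by_cases h2 : lam = lam'
  · subst h2
    rw [if_pos rfl]
    have h3 : univ.filter (fun π : Equiv.Perm (Fin n) => lam ∘ π = lam) = {1} := by
      ext π
      simp only [mem_filter, mem_univ, true_and, mem_singleton]
      constructor
      · exact key π
      · rintro rfl
        rfl
    rw [h3]
    simp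
  · rw [if_neg h2]
    have h3 : univ.filter (fun π : Equiv.Perm (Fin n) => lam ∘ π = lam') = ∅ := by
      rw [filter_eq_empty_iff]
      intro π _ e
      apply h2
      have := key π e
      subst this
      exact e
    rw [h3]
    simp

/-- The coefficient of a product of complete symmetric polynomials counts tables. -/
theorem coeff_prod_HH (α β : Fin n → ℕ) :
    MvPolynomial.coeff (ex β) (∏ i : Fin n, HH n (α i)) = (Nat.card (Tab α β) : ℤ) := by
  classical
  have h1 : ∀ m : ℕ, HH n m = ∑ l ∈ finsuppAntidiag (univ : Finset (Fin n)) m, MvPolynomial.monomial l (1 : ℤ) := by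
    intro m
    unfold HH gg
    rw [PowerSeries.coeff_prod]
    apply sum_congr rfl
    intro l _
    simp only [uu, PowerSeries.coeff_mk]
    rw [MvPolynomial.monomial_eq, Finsupp.prod_fintype]
    · simp
    · intro i
      simp
  simp only [h1]
  rw [prod_univ_sum, MvPolynomial.coeff_sum]
  have h2 : ∀ x : Fin n → (Fin n →₀ ℕ), MvPolynomial.coeff (ex β) (∏ i : Fin n, MvPolynomial.monomial (x i) (1 : ℤ)) =
      if ∑ i, x i = ex β then 1 else 0 := by
    intro x
    have e := MvPolynomial.monomial_sum_index (R := ℤ) univ x 1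
    simp only [map_one, one_mul] at e
    rw [← e, MvPolynomial.coeff_monomial]
  simp only [h2]
  rw [sum_boole]
  congr 1
  rw [← Fintype.card_coe, ← Nat.card_eq_fintype_card]
  apply Nat.card_congr
  refine
    { toFun := fun x => ⟨fun a b => x.1 a b, ?_, ?_⟩
      invFun := fun M => ⟨fun a => ex (M.1 a), ?_⟩
      left_inv := ?_
      right_inv := ?_ }
  · intro a
    have h3 := (mem_filter.mp x.2).1
    have h4 := Fintype.mem_piFinset.mp h3 a
    exact (mem_finsuppAntidiag.mp h4).1
  · intro b
    have h3 := (mem_filter.mp x.2).2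
    have h4 := DFunLike.congr_fun h3 b
    rw [Finsupp.finset_sum_apply] at h4
    exact h4
  · refine mem_filter.mpr ⟨Fintype.mem_piFinset.mpr (fun a => mem_finsuppAntidiag.mpr ⟨M.2.1 a, subset_univ _⟩), ?_⟩
    ext b
    rw [Finsupp.finset_sum_apply]
    exact M.2.2 b
  · intro x
    apply Subtype.ext
    funext a
    ext b
    rfl
  · intro M
    apply Subtype.ext
    funext a b
    rfl

/-- The expansion of the determinant of `A`. -/
theorem coeff_det_AA (lam : Fin n → ℕ) (β : Fin n → ℕ) :
    MvPolynomial.coeff (ex β) (AA lam).det = ∑ κ : Equiv.Perm (Fin n),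
      if ∀ i, (κ i).val ≤ lam i then
        (Equiv.Perm.sign κ : ℤ) * (Nat.card (Tab (fun i => lam i - (κ i).val) β) : ℤ) else 0 := by
  classical
  rw [← Matrix.det_transpose, Matrix.det_apply', MvPolynomial.coeff_sum]
  apply sum_congr rfl
  intro κ _
  have e2 : ((Equiv.Perm.sign κ : ℤ) : Rr n) = MvPolynomial.C ((Equiv.Perm.sign κ : ℤ)) := by
    simp
  rw [e2, MvPolynomial.coeff_C_mul]
  by_cases h : ∀ i, (κ i).val ≤ lam i
  · rw [if_pos h]
    congr 1
    rw [← coeff_prod_HH]
    congr 1
    apply prod_congr rfl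
    intro i _
    simp only [Matrix.transpose_apply, AA, Matrix.of_apply]
    rw [if_pos (h i)]
  · rw [if_neg h]
    push Not at h
    obtain ⟨i, hi⟩ := h
    have : ∏ i : Fin n, (AA lam).transpose (κ i) i = 0 := by
      apply prod_eq_zero (mem_univ i)
      simp only [Matrix.transpose_apply, AA, Matrix.of_apply]
      rw [if_neg (not_le.mpr hi)]
    rw [this]
    simp

/-- The expansion of the Vandermonde determinant. -/
theorem vand_eq : (Matrix.vandermonde (fun i : Fin n => (MvPolynomial.X i : Rr n))).det =
    ∑ κ : Equiv.Perm (Fin n), MvPolynomial.monomial (ex fun i => (κ i).val) ((Equiv.Perm.sign κ : ℤ)) := by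
  rw [← Matrix.det_transpose, Matrix.det_apply']
  apply sum_congr rfl
  intro κ _
  have e : ∏ i : Fin n, (Matrix.vandermonde (fun i : Fin n => (MvPolynomial.X i : Rr n))).transpose (κ i) i =
      MvPolynomial.monomial (ex fun i => (κ i).val) (1 : ℤ) := by
    rw [← prod_X_pow]
    apply prod_congr rfl
    intro i _
    rfl
  rw [e]
  have e2 : ((Equiv.Perm.sign κ : ℤ) : Rr n) = MvPolynomial.C ((Equiv.Perm.sign κ : ℤ)) := by
    simp
  rw [e2, MvPolynomial.C_mul_monomial, mul_one]

/-- **The signed sum of the table counts.** -/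
theorem cauchy_sum {lam lam' : Fin n → ℕ} (h : StrictMono lam) (h' : StrictMono lam') :
    (∑ κ' : Equiv.Perm (Fin n), ∑ κ : Equiv.Perm (Fin n),
      if (∀ i, (κ i).val ≤ lam i) ∧ (∀ i, (κ' i).val ≤ lam' i) then
        (Equiv.Perm.sign κ' : ℤ) * (Equiv.Perm.sign κ : ℤ) *
          (Nat.card (Tab (fun i => lam i - (κ i).val) (fun i => lam' i - (κ' i).val)) : ℤ) else 0) =
      if lam = lam' then 1 else 0 := by
  classical
  rw [← coeff_det_WW h h', ← vand_mul_det, vand_eq, sum_mul, MvPolynomial.coeff_sum]
  apply sum_congr rfl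
  intro κ' _
  rw [MvPolynomial.coeff_monomial_mul']
  by_cases h2 : ∀ i, (κ' i).val ≤ lam' i
  · have h3 : (ex fun i => (κ' i).val) ≤ ex lam' := by
      intro i
      exact h2 i
    rw [if_pos h3]
    have h4 : ex lam' - (ex fun i => (κ' i).val) = ex (fun i => lam' i - (κ' i).val) := by
      ext i
      rfl
    rw [h4, coeff_det_AA, mul_sum]
    apply sum_congr rfl
    intro κ _
    by_cases h5 : ∀ i, (κ i).val ≤ lam i
    · simp only [h5, h2, implies_true, and_self, if_true]
      ring
    · simp [h5]
  · have h3 : ¬ (ex fun i => (κ' i).val) ≤ ex lam' := by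
      intro h4
      exact h2 (fun i => h4 i)
    rw [if_neg h3]
    apply sum_eq_zero
    intro κ _
    simp [h2]

end Cfsg.Agent.Lib.Known.GLFlag
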