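import Mathlib

set_option autoImplicit false

/-! Numerical checks for sporadic group orders and alternating group orders. -/

namespace Cfsg.Agent.Lib.Known

/-- The primes dividing the order of a sporadic group. -/
def sporPrimes : List ℕ := [2, 3, 5, 7, 11, 13, 17, 19, 23, 29, 31, 37, 41, 43, 47, 59, 67, 71]

theorem check_sporadic (N a0 : ℕ) (hN0 : N ≠ 0) (h2 : 2 ^ a0 ∣ N)
    (hdvd : N ∣ sporPrimes.prod ^ 60)
    (hc : ∀ q ∈ sporPrimes, q ≠ 2 → (N % q ^ 4 = 0 ∨ N % q ^ 3 ≠ 0 ∨ q ^ 3 < 2 ^ a0))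
    {p : ℕ} (hp : p.Prime) (hodd : p ≠ 2) (h3 : N.factorization p = 3) :
    p ^ 3 < 2 ^ N.factorization 2 := by
  have hpN : p ∣ N := Nat.dvd_of_factorization_pos (by omega)
  have hpL : p ∣ sporPrimes.prod := hp.dvd_of_dvd_pow (hpN.trans hdvd)
  have hprimes : ∀ a ∈ sporPrimes, a.Prime := by
    intro a ha
    simp only [sporPrimes, List.mem_cons, List.not_mem_nil, or_false] at ha
    rcases ha with rfl | rfl | rfl | rfl | rfl | rfl | rfl | rfl | rfl | rfl | rfl | rfl | rfl | rfl | rfl | rfl | rfl | rfl <;> norm_num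
  obtain ⟨a, ha, hpa⟩ := (Prime.dvd_prod_iff hp.prime).mp hpL
  have hpa' : p = a := (Nat.prime_dvd_prime_iff_eq hp (hprimes a ha)).mp hpa
  subst hpa'
  rcases hc p ha hodd with h | h | h
  · have := (hp.pow_dvd_iff_le_factorization hN0).mp (Nat.dvd_of_mod_eq_zero h)
    omega
  · exact absurd (Nat.mod_eq_zero_of_dvd ((hp.pow_dvd_iff_le_factorization hN0).mpr h3.ge)) h
  · have h4 := (Nat.prime_two.pow_dvd_iff_le_factorization hN0).mp h2
    exact lt_of_lt_of_le h (Nat.pow_le_pow_right (by norm_num) h4)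

/-- `2^(2p-1) > p^3` for `p ≥ 5`. -/
theorem two_pow_gt_cube (p : ℕ) (hp : 5 ≤ p) : p ^ 3 < 2 ^ (2 * p - 1) := by
  induction p, hp using Nat.le_induction with
  | base => norm_num
  | succ p hp ih =>
    have h1 : 2 * (p + 1) - 1 = (2 * p - 1) + 2 := by omega
    rw [h1, pow_add]
    have h2 : (p + 1) ^ 3 ≤ p ^ 3 * 2 ^ 2 := by
      have : p ^ 3 * 2 ^ 2 - (p + 1) ^ 3 = p ^ 3 * 2 ^ 2 - (p + 1) ^ 3 := rfl
      nlinarith [sq_nonneg p, Nat.mul_le_mul hp hp]
    calc (p + 1) ^ 3 ≤ p ^ 3 * 2 ^ 2 := h2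
      _ < 2 ^ (2 * p - 1) * 2 ^ 2 := by nlinarith

/-- Main numerical lemma for alternating groups: `N = n!/2`. -/
theorem check_alternating (n N : ℕ) (hN : 2 * N = n.factorial) {p : ℕ} (hp : p.Prime)
    (hodd : p ≠ 2) (h3 : N.factorization p = 3) : p ^ 3 < 2 ^ N.factorization 2 := by
  have hN0 : N ≠ 0 := by
    rintro rfl
    exact n.factorial_ne_zero (by simpa using hN.symm)
  have hf : n.factorial.factorization = (2 : ℕ).factorization + N.factorization := by
    rw [← hN, Nat.factorization_mul (by norm_num) hN0]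
  have hfp : n.factorial.factorization p = 3 := by
    rw [hf, Finsupp.add_apply, Nat.factorization_eq_zero_of_not_dvd
      (fun h => hodd ((Nat.prime_dvd_prime_iff_eq hp Nat.prime_two).mp h)), h3]
  have hf2 : n.factorial.factorization 2 = 1 + N.factorization 2 := by
    rw [hf, Finsupp.add_apply, Nat.Prime.factorization_self Nat.prime_two]
  have hp3 : 3 ≤ p := by
    have := hp.two_le
    omega
  -- `3p ≤ n`
  have h3p : 3 * p ≤ n := by
    by_contra hlt
    push Not at hlt
    have hlt2 : n < p ^ 2 := by nlinarith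
    have hlog : Nat.log p n < 2 := by
      by_cases hn0 : n = 0
      · subst hn0; simp
      · exact Nat.log_lt_of_lt_pow hn0 hlt2
    have h4 := Nat.factorization_factorial hp hlog
    rw [hfp] at h4
    simp only [show Finset.Ico 1 2 = {1} from rfl, Finset.sum_singleton, pow_one] at h4
    have h5 : n / p < 3 := Nat.div_lt_of_lt_mul (by linarith)
    omega
  have hnot3 : p ≠ 3 := by
    rintro rfl
    have h4 : 3 ^ 4 ∣ n.factorial :=
      Dvd.dvd.trans (by decide) (Nat.factorial_dvd_factorial h3p)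
    have := (Nat.prime_three.pow_dvd_iff_le_factorization n.factorial_ne_zero).mp h4
    omega
  have hp5 : 5 ≤ p := by
    by_contra hlt
    have : p = 4 := by omega
    subst this
    norm_num at hp
  have hv2 : n / 2 + n / 4 ≤ n.factorial.factorization 2 := by
    rw [Nat.factorization_factorial Nat.prime_two (Nat.lt_add_one (Nat.log 2 n))]
    have hlog : 2 ≤ Nat.log 2 n := Nat.le_log_of_pow_le (by norm_num) (by omega)
    have hsub : ({1, 2} : Finset ℕ) ⊆ Finset.Ico 1 (Nat.log 2 n + 1) := by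
      intro x hx
      simp only [Finset.mem_insert, Finset.mem_singleton] at hx
      rw [Finset.mem_Ico]
      omega
    refine le_trans ?_ (Finset.sum_le_sum_of_subset hsub)
    simp
  have h2p : 2 * p - 1 ≤ N.factorization 2 := by omega
  exact lt_of_lt_of_le (two_pow_gt_cube p hp5) (Nat.pow_le_pow_right (by norm_num) h2p)

end Cfsg.Agent.Lib.Known
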