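import Cfsg.Agent.Lib.Known.Sp3c

/-!
# Two-element generation of `Sp_{2m}(q)`
-/

set_option autoImplicit false
set_option linter.unusedVariables false
set_option linter.unusedSectionVars false
set_option linter.unusedSimpArgs false

namespace Cfsg.Agent.Lib.Known.Sp3

open Matrix Module Cfsg.Agent.Lib.Classical Cfsg.Agent.Lib.KnownSimple

variable {m : ℕ} {F : Type*} [Field F]

local notation "V" => (Fin m ⊕ Fin m → F)
local notation "W₀" => (Fin m → F)
local notation "ω" => Cfsg.sympForm m F
local notation "SpG" => Matrix.symplecticGroup (Fin m) F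

variable {H : Subgroup (Matrix.symplecticGroup (Fin m) F)}

/-- McLaughlin's dichotomy over fields with at least three elements. -/
theorem exists_W_large [Fintype F] (hcard : 3 ≤ Fintype.card F) {e : V} (he : e ∈ OF H) :
    ∃ W : Submodule F V, e ∈ W ∧ (∀ w ∈ W, w ∈ OF H) ∧ ∀ z ∈ OF H, z ∈ W ∨ z ∈ ort W := by
  classical
  let P : Submodule F V → Prop := fun W => e ∈ W ∧ ∀ w ∈ W, w ∈ OF H
  have hP0 : P (Submodule.span F {e}) := by
    refine ⟨Submodule.mem_span_singleton_self e, ?_⟩
    intro w hw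
    obtain ⟨l, rfl⟩ := Submodule.mem_span_singleton.1 hw
    exact OF_smul he l
  haveI : Finite (Submodule F V) := Finite.of_injective (fun W => (W : Set V)) SetLike.coe_injective
  haveI : Nonempty {W // P W} := ⟨⟨_, hP0⟩⟩
  obtain ⟨⟨W, hWe, hWO⟩, hmax⟩ := Finite.exists_max (fun W : {W // P W} => finrank F W.1)
  refine ⟨W, hWe, hWO, ?_⟩
  intro z hz
  by_contra hcon
  push Not at hcon
  obtain ⟨hz1, hz2⟩ := hcon
  rw [mem_ort] at hz2
  push Not at hz2
  obtain ⟨w₀, hw₀, hw₀z⟩ := hz2
  have hP' : P (W ⊔ Submodule.span F {z}) := by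
    refine ⟨Submodule.mem_sup_left hWe, ?_⟩
    intro x hx
    obtain ⟨w, hw, y, hy, rfl⟩ := Submodule.mem_sup.1 hx
    obtain ⟨l, rfl⟩ := Submodule.mem_span_singleton.1 hy
    by_cases hl : l = 0
    · rw [hl, zero_smul, add_zero]
      exact hWO w hw
    · have h3 := OF_grow hcard hWO hz hw₀ (form_swap_ne hw₀z) (W.smul_mem l⁻¹ hw)
      have h4 := OF_smul h3 l
      have h5 : l • (l⁻¹ • w + z) = w + l • z := by
        rw [smul_add, smul_smul, mul_inv_cancel₀ hl, one_smul]
      rwa [h5] at h4
  have h3 := hmax ⟨_, hP'⟩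
  have h4 : W < W ⊔ Submodule.span F {z} := by
    refine lt_of_le_of_ne le_sup_left ?_
    intro h5
    apply hz1
    rw [h5]
    exact Submodule.mem_sup_right (Submodule.mem_span_singleton_self z)
  exact absurd (Submodule.finrank_lt_finrank_of_lt h4) (not_lt.2 h3)

/-- McLaughlin's dichotomy over the field of two elements. -/
theorem exists_W_F2 [Fintype F] (hF : Fintype.card F = 2) {e b : V} (he0 : e ≠ 0) (hb0 : b ≠ 0) (hbe : b ≠ e)
    (he : e ∈ OF H) (hb : b ∈ OF H) (hc : e + b ∈ OF H) (heb : ω e b = 0)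
    (hspan : ∀ t : V, t ≠ 0 → ∃ y ∈ OF H, ω y t ≠ 0) :
    ∃ W : Submodule F V, e ∈ W ∧ (∀ w ∈ W, w ∈ OF H) ∧ ∀ z ∈ OF H, z ∈ W ∨ z ∈ ort W := by
  classical
  haveI : Finite (Fin m ⊕ Fin m → F) := inferInstance
  have hcs := f2_cases hF
  have hvv := f2_vec_add_self (m := m) hF
  have hss := f2_add_self hF
  -- a maximal subspace
  let P : Submodule F V → Prop := fun W => e ∈ W ∧ b ∈ W ∧ ∀ w ∈ W, w ∈ OF H
  have hP0 : P (Submodule.span F {e, b}) := by
    refine ⟨Submodule.subset_span (by simp), Submodule.subset_span (by simp), ?_⟩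
    intro w hw
    obtain ⟨l, l', rfl⟩ := Submodule.mem_span_pair.1 hw
    rcases hcs l with rfl | rfl <;> rcases hcs l' with rfl | rfl
    · simpa using OF_smul he 0
    · simpa using hb
    · simpa using he
    · simpa using hc
  haveI : Finite (Submodule F V) := Finite.of_injective (fun W => (W : Set V)) SetLike.coe_injective
  haveI : Nonempty {W // P W} := ⟨⟨_, hP0⟩⟩
  obtain ⟨⟨W, hWe, hWb, hWO⟩, hmax⟩ := Finite.exists_max (fun W : {W // P W} => finrank F W.1)
  -- maximality
  have hmaxz : ∀ z, z ∉ W → (∀ w ∈ W, z + w ∈ OF H) → False := by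
    intro z hz hzw
    have hP' : P (W ⊔ Submodule.span F {z}) := by
      refine ⟨Submodule.mem_sup_left hWe, Submodule.mem_sup_left hWb, ?_⟩
      intro x hx
      obtain ⟨w, hw, y, hy, rfl⟩ := Submodule.mem_sup.1 hx
      obtain ⟨l, rfl⟩ := Submodule.mem_span_singleton.1 hy
      rcases hcs l with rfl | rfl
      · rw [zero_smul, add_zero]
        exact hWO w hw
      · rw [one_smul, add_comm]
        exact hzw w hw
    have h3 := hmax ⟨_, hP'⟩
    have h4 : W < W ⊔ Submodule.span F {z} := by
      refine lt_of_le_of_ne le_sup_left ?_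
      intro h5
      apply hz
      rw [h5]
      exact Submodule.mem_sup_right (Submodule.mem_span_singleton_self z)
    exact absurd (Submodule.finrank_lt_finrank_of_lt h4) (not_lt.2 h3)
  -- non-degeneracy
  have hnd : ∀ r ∈ W, r ≠ 0 → ∃ w ∈ W, ω r w ≠ 0 := by
    intro r hr hr0
    by_contra hcon
    push Not at hcon
    obtain ⟨y, hy, hyr⟩ := hspan r hr0
    have hy1 : y ∉ W := by
      intro h
      apply hyr
      rw [sympForm_swap, hcon y h, neg_zero]
    refine hmaxz y hy1 (fun w hw => f2_F1 hF hWO hy hw hr hyr ?_)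
    rw [sympForm_swap, hcon w hw, neg_zero]
  -- the complement
  have hcomp : ∀ z : V, ∃ w₁ ∈ W, z + w₁ ∈ ort W := by
    intro z
    have hnd' : ((sympBil m F).restrict W).Nondegenerate := by
      constructor
      · rintro ⟨x, hx⟩ hx2
        by_contra hx0
        obtain ⟨w, hw, hxw⟩ := hnd x hx (fun h => hx0 (Subtype.ext h))
        exact hxw (hx2 ⟨w, hw⟩)
      · rintro ⟨x, hx⟩ hx2
        by_contra hx0
        obtain ⟨w, hw, hxw⟩ := hnd x hx (fun h => hx0 (Subtype.ext h))
        apply hxw
        rw [sympForm_swap]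
        have := hx2 ⟨w, hw⟩
        have h3 : ω w x = 0 := this
        rw [h3, neg_zero]
    have hc := (sympBil m F).isCompl_orthogonal_of_restrict_nondegenerate sympBil_refl hnd'
    have hz : z ∈ W ⊔ ort W := by
      have : W ⊔ ort W = ⊤ := hc.sup_eq_top
      rw [this]
      trivial
    obtain ⟨w, hw, y, hy, rfl⟩ := Submodule.mem_sup.1 hz
    refine ⟨w, hw, ?_⟩
    have : w + y + w = y + (w + w) := by abel
    rw [this, hvv, add_zero]
    exact hy
  have hinf : ∀ r ∈ W, r ∈ ort W → r = 0 := by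
    intro r hr hr2
    by_contra hr0
    obtain ⟨w, hw, hrw⟩ := hnd r hr hr0
    apply hrw
    rw [sympForm_swap, (mem_ort.1 hr2) w hw, neg_zero]
  -- separation
  have hsep : ∀ a ∈ W, ∀ d ∈ W, a ≠ 0 → a ≠ d → ∃ w₀ ∈ W, ω a w₀ ≠ 0 ∧ ω d w₀ = 0 := by
    intro a ha d hd ha0 had
    obtain ⟨w₁, hw₁, h1⟩ := hnd a ha ha0
    by_cases h2 : ω d w₁ = 0
    · exact ⟨w₁, hw₁, h1, h2⟩
    have had' : a + d ≠ 0 := by
      intro h
      apply had
      have : a = a + (d + d) := by rw [hvv, add_zero]
      rw [this, ← add_assoc, h, zero_add]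
    obtain ⟨w₂, hw₂, h3⟩ := hnd _ (W.add_mem ha hd) had'
    rw [sympForm_add_left] at h3
    have h1' : ω a w₁ = 1 := (hcs _).resolve_left h1
    have h2' : ω d w₁ = 1 := (hcs _).resolve_left h2
    rcases hcs (ω a w₂) with h4 | h4 <;> rcases hcs (ω d w₂) with h5 | h5
    · exact absurd (by rw [h4, h5, add_zero]) h3
    · refine ⟨w₁ + w₂, W.add_mem hw₁ hw₂, ?_, ?_⟩
      · rw [sympForm_add_right, h1', h4, add_zero]
        exact one_ne_zero
      · rw [sympForm_add_right, h2', h5]
        exact hss 1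
    · exact ⟨w₂, hw₂, by rw [h4]; exact one_ne_zero, h5⟩
    · exact absurd (by rw [h4, h5]; exact hss 1) h3
  -- the auxiliary vector
  have hchoose : ∀ a ∈ W, a ≠ 0 → ∃ d ∈ W, d ≠ 0 ∧ a ≠ d ∧ ω a d = 0 := by
    intro a ha ha0
    by_cases h1 : a = e
    · refine ⟨b, hWb, hb0, ?_, ?_⟩
      · rw [h1]
        exact hbe.symm
      · rw [h1, heb]
    by_cases h2 : a = b
    · refine ⟨e, hWe, he0, ?_, ?_⟩
      · rw [h2]
        exact hbe
      · rw [h2, sympForm_swap, heb, neg_zero]
    rcases hcs (ω a e) with h3 | h3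
    · exact ⟨e, hWe, he0, h1, h3⟩
    rcases hcs (ω a b) with h4 | h4
    · exact ⟨b, hWb, hb0, h2, h4⟩
    refine ⟨e + b, W.add_mem hWe hWb, ?_, ?_, ?_⟩
    · intro h5
      apply hbe
      have : b = (e + b) + e := by
        have : e + b + e = b + (e + e) := by abel
        rw [this, hvv, add_zero]
      rw [this, h5, zero_add]
    · intro h5
      rw [h5, sympForm_add_left, sympForm_self, zero_add, sympForm_swap, heb, neg_zero] at h3
      exact zero_ne_one h3
    · rw [sympForm_add_right, h3, h4]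
      exact hss 1
  -- the dichotomy
  have hdich : ∀ z ∈ OF H, z ∈ W ∨ z ∈ ort W := by
    intro z hz
    by_contra hcon
    push Not at hcon
    obtain ⟨hz1, hz2⟩ := hcon
    obtain ⟨w₁, hw₁, ht⟩ := hcomp z
    set t := z + w₁ with htdef
    have hzt : z = t + w₁ := by
      rw [htdef, add_assoc, hvv, add_zero]
    have hw₁0 : w₁ ≠ 0 := by
      intro h
      apply hz2
      rw [hzt, h, add_zero]
      exact ht
    have htW : t ∉ W := by
      intro h
      apply hz1
      rw [hzt]
      exact W.add_mem h hw₁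
    have ht0 : t ≠ 0 := by
      intro h
      apply htW
      rw [h]
      exact W.zero_mem
    have ht1 : ∀ w ∈ W, ω w t = 0 := mem_ort.1 ht
    have ht2 : ∀ w ∈ W, ω t w = 0 := by
      intro w hw
      rw [sympForm_swap, ht1 w hw, neg_zero]
    -- first step
    have hi : ∀ w' ∈ W, w' ≠ 0 → t + w' ∈ OF H := by
      intro w' hw' hw'0
      have h1 : w₁ ≠ w₁ + w' := by
        intro h
        apply hw'0
        have : w₁ + w' = w₁ + 0 := by rw [add_zero]; exact h.symm
        exact add_left_cancel this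
      obtain ⟨w₀, hw₀, h2, h3⟩ := hsep w₁ hw₁ _ (W.add_mem hw₁ hw') hw₁0 h1
      have h4 : ω z w₀ ≠ 0 := by
        rw [hzt, sympForm_add_left, ht2 w₀ hw₀, zero_add]
        exact h2
      have h5 := f2_F1 hF hWO hz (W.add_mem hw₁ hw') hw₀ h4 h3
      have h6 : z + (w₁ + w') = t + w' := by rw [htdef]; abel
      rwa [h6] at h5
    -- a vector not orthogonal to `t`
    obtain ⟨y, hy, hyt⟩ := hspan t ht0
    obtain ⟨y', hy', hy't, hy'W⟩ : ∃ y' ∈ OF H, ω y' t ≠ 0 ∧ y' ∉ ort W := by
      by_cases hyW : y ∈ ort W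
      · have hye : ω y e = 0 := by
          rw [sympForm_swap, (mem_ort.1 hyW) e hWe, neg_zero]
        refine ⟨y + (t + e), f2_plane (hi e hWe he0) hy ?_, ?_, ?_⟩
        · rw [sympForm_add_right, hye, add_zero]
          exact hyt
        · rw [sympForm_add_left, sympForm_add_left, sympForm_self, ht1 e hWe, add_zero, add_zero]
          exact hyt
        · intro h
          obtain ⟨w, hw, hew⟩ := hnd e hWe he0
          have h1 := (mem_ort.1 h) w hw
          rw [sympForm_add_right, sympForm_add_right, (mem_ort.1 hyW) w hw, ht1 w hw, zero_add, zero_add] at h1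
          apply hew
          rw [sympForm_swap, h1, neg_zero]
      · exact ⟨y, hy, hyt, hyW⟩
    obtain ⟨a, ha, hay⟩ := hcomp y'
    have ha0 : a ≠ 0 := by
      intro h
      apply hy'W
      rw [h, add_zero] at hay
      exact hay
    have hy'w : ∀ w ∈ W, ω y' w = ω a w := by
      intro w hw
      have h1 : ω (y' + a) w = 0 := by
        rw [sympForm_swap, (mem_ort.1 hay) w hw, neg_zero]
      rw [sympForm_add_left] at h1
      have h2 : ω y' w = ω y' w + (ω y' w + ω a w) := by rw [h1, add_zero]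
      rw [h2, ← add_assoc, hss, zero_add]
    obtain ⟨d, hd, hd0, had, hadz⟩ := hchoose a ha ha0
    obtain ⟨w₀, hw₀, h1, h2⟩ := hsep a ha d hd ha0 had
    have hy'd : y' + d ∈ OF H := by
      refine f2_F1 hF hWO hy' hd hw₀ ?_ h2
      rw [hy'w w₀ hw₀]
      exact h1
    have h3 : y' + t ∈ OF H := by
      have h4 := f2_plane (hi d hd hd0) hy'd (by
        rw [sympForm_add_left, sympForm_add_right y' t d, sympForm_add_right d t d, hy'w d hd, hadz, ht1 d hd, sympForm_self,
          add_zero, add_zero, add_zero]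
        exact hy't)
      have h5 : y' + d + (t + d) = y' + t + (d + d) := by abel
      rw [h5, hvv, add_zero] at h4
      exact h4
    have htO : t ∈ OF H := by
      have h4 := f2_plane hy' h3 (by
        rw [sympForm_add_left, sympForm_self, zero_add]
        exact form_swap_ne hy't)
      have h5 : y' + t + y' = t + (y' + y') := by abel
      rw [h5, hvv, add_zero] at h4
      exact h4
    refine hmaxz t htW (fun w hw => ?_)
    by_cases hw0 : w = 0
    · rw [hw0, add_zero]
      exact htO
    · exact hi w hw hw0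
  exact ⟨W, hWe, hWO, hdich⟩

/-- The vectors of the chain. -/
def zz (m : ℕ) (F : Type*) [Field F] (j : ℕ) : Fin m ⊕ Fin m → F :=
  pr (fun i => if j = (i : ℕ) then 1 else 0) (fun i => if j = m + (i : ℕ) ∨ j = m + (i : ℕ) + 1 then 1 else 0)

theorem form_zz (j l : ℕ) : ω (zz m F j) (zz m F l) =
    (if l < m ∧ (j = m + l ∨ j = m + l + 1) then 1 else 0) -
      (if j < m ∧ (l = m + j ∨ l = m + j + 1) then 1 else 0) := by
  rw [zz, zz, form_pr]
  congr 1
  · simp only [dotProduct]
    by_cases hl : l < m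
    · rw [Finset.sum_eq_single (⟨l, hl⟩ : Fin m)]
      · simp [hl]
      · intro i _ hi
        have : l ≠ (i : ℕ) := fun h => hi (Fin.ext h.symm)
        simp [this]
      · simp
    · rw [if_neg (fun h => hl h.1)]
      apply Finset.sum_eq_zero
      intro i _
      have : l ≠ (i : ℕ) := by
        have := i.2
        omega
      simp [this]
  · simp only [dotProduct]
    by_cases hj : j < m
    · rw [Finset.sum_eq_single (⟨j, hj⟩ : Fin m)]
      · simp [hj]
      · intro i _ hi
        have : j ≠ (i : ℕ) := fun h => hi (Fin.ext h.symm)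
        simp [this]
      · simp
    · rw [if_neg (fun h => hj h.1)]
      apply Finset.sum_eq_zero
      intro i _
      have : j ≠ (i : ℕ) := by
        have := i.2
        omega
      simp [this]

theorem form_zz_succ {j l : ℕ} (hj : j + 1 < 2 * m) (hl : l + 1 < 2 * m) :
    ω (zz m F (j + 1)) (zz m F (l + 1)) = ω (zz m F j) (zz m F l) := by
  rw [form_zz, form_zz]
  have h1 : (l + 1 < m ∧ (j + 1 = m + (l + 1) ∨ j + 1 = m + (l + 1) + 1)) ↔ (l < m ∧ (j = m + l ∨ j = m + l + 1)) := by
    omega
  have h2 : (j + 1 < m ∧ (l + 1 = m + (j + 1) ∨ l + 1 = m + (j + 1) + 1)) ↔ (j < m ∧ (l = m + j ∨ l = m + j + 1)) := by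
    omega
  simp only [h1, h2]

theorem form_zz_add {j : ℕ} (hj : j < m) : ω (zz m F j) (zz m F (m + j)) ≠ 0 := by
  rw [form_zz]
  have h1 : ¬ (m + j < m ∧ (j = m + (m + j) ∨ j = m + (m + j) + 1)) := by omega
  rw [if_neg h1, if_pos ⟨hj, Or.inl rfl⟩]
  simp

theorem form_zz_add' {j : ℕ} (hj : j < m) : ω (zz m F j) (zz m F (m + j + 1)) ≠ 0 := by
  rw [form_zz]
  have h1 : ¬ (m + j + 1 < m ∧ (j = m + (m + j + 1) ∨ j = m + (m + j + 1) + 1)) := by omega
  rw [if_neg h1, if_pos ⟨hj, Or.inr rfl⟩]
  simp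

/-- The chain is a basis. -/
theorem zz_li : LinearIndependent F (fun j : Fin (2 * m) => zz m F (j : ℕ)) := by
  rw [Fintype.linearIndependent_iff]
  intro g hg
  have hco : ∀ x, ∑ j : Fin (2 * m), g j * zz m F (j : ℕ) x = 0 := by
    intro x
    have := congrFun hg x
    simpa using this
  have h1 : ∀ j : Fin (2 * m), (j : ℕ) < m → g j = 0 := by
    intro j hj
    have h2 := hco (Sum.inl ⟨j, hj⟩)
    rw [Finset.sum_eq_single j] at h2
    · simpa [zz] using h2
    · intro i _ hi
      have : (i : ℕ) ≠ (j : ℕ) := fun h => hi (Fin.ext h)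
      simp [zz, this]
    · simp
  have h2 : ∀ d k : ℕ, k + d = 2 * m → ∀ j : Fin (2 * m), k ≤ (j : ℕ) → g j = 0 := by
    intro d
    induction d with
    | zero =>
      intro k hk j hj
      have := j.2
      omega
    | succ d ih =>
      intro k hk j hj
      by_cases hjk : k + 1 ≤ (j : ℕ)
      · exact ih (k + 1) (by omega) j hjk
      have hjk' : (j : ℕ) = k := by omega
      by_cases hkm : k < m
      · exact h1 j (by omega)
      have hi : (j : ℕ) - m < m := by
        have := j.2
        omega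
      have h3 := hco (Sum.inr ⟨(j : ℕ) - m, hi⟩)
      rw [Finset.sum_eq_single j] at h3
      · have e : zz m F (j : ℕ) (Sum.inr ⟨(j : ℕ) - m, hi⟩) = 1 := by
          simp only [zz, pr_inr]
          rw [if_pos (Or.inl (by omega))]
        rw [e, mul_one] at h3
        exact h3
      · intro i _ hij
        by_cases hik : k + 1 ≤ (i : ℕ)
        · rw [ih (k + 1) (by omega) i hik, zero_mul]
        · have hne : (i : ℕ) ≠ (j : ℕ) := fun h => hij (Fin.ext h)
          have e : zz m F (i : ℕ) (Sum.inr ⟨(j : ℕ) - m, hi⟩) = 0 := by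
            simp only [zz, pr_inr]
            rw [if_neg]
            omega
          rw [e, mul_zero]
      · simp
  intro j
  exact h2 (2 * m) 0 (by omega) j (Nat.zero_le _)

theorem zz_span : Submodule.span F (Set.range (fun j : Fin (2 * m) => zz m F (j : ℕ))) = ⊤ := by
  apply zz_li.span_eq_top_of_card_eq_finrank'
  rw [Fintype.card_fin, Module.finrank_fintype_fun_eq_card, Fintype.card_sum, Fintype.card_fin]
  omega

theorem zz_ne (j : ℕ) (hj : j < 2 * m) : zz m F j ≠ 0 :=
  zz_li.ne_zero (⟨j, hj⟩ : Fin (2 * m))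

theorem zz_inj {j l : ℕ} (hj : j < 2 * m) (hl : l < 2 * m) (h : zz m F j = zz m F l) : j = l := by
  have := (zz_li (m := m) (F := F)).injective (a₁ := (⟨j, hj⟩ : Fin (2 * m))) (a₂ := ⟨l, hl⟩) h
  exact congrArg Fin.val this

theorem exists_shift : ∃ t : SpG, ∀ j : ℕ, j + 1 < 2 * m → t.1 *ᵥ zz m F j = zz m F (j + 1) := by
  have hs : LinearIndependent F (fun j : Fin (2 * m - 1) => zz m F (j : ℕ)) := by
    have := zz_li (m := m) (F := F)
    exact this.comp (fun j : Fin (2 * m - 1) => (⟨j, by have := j.2; omega⟩ : Fin (2 * m))) (by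
      intro a b h
      have := congrArg Fin.val h
      exact Fin.ext this)
  have hs' : LinearIndependent F (fun j : Fin (2 * m - 1) => zz m F ((j : ℕ) + 1)) := by
    have := zz_li (m := m) (F := F)
    exact this.comp (fun j : Fin (2 * m - 1) => (⟨j + 1, by have := j.2; omega⟩ : Fin (2 * m))) (by
      intro a b h
      have h2 := congrArg Fin.val h
      apply Fin.ext
      simpa using h2)
  obtain ⟨t, ht⟩ := exists_sp_map hs hs' (by
    intro i j
    have := i.2
    have := j.2
    exact form_zz_succ (by omega) (by omega))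
  refine ⟨t, fun j hj => ?_⟩
  exact ht ⟨j, by omega⟩

theorem zz_lt {j : ℕ} (hj : j < m) : zz m F j = pr (Pi.single ⟨j, hj⟩ 1) 0 := by
  unfold zz
  congr 1
  · funext i
    by_cases h : i = ⟨j, hj⟩
    · subst h
      simp
    · have : j ≠ (i : ℕ) := fun h2 => h (Fin.ext h2.symm)
      simp [this, h]
  · funext i
    have := i.2
    have h : ¬ (j = m + (i : ℕ) ∨ j = m + (i : ℕ) + 1) := by omega
    simp [h]

/-- The closure from the chain. -/
theorem closure_chain (hm : 2 ≤ m) (hO : ∀ j, j < 2 * m → zz m F j ∈ OF H) {W : Submodule F V}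
    (hz1 : zz m F 1 ∈ W) (hWO : ∀ w ∈ W, w ∈ OF H) (hd : ∀ z ∈ OF H, z ∈ W ∨ z ∈ ort W) : H = ⊤ := by
  apply eq_top_of_OF
  have hmove : ∀ j l, j < 2 * m → l < 2 * m → ω (zz m F j) (zz m F l) ≠ 0 → zz m F j ∈ W → zz m F l ∈ W := by
    intro j l hj hl h hjW
    rcases hd _ (hO l hl) with h1 | h1
    · exact h1
    · exact absurd ((mem_ort.1 h1) _ hjW) h
  have hmove' : ∀ j l, j < 2 * m → l < 2 * m → ω (zz m F j) (zz m F l) ≠ 0 → zz m F l ∈ W → zz m F j ∈ W := by
    intro j l hj hl h hlW
    exact hmove l j hl hj (form_swap_ne h) hlW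
  -- upward
  have hup : ∀ j, j < m → zz m F j ∈ W → j + 1 < m → zz m F (j + 1) ∈ W := by
    intro j hj hjW hj1
    have h1 : zz m F (m + j + 1) ∈ W := hmove _ _ (by omega) (by omega) (form_zz_add' hj) hjW
    have h2 := form_zz_add (m := m) (F := F) hj1
    have e : m + (j + 1) = m + j + 1 := by ring
    rw [e] at h2
    exact hmove' _ _ (by omega) (by omega) h2 h1
  have hdown : ∀ j, j + 1 < m → zz m F (j + 1) ∈ W → zz m F j ∈ W := by
    intro j hj1 hjW
    have h2 := form_zz_add (m := m) (F := F) hj1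
    have e : m + (j + 1) = m + j + 1 := by ring
    rw [e] at h2
    have h1 : zz m F (m + j + 1) ∈ W := hmove _ _ (by omega) (by omega) h2 hjW
    exact hmove' _ _ (by omega) (by omega) (form_zz_add' (by omega)) h1
  have h0 : zz m F 0 ∈ W := hdown 0 (by omega) hz1
  have hall : ∀ j, j < m → zz m F j ∈ W := by
    intro j
    induction j with
    | zero => exact fun _ => h0
    | succ j ih =>
      intro hj
      exact hup j (by omega) (ih (by omega)) hj
  have hall2 : ∀ j, j < 2 * m → zz m F j ∈ W := by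
    intro j hj
    by_cases h1 : j < m
    · exact hall j h1
    · have e : j = m + (j - m) := by omega
      rw [e]
      exact hmove _ _ (by omega) (by omega) (form_zz_add (by omega)) (hall _ (by omega))
  have htop : W = ⊤ := by
    rw [eq_top_iff, ← zz_span (m := m) (F := F), Submodule.span_le]
    rintro _ ⟨j, rfl⟩
    exact hall2 j j.2
  intro x
  exact hWO x (by rw [htop]; trivial)

/-! ### The two generators -/

theorem iota_pow (P R : Matrix (Fin m) (Fin m) F) (h : Rᵀ * P = 1) (n : ℕ) :
    ((iotaG P R h) ^ n).1 = fromBlocks (P ^ n) 0 0 (R ^ n) := by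
  induction n with
  | zero => simp [Matrix.fromBlocks_one]
  | succ n ih =>
    rw [pow_succ, pow_succ, pow_succ]
    change ((iotaG P R h) ^ n).1 * (iotaG P R h).1 = _
    rw [ih]
    change fromBlocks (P ^ n) 0 0 (R ^ n) * fromBlocks P 0 0 R = _
    rw [fromBlocks_multiply]
    simp

theorem sympTr_pow (x : V) (c : F) (n : ℕ) : sympTr x c ^ n = sympTr x ((n : F) * c) := by
  induction n with
  | zero =>
    rw [pow_zero, Nat.cast_zero, zero_mul, sympTr_zero_param]
  | succ n ih =>
    rw [pow_succ, ih, sympTr_add]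
    congr 1
    push_cast
    ring

/-- The parts of the first generator lie in the generated subgroup. -/
theorem parts_mem {s : SpG} {e : V} (hse : s.1 *ᵥ e = e) {n : ℕ} (hn : (n : F) = 0) (hn1 : 1 ≤ n) (hs : s ^ (n - 1) = 1)
    (ha : sympTr e 1 * s ∈ H) : s ∈ H ∧ sympTr e 1 ∈ H := by
  have hcomm : Commute (sympTr e 1) s := by
    have h1 := sympTr_conj s e 1
    rw [hse] at h1
    have h2 : sympTr e 1 * s = s * sympTr e 1 := by
      nth_rw 1 [h1]
      group
    exact h2
  have h1 : (sympTr e 1 * s) ^ n = s := by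
    rw [hcomm.mul_pow, sympTr_pow, hn, zero_mul, sympTr_zero_param, one_mul]
    obtain ⟨k, rfl⟩ : ∃ k, n = k + 1 := ⟨n - 1, by omega⟩
    rw [pow_succ, Nat.add_sub_cancel] at *
    rw [hs, one_mul]
  have h2 : s ∈ H := by
    rw [← h1]
    exact H.pow_mem ha n
  refine ⟨h2, ?_⟩
  have h3 : sympTr e 1 = (sympTr e 1 * s) * s⁻¹ := by group
  rw [h3]
  exact H.mul_mem ha (H.inv_mem h2)

/-- Two generators over fields with at least three elements. -/
theorem two_gen_large [Fintype F] (hm : 2 ≤ m) (hcard : 3 ≤ Fintype.card F) :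
    ∃ a b : SpG, Subgroup.closure ({a, b} : Set SpG) = ⊤ := by
  classical
  obtain ⟨k, hk⟩ := IsCyclic.exists_generator (α := Fˣ)
  obtain ⟨b, hb⟩ := exists_shift (m := m) (F := F)
  have hk0 : (k : F) ≠ 0 := k.ne_zero
  let P : Matrix (Fin m) (Fin m) F := Matrix.diagonal (fun i => if (i : ℕ) = 1 then (k : F) else 1)
  let R : Matrix (Fin m) (Fin m) F := Matrix.diagonal (fun i => if (i : ℕ) = 1 then (k : F)⁻¹ else 1)
  have hRP : Rᵀ * P = 1 := by
    simp only [R, P, Matrix.diagonal_transpose, Matrix.diagonal_mul_diagonal]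
    rw [← Matrix.diagonal_one]
    congr 1
    funext i
    by_cases h : (i : ℕ) = 1
    · simp [h, hk0]
    · simp [h]
  let s : SpG := iotaG P R hRP
  let a : SpG := sympTr (zz m F 0) 1 * s
  refine ⟨a, b, ?_⟩
  set H' := Subgroup.closure ({a, b} : Set SpG) with hH'
  have haH : a ∈ H' := Subgroup.subset_closure (by simp)
  have hbH : b ∈ H' := Subgroup.subset_closure (by simp)
  have hact : ∀ j (hj : j < m), s.1 *ᵥ zz m F j = (if j = 1 then (k : F) else 1) • zz m F j := by
    intro j hj
    rw [zz_lt hj, iotaG_act, mulVec_zero, pr_smul, smul_zero]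
    congr 1
    funext i
    rw [Matrix.mulVec_diagonal]
    by_cases h : i = ⟨j, hj⟩
    · subst h
      simp
    · simp [Pi.single_apply, h]
  have hs0 : s.1 *ᵥ zz m F 0 = zz m F 0 := by
    rw [hact 0 (by omega)]
    simp
  have hs1 : s.1 *ᵥ zz m F 1 = (k : F) • zz m F 1 := by
    rw [hact 1 (by omega)]
    simp
  have hsn : s ^ (Fintype.card F - 1) = 1 := by
    apply Subtype.ext
    rw [iota_pow]
    have hP : P ^ (Fintype.card F - 1) = 1 := by
      simp only [P, Matrix.diagonal_pow]
      rw [← Matrix.diagonal_one]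
      congr 1
      funext i
      by_cases h : (i : ℕ) = 1
      · simp [h, FiniteField.pow_card_sub_one_eq_one _ hk0]
      · simp [h]
    have hR : R ^ (Fintype.card F - 1) = 1 := by
      simp only [R, Matrix.diagonal_pow]
      rw [← Matrix.diagonal_one]
      congr 1
      funext i
      by_cases h : (i : ℕ) = 1
      · simp [h, FiniteField.pow_card_sub_one_eq_one _ (inv_ne_zero hk0)]
      · simp [h]
    rw [hP, hR, Matrix.fromBlocks_one]
    rfl
  obtain ⟨hsH, htH⟩ := parts_mem (H := H') hs0 (FiniteField.cast_card_eq_zero F) (by omega) hsn haH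
  have ht1 : sympTr (zz m F 1) 1 ∈ H' := by
    have h1 := sympTr_conj b (zz m F 0) 1
    rw [hb 0 (by omega)] at h1
    rw [h1]
    exact H'.mul_mem (H'.mul_mem hbH htH) (H'.inv_mem hbH)
  have hz1 : zz m F 1 ∈ OF H' := mem_OF_of_scale one_ne_zero ht1 hsH k hk hs1
  have hO : ∀ j, j < 2 * m → zz m F j ∈ OF H' := by
    have hup : ∀ j, 1 ≤ j → j < 2 * m → zz m F j ∈ OF H' := by
      intro j hj1
      induction j, hj1 using Nat.le_induction with
      | base => exact fun _ => hz1
      | succ j hj ih =>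
        intro hj2
        rw [← hb j hj2]
        exact OF_conj hbH (ih (by omega))
    intro j hj
    by_cases h0 : j = 0
    · subst h0
      have h1 := OF_conj (H'.inv_mem hbH) hz1
      rw [← hb 0 (by omega), sp_inv_mulVec_mulVec] at h1
      exact h1
    · exact hup j (by omega) hj
  obtain ⟨W, hW1, hW2, hW3⟩ := exists_W_large hcard hz1
  exact closure_chain hm hO hW1 hW2 hW3

/-- The auxiliary order-three map over the field of two elements. -/
noncomputable def Lm (hm : 3 ≤ m) (F : Type*) [Field F] : (Fin m → F) →ₗ[F] (Fin m → F) where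
  toFun x i := if i = (⟨1, by omega⟩ : Fin m) then x ⟨2, by omega⟩ else
    if i = (⟨2, by omega⟩ : Fin m) then x ⟨1, by omega⟩ + x ⟨2, by omega⟩ else x i
  map_add' x y := by
    funext i
    simp only [Pi.add_apply]
    split_ifs <;> ring
  map_smul' c x := by
    funext i
    simp only [Pi.smul_apply, smul_eq_mul, RingHom.id_apply]
    split_ifs <;> ring

theorem Lm_apply (hm : 3 ≤ m) (x : Fin m → F) (i : Fin m) : Lm hm F x i = if i = (⟨1, by omega⟩ : Fin m) then x ⟨2, by omega⟩ else
    if i = (⟨2, by omega⟩ : Fin m) then x ⟨1, by omega⟩ + x ⟨2, by omega⟩ else x i := rfl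

theorem Lm_cube [Fintype F] (hF : Fintype.card F = 2) (hm : 3 ≤ m) (x : Fin m → F) : Lm hm F (Lm hm F (Lm hm F x)) = x := by
  have hss := f2_add_self hF
  have h12 : (⟨2, by omega⟩ : Fin m) ≠ ⟨1, by omega⟩ := by
    intro h
    have := congrArg Fin.val h
    simp at this
  funext i
  by_cases h1 : i = (⟨1, by omega⟩ : Fin m)
  · subst h1
    simp only [Lm_apply, if_true, if_neg h12]
    rw [show x ⟨2, by omega⟩ + (x ⟨1, by omega⟩ + x ⟨2, by omega⟩) = x ⟨1, by omega⟩ + (x ⟨2, by omega⟩ + x ⟨2, by omega⟩) by ring, hss, add_zero]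
  by_cases h2 : i = (⟨2, by omega⟩ : Fin m)
  · subst h2
    simp only [Lm_apply, if_true, if_neg h12]
    linear_combination hss (x ⟨1, by omega⟩) + hss (x ⟨2, by omega⟩)
  · simp only [Lm_apply, if_neg h1, if_neg h2]

/-- Two generators over the field of two elements. -/
theorem two_gen_F2 [Fintype F] (hm : 3 ≤ m) (hF : Fintype.card F = 2) :
    ∃ a b : SpG, Subgroup.closure ({a, b} : Set SpG) = ⊤ := by
  classical
  obtain ⟨b, hb⟩ := exists_shift (m := m) (F := F)
  have hss := f2_add_self hF
  let P : Matrix (Fin m) (Fin m) F := LinearMap.toMatrix' (Lm hm F)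
  have hPact : ∀ x, P *ᵥ x = Lm hm F x := fun x => LinearMap.toMatrix'_mulVec _ x
  have hP3 : P * (P * P) = 1 := by
    apply mat_ext_mulVec
    intro x
    rw [← mulVec_mulVec, ← mulVec_mulVec, hPact, hPact, hPact, Lm_cube hF, one_mulVec]
  let R : Matrix (Fin m) (Fin m) F := (P * P)ᵀ
  have hRP : Rᵀ * P = 1 := by
    simp only [R, Matrix.transpose_transpose]
    rw [mul_assoc]
    have := mul_eq_one_comm.1 hP3
    rw [← mul_assoc, mul_assoc] at *
    exact hP3
  let s : SpG := iotaG P R hRP
  let a : SpG := sympTr (zz m F 0) 1 * s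
  refine ⟨a, b, ?_⟩
  set H' := Subgroup.closure ({a, b} : Set SpG) with hH'
  have haH : a ∈ H' := Subgroup.subset_closure (by simp)
  have hbH : b ∈ H' := Subgroup.subset_closure (by simp)
  have hsingle : ∀ i j : Fin m, (Pi.single j (1 : F) : Fin m → F) i = if i = j then 1 else 0 := by
    intro i j
    simp [Pi.single_apply]
  have hs0 : s.1 *ᵥ zz m F 0 = zz m F 0 := by
    rw [zz_lt (by omega), iotaG_act, mulVec_zero, hPact]
    congr 1
    funext i
    rw [Lm_apply]
    by_cases h3 : i = ⟨1, by omega⟩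
    · subst h3
      simp [Pi.single_apply]
    by_cases h4 : i = ⟨2, by omega⟩
    · subst h4
      simp [Pi.single_apply]
    · simp [Pi.single_apply, h3, h4]
  have hs1 : s.1 *ᵥ zz m F 1 = zz m F 2 := by
    rw [zz_lt (j := 1) (by omega), zz_lt (j := 2) (by omega), iotaG_act, mulVec_zero, hPact]
    congr 1
    funext i
    rw [Lm_apply]
    by_cases h3 : i = ⟨1, by omega⟩
    · subst h3
      simp [Pi.single_apply]
    by_cases h4 : i = ⟨2, by omega⟩
    · subst h4
      simp [Pi.single_apply]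
    · simp [Pi.single_apply, h3, h4]
  have hs2 : s.1 *ᵥ zz m F 2 = zz m F 1 + zz m F 2 := by
    rw [zz_lt (j := 1) (by omega), zz_lt (j := 2) (by omega), iotaG_act, mulVec_zero, hPact, pr_add, add_zero]
    congr 1
    funext i
    rw [Lm_apply]
    by_cases h3 : i = ⟨1, by omega⟩
    · subst h3
      simp [Pi.single_apply]
    by_cases h4 : i = ⟨2, by omega⟩
    · subst h4
      simp [Pi.single_apply]
    · simp [Pi.single_apply, h3, h4]
  have hsn : s ^ (4 - 1) = 1 := by
    apply Subtype.ext
    rw [iota_pow]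
    have hP : P ^ (4 - 1) = 1 := by
      rw [show 4 - 1 = 3 by norm_num, pow_succ', pow_two]
      exact hP3
    have hR : R ^ (4 - 1) = 1 := by
      rw [show 4 - 1 = 3 by norm_num]
      simp only [R]
      rw [← Matrix.transpose_pow]
      have h2 : (P * P) ^ 3 = (P * (P * P)) * (P * (P * P)) := by noncomm_ring
      rw [h2, hP3, mul_one, Matrix.transpose_one]
    rw [hP, hR, Matrix.fromBlocks_one]
    rfl
  have h4F : ((4 : ℕ) : F) = 0 := by
    have := hss 1
    push_cast
    linear_combination (2 : F) * this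
  obtain ⟨hsH, htH⟩ := parts_mem (H := H') hs0 h4F (by omega) hsn haH
  have ht1 : sympTr (zz m F 1) 1 ∈ H' := by
    have h1 := sympTr_conj b (zz m F 0) 1
    rw [hb 0 (by omega)] at h1
    rw [h1]
    exact H'.mul_mem (H'.mul_mem hbH htH) (H'.inv_mem hbH)
  have hz1 : zz m F 1 ∈ OF H' := by
    intro c
    rcases f2_cases hF c with rfl | rfl
    · rw [sympTr_zero_param]
      exact H'.one_mem
    · exact ht1
  have hO : ∀ j, j < 2 * m → zz m F j ∈ OF H' := by
    have hup : ∀ j, 1 ≤ j → j < 2 * m → zz m F j ∈ OF H' := by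
      intro j hj1
      induction j, hj1 using Nat.le_induction with
      | base => exact fun _ => hz1
      | succ j hj ih =>
        intro hj2
        rw [← hb j hj2]
        exact OF_conj hbH (ih (by omega))
    intro j hj
    by_cases h0 : j = 0
    · subst h0
      have h1 := OF_conj (H'.inv_mem hbH) hz1
      rw [← hb 0 (by omega), sp_inv_mulVec_mulVec] at h1
      exact h1
    · exact hup j (by omega) hj
  have hline : zz m F 1 + zz m F 2 ∈ OF H' := by
    rw [← hs2]
    exact OF_conj hsH (hO 2 (by omega))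
  have hform : ω (zz m F 1) (zz m F 2) = 0 := by
    rw [form_zz]
    have h1 : ¬ (2 < m ∧ (1 = m + 2 ∨ 1 = m + 2 + 1)) := by omega
    have h2 : ¬ (1 < m ∧ (2 = m + 1 ∨ 2 = m + 1 + 1)) := by omega
    rw [if_neg h1, if_neg h2, sub_zero]
  have hspan : ∀ t : V, t ≠ 0 → ∃ y ∈ OF H', ω y t ≠ 0 := by
    intro t ht
    by_contra hcon
    push Not at hcon
    apply ht
    apply form_right_zero
    intro x
    have hx : x ∈ Submodule.span F (Set.range (fun j : Fin (2 * m) => zz m F (j : ℕ))) := by
      rw [zz_span]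
      trivial
    induction hx using Submodule.span_induction with
    | mem x h =>
      obtain ⟨j, rfl⟩ := h
      exact hcon _ (hO j j.2)
    | zero => simp [Cfsg.sympForm]
    | add x y _ _ hx hy => rw [sympForm_add_left, hx, hy, add_zero]
    | smul a x _ hx => rw [sympForm_smul_left, hx, mul_zero]
  obtain ⟨W, hW1, hW2, hW3⟩ := exists_W_F2 hF (zz_ne 1 (by omega)) (zz_ne 2 (by omega))
    (fun h => by
      have := zz_inj (by omega) (by omega) h
      omega) hz1 (hO 2 (by omega)) hline hform hspan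
  exact closure_chain (by omega) hO hW1 hW2 hW3

/-- Two-element generation of the symplectic group. -/
theorem two_gen [Fintype F] (hm : 2 ≤ m) (hF : m = 2 → 2 < Fintype.card F) :
    ∃ a b : SpG, Subgroup.closure ({a, b} : Set SpG) = ⊤ := by
  by_cases h3 : 3 ≤ Fintype.card F
  · exact two_gen_large hm h3
  · have h2 : Fintype.card F = 2 := by
      have := Fintype.one_lt_card (α := F)
      omega
    have hm3 : 3 ≤ m := by
      by_contra hlt
      have := hF (by omega)
      omega
    exact two_gen_F2 hm3 h2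

end Cfsg.Agent.Lib.Known.Sp3
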