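import Mathlib
import Cfsg.Agent.Lib.Known.SL2Blocks2

set_option autoImplicit false

/-! The `p`-blocks of `SL₂(F)`, `F` of odd characteristic `p`: defect groups. -/

namespace Cfsg.Agent.Lib.Known

open Cfsg Cfsg.Agent.Lib.Char Cfsg.Agent.Lib.Blocks
open scoped ComplexConjugate

variable {F : Type*} [Field F] [Fintype F] [DecidableEq F]

open scoped _root_.Classical in
theorem sum_M1_conj (h2 : (2 : F) ≠ 0) :
    ∑ χ : IrrCharacter (SL2 F), (χ : SL2 F → ℂ) (sl2M1 F) * conj ((χ : SL2 F → ℂ) 1) = 0 := by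
  apply sum_irr_mul_conj_of_not_isConj
  intro h
  have := isConj_one_right.mp h.symm
  exact sl2M1_ne_one h2 this

open scoped _root_.Classical in
theorem sum_one_conj :
    ∑ χ : IrrCharacter (SL2 F), (χ : SL2 F → ℂ) 1 * conj ((χ : SL2 F → ℂ) 1) = (Nat.card (SL2 F) : ℂ) := by
  have := sum_irr_mul_conj_of_isConj (IsConj.refl (1 : SL2 F))
  rw [this]
  congr 1
  rw [Subgroup.centralizer_eq_top_iff_subset.mpr (by simp [Subgroup.center]), ]
  · exact Nat.card_congr Subgroup.topEquiv.toEquiv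

open scoped _root_.Classical in
/-- The sum of squares of the degrees over the characters non-trivial on `-1`. -/
theorem sum_S₃ (h2 : (2 : F) ≠ 0) :
    ∑ χ ∈ Finset.univ.filter (· ∈ blockS₃ F), (χ : SL2 F → ℂ) 1 * conj ((χ : SL2 F → ℂ) 1) = (Nat.card (SL2 F) : ℂ) / 2 := by
  have h := sum_one_conj (F := F)
  have h' := sum_M1_conj (F := F) h2
  have e : ∑ χ : IrrCharacter (SL2 F), ((χ : SL2 F → ℂ) 1 * conj ((χ : SL2 F → ℂ) 1) - (χ : SL2 F → ℂ) (sl2M1 F) * conj ((χ : SL2 F → ℂ) 1)) =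
      2 * ∑ χ ∈ Finset.univ.filter (· ∈ blockS₃ F), (χ : SL2 F → ℂ) 1 * conj ((χ : SL2 F → ℂ) 1) := by
    rw [Finset.mul_sum, Finset.sum_filter]
    apply Finset.sum_congr rfl
    intro χ _
    by_cases hχ : χ ∈ blockS₃ F
    · rw [if_pos hχ]
      have : (χ : SL2 F → ℂ) (sl2M1 F) = - (χ : SL2 F → ℂ) 1 := hχ
      rw [this]
      ring
    · rw [if_neg hχ]
      rcases eps_cases χ with h3 | h3
      · rw [h3]
        ring
      · exact absurd h3 hχ
  rw [Finset.sum_sub_distrib, h, h'] at e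
  rw [sub_zero] at e
  rw [e]
  field_simp

open scoped _root_.Classical in
theorem sum_S₂ (h2 : (2 : F) ≠ 0) :
    ∑ χ ∈ Finset.univ.filter (· ∈ blockS₂ F), (χ : SL2 F → ℂ) 1 * conj ((χ : SL2 F → ℂ) 1) =
      (Nat.card (SL2 F) : ℂ) / 2 - (Fintype.card F : ℂ) ^ 2 := by
  have h := sum_one_conj (F := F)
  have h3 := sum_S₃ (F := F) h2
  let St : IrrCharacter (SL2 F) := ⟨sl2St F, isIrr_sl2St⟩
  have hSt1 : (St : SL2 F → ℂ) 1 = (Fintype.card F : ℂ) := sl2St_apply_one
  have hpart : (Finset.univ : Finset (IrrCharacter (SL2 F))) =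
      Finset.univ.filter (· ∈ blockS₂ F) ∪ (Finset.univ.filter (· ∈ blockS₃ F) ∪ {St}) := by
    ext χ
    simp only [Finset.mem_univ, Finset.mem_union, Finset.mem_filter, true_and, Finset.mem_singleton, true_iff]
    by_cases hd : (χ : SL2 F → ℂ) 1 = (Fintype.card F : ℂ)
    · exact Or.inr (Or.inr (Subtype.ext (sl2_eq_St_of_deg χ.2 hd)))
    · rcases eps_cases χ with h4 | h4
      · exact Or.inl ⟨h4, hd⟩
      · exact Or.inr (Or.inl h4)
  have hd1 : Disjoint (Finset.univ.filter (· ∈ blockS₂ F)) (Finset.univ.filter (· ∈ blockS₃ F) ∪ ({St} : Finset (IrrCharacter (SL2 F)))) := by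
    rw [Finset.disjoint_left]
    intro χ h4 h5
    simp only [Finset.mem_univ, Finset.mem_union, Finset.mem_filter, true_and, Finset.mem_singleton] at h4 h5
    rcases h5 with h5 | rfl
    · have e1 := h4.1
      have e2 : (χ : SL2 F → ℂ) (sl2M1 F) = - (χ : SL2 F → ℂ) 1 := h5
      rw [e1] at e2
      apply irr_ne_zero χ
      linear_combination e2 / 2
    · exact h4.2 hSt1
  have hd2 : Disjoint (Finset.univ.filter (· ∈ blockS₃ F)) ({St} : Finset (IrrCharacter (SL2 F))) := by
    rw [Finset.disjoint_singleton_right]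
    simp only [Finset.mem_filter, Finset.mem_univ, true_and]
    exact not_S₃_of_deg hSt1
  rw [hpart, Finset.sum_union hd1, Finset.sum_union hd2, Finset.sum_singleton, h3, hSt1] at h
  have hc : conj (Fintype.card F : ℂ) = (Fintype.card F : ℂ) := Complex.conj_natCast _
  rw [hc] at h
  linear_combination h

/-- There is a character non-trivial on `-1`. -/
theorem exists_S₃ (h2 : (2 : F) ≠ 0) : ∃ χ, χ ∈ blockS₃ F := by
  classical
  by_contra hcon
  push Not at hcon
  have h := sum_S₃ (F := F) h2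
  rw [Finset.filter_false_of_mem (fun χ _ => hcon χ), Finset.sum_empty] at h
  have h1 : (Nat.card (SL2 F) : ℂ) ≠ 0 := by exact_mod_cast Nat.card_pos.ne'
  apply h1
  linear_combination -2 * h

section blocks

variable {M : Ideal AlgInt} {p : ℕ} (D : SL2OddData F)

include D in
/-- The classification of the blocks. -/
theorem isPBlock_iff (hM : IsPModular p M) [Fact p.Prime] (hp2 : p ≠ 2) (hpq : p ∣ Fintype.card F) (hodd : Odd (Fintype.card F))
    (B : Set (IrrCharacter (SL2 F))) : IsPBlock M B ↔ B = blockS₁ F ∨ B = blockS₂ F ∨ B = blockS₃ F := by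
  have h2 := two_ne_zero_of_odd hodd
  constructor
  · rintro ⟨χ, rfl⟩
    by_cases hd : (χ : SL2 F → ℂ) 1 = (Fintype.card F : ℂ)
    · left
      rw [sl2_eq_St_of_deg χ.2 hd]
      exact blockOf_St hM hpq
    · rcases eps_cases χ with h3 | h3
      · exact Or.inr (Or.inl (blockOf_of_S₂ D hM hp2 hpq hodd ⟨h3, hd⟩))
      · exact Or.inr (Or.inr (blockOf_of_S₃ D hM hp2 hpq hodd h3))
  · rintro (rfl | rfl | rfl)
    · exact ⟨⟨sl2St F, isIrr_sl2St⟩, (blockOf_St hM hpq).symm⟩
    · let o : IrrCharacter (SL2 F) := ⟨sl2One F, isIrr_sl2One⟩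
      have ho : o ∈ blockS₂ F := by
        refine ⟨rfl, ?_⟩
        change (1 : ℂ) ≠ _
        intro h
        have h3 : Fintype.card F = 1 := by exact_mod_cast h.symm
        have : 1 < Fintype.card F := Fintype.one_lt_card
        omega
      exact ⟨o, (blockOf_of_S₂ D hM hp2 hpq hodd ho).symm⟩
    · obtain ⟨χ, hχ⟩ := exists_S₃ h2
      exact ⟨χ, (blockOf_of_S₃ D hM hp2 hpq hodd hχ).symm⟩

include D in
theorem card_blocks (hM : IsPModular p M) [Fact p.Prime] (hp2 : p ≠ 2) (hpq : p ∣ Fintype.card F) (hodd : Odd (Fintype.card F)) :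
    Nat.card {B : Set (IrrCharacter (SL2 F)) // IsPBlock M B} = 3 := by
  classical
  have h2 := two_ne_zero_of_odd hodd
  let St : IrrCharacter (SL2 F) := ⟨sl2St F, isIrr_sl2St⟩
  have hSt1 : (St : SL2 F → ℂ) 1 = (Fintype.card F : ℂ) := sl2St_apply_one
  let o : IrrCharacter (SL2 F) := ⟨sl2One F, isIrr_sl2One⟩
  have ho : o ∈ blockS₂ F := by
    refine ⟨rfl, ?_⟩
    change (1 : ℂ) ≠ _
    intro h
    have h3 : Fintype.card F = 1 := by exact_mod_cast h.symm
    have : 1 < Fintype.card F := Fintype.one_lt_card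
    omega
  have h12 : blockS₁ F ≠ blockS₂ F := by
    intro h
    have : St ∈ blockS₂ F := by
      rw [← h]
      exact hSt1
    exact this.2 hSt1
  have h13 : blockS₁ F ≠ blockS₃ F := by
    intro h
    have : St ∈ blockS₃ F := by
      rw [← h]
      exact hSt1
    exact not_S₃_of_deg hSt1 this
  have h23 : blockS₂ F ≠ blockS₃ F := by
    intro h
    have h5 : o ∈ blockS₃ F := by
      rw [← h]
      exact ho
    have h6 : (1 : ℂ) = -1 := h5
    norm_num at h6
  have hset : {B : Set (IrrCharacter (SL2 F)) | IsPBlock M B} = {blockS₁ F, blockS₂ F, blockS₃ F} := by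
    ext B
    simp only [Set.mem_setOf_eq, Set.mem_insert_iff, Set.mem_singleton_iff]
    exact isPBlock_iff D hM hp2 hpq hodd B
  have : Nat.card {B : Set (IrrCharacter (SL2 F)) // IsPBlock M B} = Nat.card ({B : Set (IrrCharacter (SL2 F)) | IsPBlock M B} : Set _) := rfl
  rw [this, hset, Nat.card_coe_set_eq, Set.ncard_eq_toFinset_card']
  simp only [Set.toFinset_insert, Set.toFinset_singleton]
  rw [Finset.card_insert_of_notMem, Finset.card_pair h23]
  simp [h12, h13]

open scoped _root_.Classical in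
theorem blockCoeff_one (B : Set (IrrCharacter (SL2 F))) :
    blockCoeff B (1 : SL2 F) = (Nat.card (SL2 F) : ℂ)⁻¹ *
      ∑ χ ∈ Finset.univ.filter (· ∈ B), (χ : SL2 F → ℂ) 1 * conj ((χ : SL2 F → ℂ) 1) := by
  unfold blockCoeff
  congr 1
  rw [← finsum_mem_coe_finset]
  exact finsum_mem_congr (by ext χ; simp) (fun _ _ => rfl)

theorem isDefectGroup_of_one (hM : IsPModular p M) [Fact p.Prime] {B : Set (IrrCharacter (SL2 F))}
    (h1 : MemLocalRing M (blockCoeff B (1 : SL2 F))) (h2 : ¬ MemLocalIdeal M (blockCoeff B (1 : SL2 F)))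
    (P : Sylow p (SL2 F)) : IsDefectGroup p M B (P : Subgroup (SL2 F)) := by
  haveI := isPrime_of_modular hM
  rw [isDefectGroup_iff]
  refine ⟨1, ⟨h1, h2, fun χ _ => ?_⟩, ?_⟩
  · rw [centralChar_one]
    exact not_memLocalIdeal_one
  · have hle : (P : Subgroup (SL2 F)) ≤ Subgroup.centralizer ({1} : Set (SL2 F)) := by
      intro x _
      rw [Subgroup.mem_centralizer_singleton_iff]
      simp
    refine ⟨P.subtype hle, ?_⟩
    rw [Sylow.coe_subtype, Subgroup.map_subgroupOf_eq_of_le hle]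

theorem half_not_memLocalIdeal (hM : IsPModular p M) (hp2 : p ≠ 2) : ¬ MemLocalIdeal M (1 / 2 : ℂ) := by
  haveI := isPrime_of_modular hM
  intro h
  have h3 := MemLocalIdeal.mul_left (MemLocalRing.natCast (M := M) 2) h
  have e : ((2 : ℕ) : ℂ) * (1 / 2) = 1 := by norm_num
  rw [e] at h3
  exact not_memLocalIdeal_one h3

theorem defect_S₃ (hM : IsPModular p M) [Fact p.Prime] (hp2 : p ≠ 2) (hodd : Odd (Fintype.card F)) (P : Sylow p (SL2 F)) :
    IsDefectGroup p M (blockS₃ F) (P : Subgroup (SL2 F)) := by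
  classical
  have h2 := two_ne_zero_of_odd hodd
  have hne : (Nat.card (SL2 F) : ℂ) ≠ 0 := by exact_mod_cast Nat.card_pos.ne'
  have e : blockCoeff (blockS₃ F) (1 : SL2 F) = 1 / 2 := by
    rw [blockCoeff_one, sum_S₃ h2]
    field_simp
  apply isDefectGroup_of_one hM
  · rw [e]
    exact half_memLocalRing hM hp2
  · rw [e]
    exact half_not_memLocalIdeal hM hp2

theorem defect_S₂ (hM : IsPModular p M) [Fact p.Prime] (hp2 : p ≠ 2) (hpq : p ∣ Fintype.card F) (hodd : Odd (Fintype.card F)) (P : Sylow p (SL2 F)) :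
    IsDefectGroup p M (blockS₂ F) (P : Subgroup (SL2 F)) := by
  classical
  haveI := isPrime_of_modular hM
  have h2 := two_ne_zero_of_odd hodd
  have hne : (Nat.card (SL2 F) : ℂ) ≠ 0 := by exact_mod_cast Nat.card_pos.ne'
  have hq : (Fintype.card F : ℂ) ≠ 0 := by exact_mod_cast Fintype.card_pos.ne'
  have hnd : ¬ p ∣ (Fintype.card F ^ 2 - 1) := by
    intro h
    have h4 : p ∣ Fintype.card F ^ 2 := hpq.trans (dvd_pow_self _ two_ne_zero)
    have h6 : Fintype.card F ^ 2 - 1 + 1 = Fintype.card F ^ 2 := Nat.sub_add_cancel (Nat.one_le_pow _ _ Fintype.card_pos)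
    rw [← h6] at h4
    have h5 : p ∣ 1 := (Nat.dvd_add_right h).mp h4
    exact hM.1.one_lt.ne' (Nat.dvd_one.mp h5)
  have hG : (Nat.card (SL2 F) : ℂ) = (Fintype.card F : ℂ) * ((Fintype.card F : ℂ) ^ 2 - 1) := by
    rw [card_sl2]
    push_cast
    rw [cast_q_sq_sub_one]
  have hq2 : (Fintype.card F : ℂ) ^ 2 - 1 ≠ 0 := by
    intro h
    rw [h, mul_zero] at hG
    exact hne hG
  have e : blockCoeff (blockS₂ F) (1 : SL2 F) = 1 / 2 - (Fintype.card F : ℂ) * ((Fintype.card F ^ 2 - 1 : ℕ) : ℂ)⁻¹ := by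
    rw [blockCoeff_one, sum_S₂ h2, cast_q_sq_sub_one, hG]
    field_simp
  have hinv := inv_natCast_memLocalRing hM hnd
  have hQ : MemLocalIdeal M (Fintype.card F : ℂ) := (natCast_memLocalIdeal_iff hM _).mpr hpq
  have hQi := MemLocalIdeal.mul_right hQ hinv
  apply isDefectGroup_of_one hM
  · rw [e]
    exact MemLocalRing.sub (half_memLocalRing hM hp2) (MemLocalIdeal.memLocalRing hQi)
  · rw [e]
    intro h
    apply half_not_memLocalIdeal hM hp2
    have := MemLocalIdeal.add h hQi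
    simpa using this

end blocks

end Cfsg.Agent.Lib.Known
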