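import Cfsg.Agent.Lib.H14.SpBN
import Cfsg.Agent.Lib.Known.BNUnip
import Cfsg.Agent.Lib.Classical.SpOrder

/-!
# Steinberg's count of the `p`-elements for monomial `(B,N)`-pairs with adjacent generators
-/

set_option autoImplicit false
set_option linter.unusedVariables false
set_option linter.unusedSectionVars false
set_option linter.unusedSimpArgs false

namespace Cfsg.Agent.Lib.Known.SpU

open Cfsg Cfsg.Agent.Lib.BN Cfsg.Agent.Lib.H14.MonBN Cfsg.Agent.Lib.Known.BNSt Equiv

section Gen

variable {I : Type*} [Fintype I] [DecidableEq I] {F : Type*} [Field F] {Γ : Type*} [Group Γ]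
  {ρ : Γ →* Matrix I I F} {pos : I → ℕ} {ι : Type*} [Fintype ι] [DecidableEq ι]

/-- A gap in the positions not crossed by the generators in `J`. -/
def Cut (d : Data ρ pos ι) (J : Finset ι) (t : ℕ) : Prop := ∀ i ∈ J, ∀ x, pos x ≤ t → pos (d.π i x) ≤ t

/-- Two indices are separated by a gap. -/
def Sep (d : Data ρ pos ι) (J : Finset ι) (k l : I) : Prop := ∃ t, Cut d J t ∧ pos k ≤ t ∧ t < pos l

/-- Block upper triangular matrices. -/
def BU (d : Data ρ pos ι) (J : Finset ι) (M : Matrix I I F) : Prop := ∀ k l, M k l ≠ 0 → ¬ Sep d J l k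

/-- Strictly block upper triangular matrices. -/
def SU (d : Data ρ pos ι) (J : Finset ι) (M : Matrix I I F) : Prop := ∀ k l, M k l ≠ 0 → Sep d J k l

variable {d : Data ρ pos ι} {J : Finset ι}

theorem exists_of_mul_ne {M N : Matrix I I F} {k l : I} (h : (M * N) k l ≠ 0) : ∃ m, M k m ≠ 0 ∧ N m l ≠ 0 := by
  rw [Matrix.mul_apply] at h
  obtain ⟨m, _, hm⟩ := Finset.exists_ne_zero_of_sum_ne_zero h
  exact ⟨m, left_ne_zero_of_mul hm, right_ne_zero_of_mul hm⟩

theorem BU_mul {M N : Matrix I I F} (hM : BU d J M) (hN : BU d J N) : BU d J (M * N) := by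
  intro k l h hs
  obtain ⟨m, h1, h2⟩ := exists_of_mul_ne h
  obtain ⟨t, ht, hl, hk⟩ := hs
  by_cases hm : pos m ≤ t
  · exact hM k m h1 ⟨t, ht, hm, hk⟩
  · exact hN m l h2 ⟨t, ht, hl, by omega⟩

theorem BU_SU {M N : Matrix I I F} (hM : BU d J M) (hN : SU d J N) : SU d J (M * N) := by
  intro k l h
  obtain ⟨m, h1, h2⟩ := exists_of_mul_ne h
  obtain ⟨t, ht, hm, hl⟩ := hN m l h2
  by_cases hk : pos k ≤ t
  · exact ⟨t, ht, hk, hl⟩
  · exact absurd ⟨t, ht, hm, by omega⟩ (hM k m h1)

theorem SU_BU {M N : Matrix I I F} (hM : SU d J M) (hN : BU d J N) : SU d J (M * N) := by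
  intro k l h
  obtain ⟨m, h1, h2⟩ := exists_of_mul_ne h
  obtain ⟨t, ht, hk, hm⟩ := hM k m h1
  by_cases hl : t < pos l
  · exact ⟨t, ht, hk, hl⟩
  · exact absurd ⟨t, ht, by omega, hm⟩ (hN m l h2)

theorem SU_add {M N : Matrix I I F} (hM : SU d J M) (hN : SU d J N) : SU d J (M + N) := by
  intro k l h
  by_cases h1 : M k l = 0
  · apply hN
    intro h2
    apply h
    rw [Matrix.add_apply, h1, h2, add_zero]
  · exact hM k l h1

theorem SU_BU' {M : Matrix I I F} (hM : SU d J M) : BU d J M := by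
  intro k l h hs
  obtain ⟨t, _, h1, h2⟩ := hM k l h
  obtain ⟨t', _, h3, h4⟩ := hs
  omega

theorem BU_one : BU d J (1 : Matrix I I F) := by
  intro k l h hs
  have : k = l := by
    by_contra hne
    exact h (Matrix.one_apply_ne hne)
  subst this
  obtain ⟨t, _, h1, h2⟩ := hs
  omega

theorem SU_zero : SU d J (0 : Matrix I I F) := by
  intro k l h
  exact absurd rfl h

theorem inv_mem_pow [Finite Γ] (S : Submonoid Γ) {g : Γ} (hg : g ∈ S) : g⁻¹ ∈ S := by
  have h : g⁻¹ = g ^ (orderOf g - 1) := by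
    apply inv_eq_of_mul_eq_one_right
    rw [← pow_succ', Nat.sub_add_cancel (orderOf_pos g), pow_orderOf_eq_one]
  rw [h]
  exact S.pow_mem hg _

variable [Finite Γ]

variable (d J) in
/-- The block upper triangular subgroup. -/
def QJ : Subgroup Γ where
  carrier := {g | BU d J (ρ g)}
  mul_mem' := by
    intro a b ha hb
    change BU d J (ρ (a * b))
    rw [map_mul]
    exact BU_mul ha hb
  one_mem' := by
    change BU d J (ρ 1)
    rw [map_one]
    exact BU_one
  inv_mem' := by
    intro g hg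
    let S : Submonoid Γ :=
      { carrier := {g | BU d J (ρ g)}
        mul_mem' := by
          intro a b ha hb
          change BU d J (ρ (a * b))
          rw [map_mul]
          exact BU_mul ha hb
        one_mem' := by
          change BU d J (ρ 1)
          rw [map_one]
          exact BU_one }
    exact inv_mem_pow S hg

variable (d J) in
/-- The unipotent radical of the parabolic. -/
def RJ : Subgroup Γ where
  carrier := {g | SU d J (ρ g - 1)}
  mul_mem' := by
    intro a b ha hb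
    change SU d J (ρ (a * b) - 1)
    have e : ρ (a * b) - 1 = (ρ a - 1) * (ρ b - 1) + ((ρ a - 1) + (ρ b - 1)) := by
      rw [map_mul]
      noncomm_ring
    rw [e]
    exact SU_add (SU_BU ha (SU_BU' hb)) (SU_add ha hb)
  one_mem' := by
    change SU d J (ρ 1 - 1)
    rw [map_one, sub_self]
    exact SU_zero
  inv_mem' := by
    intro g hg
    let S : Submonoid Γ :=
      { carrier := {g | SU d J (ρ g - 1)}
        mul_mem' := by
          intro a b ha hb
          change SU d J (ρ (a * b) - 1)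
          have e : ρ (a * b) - 1 = (ρ a - 1) * (ρ b - 1) + ((ρ a - 1) + (ρ b - 1)) := by
            rw [map_mul]
            noncomm_ring
          rw [e]
          exact SU_add (SU_BU ha (SU_BU' hb)) (SU_add ha hb)
        one_mem' := by
          change SU d J (ρ 1 - 1)
          rw [map_one, sub_self]
          exact SU_zero }
    exact inv_mem_pow S hg

theorem mem_QJ {g : Γ} : g ∈ QJ d J ↔ BU d J (ρ g) := Iff.rfl

theorem mem_RJ {g : Γ} : g ∈ RJ d J ↔ SU d J (ρ g - 1) := Iff.rfl

theorem RJ_conj {g r : Γ} (hg : g ∈ QJ d J) (hr : r ∈ RJ d J) : g * r * g⁻¹ ∈ RJ d J := by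
  rw [mem_RJ]
  have hg' : g⁻¹ ∈ QJ d J := (QJ d J).inv_mem hg
  have e : ρ (g * r * g⁻¹) - 1 = ρ g * (ρ r - 1) * ρ g⁻¹ := by
    have h1 : ρ g * ρ g⁻¹ = 1 := rho_mul_inv ρ g
    rw [map_mul, map_mul]
    calc ρ g * ρ r * ρ g⁻¹ - 1 = ρ g * ρ r * ρ g⁻¹ - ρ g * ρ g⁻¹ := by rw [h1]
      _ = ρ g * (ρ r - 1) * ρ g⁻¹ := by noncomm_ring
  rw [e]
  exact SU_BU (BU_SU hg hr) hg'

theorem upB_le_QJ : upB ρ pos ≤ QJ d J := by
  intro g hg k l h hs
  obtain ⟨t, _, h1, h2⟩ := hs
  exact h (hg k l (by omega))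

theorem s_mem_QJ {i : ι} (hi : i ∈ J) : d.s i ∈ QJ d J := by
  intro k l h hs
  have h1 : l = d.π i k := ((d.s_mon i) k l).1 h
  obtain ⟨t, ht, h2, h3⟩ := hs
  have h4 := ht i hi l h2
  rw [h1] at h4
  have h5 : d.π i (d.π i k) = k := by
    have h6 := congrArg (fun f : Perm I => f k) (d.π_sq i)
    simpa using h6
  rw [h5] at h4
  omega

theorem RJ_le_uU : RJ d J ≤ uU ρ pos d.hpos := by
  intro r hr
  have hr' : SU d J (ρ r - 1) := hr
  refine ⟨?_, ?_⟩
  · intro a c hac
    by_contra hne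
    have hac' : a ≠ c := by
      rintro rfl
      exact lt_irrefl _ hac
    have h1 : (ρ r - 1) a c ≠ 0 := by
      rw [Matrix.sub_apply, Matrix.one_apply_ne hac', sub_zero]
      exact hne
    obtain ⟨t, _, h2, h3⟩ := hr' a c h1
    omega
  · intro a
    by_contra hne
    have h1 : (ρ r - 1) a a ≠ 0 := by
      rw [Matrix.sub_apply, Matrix.one_apply_eq]
      exact sub_ne_zero.2 hne
    obtain ⟨t, _, h2, h3⟩ := hr' a a h1
    omega

end Gen

section Pair

variable {I : Type*} [Fintype I] [DecidableEq I] {F : Type*} [Field F] {Γ : Type*} [Group Γ]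
  {ρ : Γ →* Matrix I I F} {pos : I → ℕ} {ι : Type*} [Fintype ι] [DecidableEq ι] (d : Data ρ pos ι)

theorem idK : (MonoidHom.id Γ).ker ≤ upB ρ pos ⊓ monN ρ := by
  intro x hx
  have h : x = 1 := hx
  rw [h]
  exact Subgroup.one_mem _

/-- The pair itself. -/
abbrev PP : BNPair Γ := Data.qb d (MonoidHom.id Γ) Function.surjective_id idK

theorem memB {x : Γ} : x ∈ (PP d).B ↔ x ∈ upB ρ pos :=
  Data.mem_qb_B d (MonoidHom.id Γ) Function.surjective_id idK

theorem mem_P_N {x : Γ} (h : x ∈ monN ρ) : x ∈ (PP d).N := ⟨x, h, rfl⟩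

theorem mem_P_S (i : ι) : d.s i ∈ (PP d).S := ⟨d.s i, ⟨i, rfl⟩, rfl⟩

theorem of_P_N {x : Γ} (h : x ∈ (PP d).N) : x ∈ monN ρ := by
  obtain ⟨y, hy, rfl⟩ := h
  exact hy

/-- The descents of a monomial element reverse the corresponding root positions. -/
theorem top_rev {n : Γ} {τ : Perm I} (hn : MW (ρ n) τ) (i : ι) (hlt : len (PP d) (n * d.s i) < len (PP d) n) :
    ∀ k l, d.D i k l → pos (τ⁻¹ l) < pos (τ⁻¹ k) := by
  have hs := mem_P_S d i
  have hnN : n ∈ (PP d).N := mem_P_N d ⟨τ, hn⟩
  have hπ2 : ∀ x, d.π i (d.π i x) = x := by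
    intro x
    have h6 := congrArg (fun f : Perm I => f x) (d.π_sq i)
    simpa using h6
  rcases d.dich i n⁻¹ τ⁻¹ hn.inv with hinc | hdec
  · exfalso
    have hmN : n * d.s i ∈ (PP d).N := (PP d).N.mul_mem hnN (S_mem_N hs)
    have hle : len (PP d) (n * d.s i) ≤ len (PP d) (n * d.s i * d.s i) := by
      rw [len_mul_sq hs hnN]
      exact hlt.le
    obtain ⟨x, hx, k, l, hD, hne⟩ := d.ne i
    obtain ⟨x', hx', hR⟩ := d.R i x hx (Data.X_ne_one d i hD hne)
    have hb : x' ∈ (PP d).B := (memB d).2 (Data.X_le d i hx')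
    have h1 := t3_up_right hs hmN hb hle
    have hu : (n * d.s i) * (x' * d.s i * x) * (n * d.s i)⁻¹ ∈ upB ρ pos := by
      have hmw : MW (ρ (n * d.s i)) (d.π i * τ) := by
        rw [map_mul]
        exact hn.mul (d.s_mon i)
      have h2 := conj_upper (y := (n * d.s i)⁻¹) (M := x' * d.s i * x) (pos := pos) hmw.inv (by
        intro a c hac hnz
        have hD' := hR a c hac hnz
        have h3 := d.D_rev i c a hD'
        have h5 := d.D_lt i c a hD'
        have hD'' : d.D i (d.π i a) (d.π i c) := by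
          by_contra hnot
          have h4 := d.D_inv i _ _ h3 hnot
          rw [hπ2, hπ2] at h4
          omega
        have h6 := hinc _ _ hD''
        have e : ∀ y, (d.π i * τ)⁻¹ y = τ⁻¹ (d.π i y) := by
          intro y
          rw [mul_inv_rev, Perm.mul_apply, Data.π_inv]
        rw [e, e]
        exact h6)
      simpa using h2
    have h3 : DC (PP d) (n * d.s i) (n * d.s i * x' * d.s i) := by
      refine ⟨_, (memB d).2 hu, x⁻¹, (memB d).2 ((upB ρ pos).inv_mem (Data.X_le d i hx)), ?_⟩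
      group
    have h4 := h3.trans h1.symm
    have h5 := dc_unique hmN ((PP d).N.mul_mem hmN (S_mem_N hs)) h4
    have h6 : d.s i ∈ (PP d).B := by
      have e : (n * d.s i)⁻¹ * (n * d.s i * d.s i) = d.s i := by group
      rwa [e] at h5
    exact S_not_mem_B hs h6
  · exact hdec

variable [Finite Γ]

/-- The elements of `W_J` preserve the blocks. -/
theorem WJ_perm {J : Finset ι} {g : Γ} (hg : g ∈ WJ (PP d) (JS (fun i => MonoidHom.id Γ (d.s i)) J)) :
    ∃ τ : Perm I, MW (ρ g) τ ∧ ∀ t, Cut d J t → ∀ x, (pos (τ x) ≤ t ↔ pos x ≤ t) := by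
  let W' : Subgroup Γ :=
    { carrier := {g | ∃ τ : Perm I, MW (ρ g) τ ∧ ∀ t, Cut d J t → ∀ x, (pos (τ x) ≤ t ↔ pos x ≤ t)}
      mul_mem' := by
        rintro a b ⟨σ, h1, h2⟩ ⟨τ, h3, h4⟩
        refine ⟨τ * σ, ?_, ?_⟩
        · rw [map_mul]
          exact h1.mul h3
        · intro t ht x
          rw [Perm.mul_apply, h4 t ht, h2 t ht]
      one_mem' := by
        refine ⟨1, ?_, fun t _ x => Iff.rfl⟩
        intro r c
        rw [map_one]
        by_cases h : r = c
        · subst h
          simp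
        · have : c ≠ r := fun e => h e.symm
          simp [Matrix.one_apply_ne h, this]
      inv_mem' := by
        rintro a ⟨σ, h1, h2⟩
        refine ⟨σ⁻¹, h1.inv, ?_⟩
        intro t ht x
        have := h2 t ht (σ⁻¹ x)
        have e : σ (σ⁻¹ x) = x := by simp
        rw [e] at this
        exact this.symm }
  have hle : WJ (PP d) (JS (fun i => MonoidHom.id Γ (d.s i)) J) ≤ W' := by
    apply sup_le
    · rw [Subgroup.closure_le]
      rintro _ ⟨i, hi, rfl⟩
      refine ⟨d.π i, d.s_mon i, ?_⟩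
      intro t ht x
      have hi' : i ∈ J := hi
      constructor
      · intro h
        have h1 := ht i hi' _ h
        have h2 : d.π i (d.π i x) = x := by
          have h6 := congrArg (fun f : Perm I => f x) (d.π_sq i)
          simpa using h6
        rwa [h2] at h1
      · exact ht i hi' x
    · rintro g ⟨h1, h2⟩
      obtain ⟨τ, hτ⟩ := of_P_N d h2
      obtain rfl := perm_eq_one d.hpos ((memB d).1 h1) hτ
      exact ⟨1, hτ, fun t _ x => Iff.rfl⟩
  exact hle hg

/-- Reversal on the blocks. -/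
theorem block_rev (hadj : ∀ i x, pos (d.π i x) ≤ pos x + 1 ∧ pos x ≤ pos (d.π i x) + 1) {J : Finset ι} {τ : Perm I}
    (hD : ∀ i ∈ J, ∀ k l, d.D i k l → pos (τ⁻¹ l) < pos (τ⁻¹ k)) :
    ∀ (e : ℕ) (k l : I), pos l = pos k + e + 1 → ¬ Sep d J k l → pos (τ⁻¹ l) < pos (τ⁻¹ k) := by
  intro e
  induction e with
  | zero =>
    intro k l h hs
    have hc : ¬ Cut d J (pos k) := fun hc => hs ⟨pos k, hc, le_rfl, by omega⟩
    unfold Cut at hc
    push Not at hc
    obtain ⟨i, hi, x, hx, hx'⟩ := hc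
    have h1 := hadj i x
    have hxk : x = k := d.hpos (by omega)
    subst hxk
    have hl : l = d.π i x := d.hpos (by omega)
    subst hl
    apply hD i hi
    by_contra hnot
    have h4 := d.D_inv i x (d.π i x) (by omega) hnot
    have h2 : d.π i (d.π i x) = x := by
      have h6 := congrArg (fun f : Perm I => f x) (d.π_sq i)
      simpa using h6
    rw [h2] at h4
    omega
  | succ e ih =>
    intro k l h hs
    have hc : ¬ Cut d J (pos k) := fun hc => hs ⟨pos k, hc, le_rfl, by omega⟩
    unfold Cut at hc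
    push Not at hc
    obtain ⟨i, hi, x, hx, hx'⟩ := hc
    have h1 := hadj i x
    have hxk : x = k := d.hpos (by omega)
    subst hxk
    have h3 : pos (τ⁻¹ (d.π i x)) < pos (τ⁻¹ x) := by
      apply hD i hi
      by_contra hnot
      have h4 := d.D_inv i x (d.π i x) (by omega) hnot
      have h2 : d.π i (d.π i x) = x := by
        have h6 := congrArg (fun f : Perm I => f x) (d.π_sq i)
        simpa using h6
      rw [h2] at h4
      omega
    have h5 := ih (d.π i x) l (by omega) (by
      rintro ⟨t, ht, h6, h7⟩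
      exact hs ⟨t, ht, by omega, h7⟩)
    omega

/-- The Levi criterion. -/
theorem stab_crit {J : Finset ι} (hadj : ∀ i x, pos (d.π i x) ≤ pos x + 1 ∧ pos x ≤ pos (d.π i x) + 1) {n : Γ}
    (hn : n ∈ WJ (PP d) (JS (fun i => MonoidHom.id Γ (d.s i)) J))
    (htop : TopIn (PP d) (JS (fun i => MonoidHom.id Γ (d.s i)) J) n) {t : Γ} (ht : t ∈ upB ρ pos) :
    n⁻¹ * t * n ∈ upB ρ pos ↔ ∀ k l, k ≠ l → ¬ Sep d J k l → ρ t k l = 0 := by
  obtain ⟨τ, hτ, hbl⟩ := WJ_perm d hn
  have hD : ∀ i ∈ J, ∀ k l, d.D i k l → pos (τ⁻¹ l) < pos (τ⁻¹ k) := by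
    intro i hi
    exact top_rev d hτ i (htop _ ⟨i, hi, rfl⟩)
  have hrev := block_rev d hadj hD
  have hrevτ : ∀ k l, pos k < pos l → ¬ Sep d J k l → pos (τ l) < pos (τ k) := by
    intro k l hkl hs
    by_contra hcon
    push Not at hcon
    have hne : pos (τ k) ≠ pos (τ l) := by
      intro e
      have h1 := τ.injective (d.hpos e)
      rw [h1] at hkl
      exact lt_irrefl _ hkl
    have hlt : pos (τ k) < pos (τ l) := lt_of_le_of_ne hcon hne
    have hs' : ¬ Sep d J (τ k) (τ l) := by
      rintro ⟨c, hc, h1, h2⟩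
      apply hs
      refine ⟨c, hc, (hbl c hc k).1 h1, ?_⟩
      by_contra h3
      have h4 : pos l ≤ c := by omega
      have h5 := (hbl c hc l).2 h4
      omega
    obtain ⟨e, he⟩ : ∃ e, pos (τ l) = pos (τ k) + e + 1 := ⟨pos (τ l) - pos (τ k) - 1, by omega⟩
    have h6 := hrev e _ _ he hs'
    have e1 : τ⁻¹ (τ l) = l := by simp
    have e2 : τ⁻¹ (τ k) = k := by simp
    rw [e1, e2] at h6
    omega
  constructor
  · intro h k l hkl hs
    by_contra hne
    have hlt : pos k < pos l := by
      by_contra hge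
      push Not at hge
      have hne2 : pos k ≠ pos l := fun e => hkl (d.hpos e)
      exact hne (ht k l (by omega))
    have h2 := h (τ k) (τ l) (hrevτ k l hlt hs)
    rw [map_mul, map_mul, mul_mon_apply hτ, mon_mul_apply hτ.inv] at h2
    have e1 : τ.symm (τ l) = l := by simp
    have e2 : τ⁻¹ (τ k) = k := by simp
    rw [e1, e2] at h2
    have h3 : ρ n⁻¹ (τ k) k ≠ 0 := by
      have := (hτ.inv).ne (τ k)
      rwa [e2] at this
    have h4 : ρ n l (τ l) ≠ 0 := hτ.ne l
    exact (mul_ne_zero (mul_ne_zero h3 hne) h4) h2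
  · intro h
    apply conj_upper hτ
    intro k l hkl hnz
    have hlt : pos k < pos l := by
      by_contra hge
      push Not at hge
      have hne2 : pos k ≠ pos l := fun e => hkl (d.hpos e)
      exact hnz (ht k l (by omega))
    have hs : Sep d J k l := by
      by_contra hs
      exact hnz (h k l hkl hs)
    obtain ⟨c, hc, h1, h2⟩ := hs
    have h3 := (hbl c hc k).2 h1
    have h4 : ¬ pos (τ l) ≤ c := by
      intro h5
      have h6 := (hbl c hc l).1 h5
      omega
    omega

open scoped _root_.Classical in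
/-- The chosen relative top element. -/
noncomputable def topJ (J : Finset ι) : Γ :=
  Classical.choose (exists_top_rel ((Data.lab_qb d (MonoidHom.id Γ) Function.surjective_id idK).sub (Finset.subset_univ J)))

theorem topJ_spec (J : Finset ι) :
    topJ d J ∈ WJ (PP d) (JS (fun i => MonoidHom.id Γ (d.s i)) J) ∧ TopIn (PP d) (JS (fun i => MonoidHom.id Γ (d.s i)) J) (topJ d J) :=
  Classical.choose_spec (exists_top_rel ((Data.lab_qb d (MonoidHom.id Γ) Function.surjective_id idK).sub (Finset.subset_univ J)))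

theorem PJ_le_QJ (J : Finset ι) : PJ (PP d) (fun i => MonoidHom.id Γ (d.s i)) J ≤ QJ d J := by
  apply sup_le
  · intro g hg
    exact upB_le_QJ ((memB d).1 hg)
  · rw [Subgroup.closure_le]
    rintro _ ⟨i, hi, rfl⟩
    exact s_mem_QJ hi

variable [Fintype F]

/-- The splitting of the monomial pair. -/
noncomputable def split (p : ℕ) [hp : Fact p.Prime] [CharP F p]
    (hadj : ∀ i x, pos (d.π i x) ≤ pos x + 1 ∧ pos x ≤ pos (d.π i x) + 1)
    (hdiag : ∀ b ∈ upB ρ pos, ∃ t : Γ, ∀ r c, ρ t r c = if r = c then ρ b r r else 0)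
    (hcard : Nat.card (uU ρ pos d.hpos) = p ^ (Nat.card Γ).factorization p) :
    Split (PP d) Finset.univ (fun i => MonoidHom.id Γ (d.s i)) p where
  U := uU ρ pos d.hpos
  H := upB ρ pos ⊓ monN ρ
  R := fun J => RJ d J
  top := topJ d
  U_le := fun x hx => (memB d).2 hx.1
  U_norm := fun b hb u hu => uU_norm d.hpos ((memB d).1 hb) hu
  H_le := fun x hx => (memB d).2 hx.1
  UH_inf := by
    rintro x hx ⟨h1, τ, hτ⟩
    obtain rfl := perm_eq_one d.hpos h1 hτ
    apply d.hρ
    rw [map_one]
    ext r c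
    by_cases h : r = c
    · subst h
      rw [Matrix.one_apply_eq]
      exact hx.2 r
    · rw [Matrix.one_apply_ne h]
      exact hτ.eq_zero (by simpa using (Ne.symm h))
  B_form := by
    intro b hb
    have hb' := (memB d).1 hb
    obtain ⟨t, ht⟩ := hdiag b hb'
    have htU : t ∈ upB ρ pos := by
      intro r c hrc
      rw [ht, if_neg]
      rintro rfl
      exact lt_irrefl _ hrc
    have htN : t ∈ monN ρ := by
      refine ⟨1, ?_⟩
      intro r c
      rw [ht]
      by_cases h : r = c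
      · subst h
        simp only [if_true, Perm.one_apply, iff_true]
        exact diag_ne d.hpos hb' r
      · have : c ≠ r := fun e => h e.symm
        simp [h, this]
    refine ⟨b * t⁻¹, ⟨(upB ρ pos).mul_mem hb' ((upB ρ pos).inv_mem htU), ?_⟩, t, ⟨htU, htN⟩, by group⟩
    intro r
    have h1 := mul_diag d.hpos ((upB ρ pos).mul_mem hb' ((upB ρ pos).inv_mem htU)) htU r
    rw [inv_mul_cancel_right, ht, if_pos rfl] at h1
    have h2 := diag_ne d.hpos hb' r
    exact (mul_right_cancel₀ h2 (by rw [one_mul]; exact h1)).symm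
  R_le := fun J _ => RJ_le_uU
  R_norm := by
    intro J _ g hg r hr
    exact RJ_conj (PJ_le_QJ d J hg) hr
  top_mem := fun J _ => (topJ_spec d J).1
  top_top := fun J _ => (topJ_spec d J).2
  stab := by
    intro J _ t ht
    have ht' := (memB d).1 ht
    have hcrit := stab_crit d hadj (topJ_spec d J).1 (topJ_spec d J).2 ht'
    rw [memB d, hcrit]
    constructor
    · intro h
      obtain ⟨k', hk'⟩ := hdiag t ht'
      have hkU : k' ∈ upB ρ pos := by
        intro r c hrc
        rw [hk', if_neg]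
        rintro rfl
        exact lt_irrefl _ hrc
      have hkN : MW (ρ k') (1 : Perm I) := by
        intro r c
        rw [hk']
        by_cases h : r = c
        · subst h
          simp only [if_true, Perm.one_apply, iff_true]
          exact diag_ne d.hpos ht' r
        · have : c ≠ r := fun e => h e.symm
          simp [h, this]
      refine ⟨k', ⟨hkU, 1, hkN⟩, k'⁻¹ * t, ?_, by group⟩
      rw [mem_RJ]
      intro a b hab
      rw [map_mul, Matrix.sub_apply, mon_mul_apply hkN.inv] at hab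
      simp only [inv_one, Perm.one_apply] at hab
      by_cases hne : a = b
      · subst hne
        exfalso
        apply hab
        rw [Matrix.one_apply_eq, sub_eq_zero]
        have h1 := mon_mul_apply hkN.inv (M' := ρ k') a a
        rw [← map_mul, inv_mul_cancel, map_one, Matrix.one_apply_eq, hk'] at h1
        simp only [inv_one, Perm.one_apply, if_true] at h1
        exact h1.symm
      · rw [Matrix.one_apply_ne hne, sub_zero] at hab
        by_contra hs
        apply hab
        rw [h a b hne hs, mul_zero]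
    · rintro ⟨k', ⟨hkU, τ, hτ⟩, r, hr, rfl⟩ a b hab hs
      obtain rfl := perm_eq_one d.hpos hkU hτ
      rw [map_mul, mon_mul_apply hτ]
      simp only [Perm.one_apply]
      have hr' : SU d J (ρ r - 1) := hr
      have h0 : ρ r a b = 0 := by
        by_contra hne
        apply hs
        apply hr' a b
        rw [Matrix.sub_apply, Matrix.one_apply_ne hab, sub_zero]
        exact hne
      rw [h0, mul_zero]
  card_U := hcard

/-- Steinberg's count for the monomial pair. -/
theorem card_pelts (p : ℕ) [hp : Fact p.Prime] [CharP F p]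
    (hadj : ∀ i x, pos (d.π i x) ≤ pos x + 1 ∧ pos x ≤ pos (d.π i x) + 1)
    (hdiag : ∀ b ∈ upB ρ pos, ∃ t : Γ, ∀ r c, ρ t r c = if r = c then ρ b r r else 0)
    {w : Γ} {σ₀ : Perm I} (hw : MW (ρ w) σ₀) (hrev : ∀ k l, pos k < pos l → pos (σ₀ l) < pos (σ₀ k)) :
    Nat.card {g : Γ // ∃ k, orderOf g = p ^ k} = Nat.card (uU ρ pos d.hpos) * Nat.card (uU ρ pos d.hpos) ∧
      Nat.card (uU ρ pos d.hpos) = p ^ (Nat.card Γ).factorization p := by
  classical
  have hπ : Function.Surjective (MonoidHom.id Γ) := Function.surjective_id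
  have hk := idK (Γ := Γ) (ρ := ρ) (pos := pos)
  set Pq := PP d with hPq
  have hlab := Data.lab_qb d (MonoidHom.id Γ) hπ hk
  have hn₀ : MonoidHom.id Γ w ∈ Pq.N := ⟨_, ⟨_, hw⟩, rfl⟩
  have htop := Data.qtop d (MonoidHom.id Γ) hπ hk hw hrev
  set D0 := (topStab Pq (MonoidHom.id Γ w)).comap (Data.rhoB d (MonoidHom.id Γ) hπ hk) with hD0
  have hD : ∀ t, t ∈ D0 ↔ ∀ r c, r ≠ c → ρ t.1 r c = 0 := Data.mem_comap_topStab d (MonoidHom.id Γ) hπ hk hw hrev
  have hidx : Nat.card (Pq.B ⧸ topStab Pq (MonoidHom.id Γ w)) = D0.index :=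
    (Subgroup.index_comap_of_surjective _ (Data.rhoB_surj d (MonoidHom.id Γ) hπ hk)).symm
  have hpow := Data.pow_fact d (MonoidHom.id Γ) hπ hk p D0 hD hdiag
  have hone : St Pq Finset.univ (fun i => MonoidHom.id Γ (d.s i)) 1 = (D0.index : ℂ) := by
    rw [St_one hlab hn₀ htop, hidx]
  have hind := card_index d.hρ d.hpos D0 hD hdiag
  have hcard : Nat.card (uU ρ pos d.hpos) = p ^ (Nat.card Γ).factorization p := by
    rw [← hind, ← hpow]
  refine ⟨?_, hcard⟩
  have hS := (split d p hadj hdiag hcard).card_pelements hlab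
  rw [hone, hind] at hS
  have hS' : (Nat.card {g : Γ // ∃ k, orderOf g = p ^ k} : ℂ) = (Nat.card (uU ρ pos d.hpos) : ℂ) * (Nat.card (uU ρ pos d.hpos) : ℂ) := hS
  exact_mod_cast hS'

end Pair

section Sp

open Cfsg.Agent.Lib.H14.SpBN Matrix

variable {F : Type*} [Field F] [Fintype F]

theorem swap_adj {k : ℕ} (i : Fin k) (q : Fin (k + 1)) :
    ((swap i.castSucc i.succ) q).val ≤ q.val + 1 ∧ q.val ≤ ((swap i.castSucc i.succ) q).val + 1 := by
  rw [Equiv.swap_apply_def]
  split_ifs with h1 h2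
  · subst h1
    simp
    omega
  · subst h2
    simp
    omega
  · omega

theorem piD_adj {k : ℕ} (i : Option (Fin k)) (x : Ix k) :
    pos (piD i x) ≤ pos x + 1 ∧ pos x ≤ pos (piD i x) + 1 := by
  rcases i with _ | i
  · change pos ((swap (Sum.inl (Fin.last k)) (Sum.inr (Fin.last k))) x) ≤ _ ∧ pos x ≤ pos ((swap (Sum.inl (Fin.last k)) (Sum.inr (Fin.last k))) x) + 1
    rw [Equiv.swap_apply_def]
    split_ifs with h1 h2
    · subst h1
      simp
      omega
    · subst h2
      simp
      omega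
    · omega
  · rcases x with q | q
    · change pos (Sum.inl ((swap i.castSucc i.succ) q) : Ix k) ≤ _ ∧ _ ≤ pos (Sum.inl ((swap i.castSucc i.succ) q) : Ix k) + 1
      simpa using swap_adj i q
    · change pos (Sum.inr ((swap i.castSucc i.succ) q) : Ix k) ≤ _ ∧ _ ≤ pos (Sum.inr ((swap i.castSucc i.succ) q) : Ix k) + 1
      have h := swap_adj i q
      have hq := q.isLt
      have hq' := ((swap i.castSucc i.succ) q).isLt
      simp only [pos_inr]
      omega

theorem sp_count (p : ℕ) [hp : Fact p.Prime] [CharP F p] (k : ℕ) :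
    Nat.card {g : SpG k F // ∃ j, orderOf g = p ^ j} = Fintype.card F ^ (2 * (k + 1) ^ 2) := by
  classical
  obtain ⟨h1, h2⟩ := card_pelts (data (k := k) (F := F)) p piD_adj hdiag_sp (w := SymplecticGroup.symJ (Fin (k + 1)) F) (σ₀ := bar) J_mw (by
    intro x y h
    have h1 := pos_bar x
    have h2 := pos_bar y
    omega)
  rw [h1, h2]
  set q := Fintype.card F with hq
  have hcard : Nat.card (SpG k F) = q ^ ((k + 1) ^ 2) * ∏ i ∈ Finset.range (k + 1), (q ^ (2 * (i + 1)) - 1) :=
    Cfsg.Agent.Lib.Classical.card_sp hq.symm (k + 1)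
  obtain ⟨f, hpp, hqf⟩ := FiniteField.card F p
  have hpP : p.Prime := hp.out
  have hpq : p ∣ q := by
    rw [hq, hqf]
    exact dvd_pow_self _ f.ne_zero
  have hq1 : 1 < q := Fintype.one_lt_card
  have hC : ¬ p ∣ ∏ i ∈ Finset.range (k + 1), (q ^ (2 * (i + 1)) - 1) := by
    intro h
    rw [hpP.prime.dvd_finset_prod_iff] at h
    obtain ⟨i, _, hi⟩ := h
    have h3 : p ∣ q ^ (2 * (i + 1)) := hpq.trans (dvd_pow_self _ (by omega))
    have h4 : 1 ≤ q ^ (2 * (i + 1)) := Nat.one_le_pow _ _ (by omega)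
    have h5 : p ∣ 1 := by
      have := Nat.dvd_sub h3 hi
      rwa [Nat.sub_sub_self h4] at this
    exact hpP.one_lt.ne' (Nat.dvd_one.1 h5)
  have hfac : (Nat.card (SpG k F)).factorization p = (f : ℕ) * (k + 1) ^ 2 := by
    rw [hcard, Nat.factorization_mul (pow_ne_zero _ (by omega)) (fun h => hC (by rw [h]; exact dvd_zero p))]
    simp only [Finsupp.coe_add, Pi.add_apply]
    rw [Nat.factorization_eq_zero_of_not_dvd hC, add_zero, Nat.factorization_pow, hq, hqf, Nat.factorization_pow, hpP.factorization]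
    simp
    ring
  rw [hfac, ← pow_add, hq, hqf, ← pow_mul]
  congr 1
  ring

end Sp

end Cfsg.Agent.Lib.Known.SpU
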