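import Mathlib
import Cfsg.Agent.Lib.Classical.SL

set_option autoImplicit false

/-! Steinberg's two-element generation of `SL_{n+1}`. -/

namespace Cfsg.Agent.Lib.Known

open Matrix Matrix.SpecialLinearGroup
open scoped commutatorElement Fin.NatCast

variable {K : Type*} [Field K] {n : ℕ}

/-- The sign entries of the monomial matrix. -/
def epsW (K : Type*) [Field K] (n : ℕ) (j : Fin (n + 1)) : K := if j = 0 then (-1) ^ n else 1

theorem epsW_ne (j : Fin (n + 1)) : epsW K n j ≠ 0 := by
  unfold epsW
  split_ifs
  · exact pow_ne_zero _ (by simp)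
  · exact one_ne_zero

/-- The shape of the monomial matrix. -/
def IsW (w : SpecialLinearGroup (Fin (n + 1)) K) : Prop :=
  ∀ a b, (w : Matrix (Fin (n + 1)) (Fin (n + 1)) K) a b = if a = b - 1 then epsW K n b else 0

theorem isW_of (hn : 1 ≤ n) (w : SpecialLinearGroup (Fin (n + 1)) K)
    (hw : (w : Matrix (Fin (n + 1)) (Fin (n + 1)) K) =
      Matrix.of (fun i j => if j.val = i.val + 1 then 1 else if i.val = n ∧ j.val = 0 then (-1) ^ n else 0)) :
    IsW w := by
  intro a b
  rw [hw]
  simp only [Matrix.of_apply]
  have hab : a = b - 1 ↔ b = a + 1 := by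
    constructor
    · intro h; rw [h]; abel
    · intro h; rw [h]; abel
  have hval : ∀ c : Fin (n + 1), c = 0 ↔ c.val = 0 := fun c => by
    rw [Fin.ext_iff]; rfl
  by_cases h1 : b.val = a.val + 1
  · have h2 : a = b - 1 := by
      rw [hab]
      apply Fin.ext
      rw [Fin.val_add_one]
      have : a ≠ Fin.last n := by
        intro h3
        rw [h3] at h1
        have := b.isLt
        simp at h1
        omega
      rw [if_neg this]
      exact h1
    rw [if_pos h1, if_pos h2]
    unfold epsW
    rw [if_neg]
    rw [hval]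
    omega
  · rw [if_neg h1]
    by_cases h2 : a.val = n ∧ b.val = 0
    · have h3 : a = b - 1 := by
        rw [hab]
        apply Fin.ext
        rw [Fin.val_add_one]
        have : a = Fin.last n := Fin.ext h2.1
        rw [if_pos this]
        exact h2.2
      rw [if_pos h2, if_pos h3]
      unfold epsW
      rw [if_pos]
      rw [hval]
      exact h2.2
    · rw [if_neg h2, if_neg]
      intro h3
      rw [hab] at h3
      have := congrArg Fin.val h3
      rw [Fin.val_add_one] at this
      split_ifs at this with h4
      · apply h2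
        refine ⟨?_, this⟩
        rw [h4]
        rfl
      · exact h1 this

/-- Conjugating transvections by the monomial matrix. -/
theorem w_mul_tv {w : SpecialLinearGroup (Fin (n + 1)) K} (hW : IsW w) {i j : Fin (n + 1)} (hij : i ≠ j)
    (hij' : i - 1 ≠ j - 1) (t : K) :
    w * transvection hij t = transvection hij' (t * epsW K n i / epsW K n j) * w := by
  apply Subtype.ext
  simp only [coe_mul, transvection_coe, mul_add, add_mul, mul_one, one_mul]
  congr 1
  ext a b
  by_cases hb : b = j
  · subst hb
    rw [mul_single_apply_same]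
    by_cases ha : a = i - 1
    · subst ha
      rw [single_mul_apply_same, hW, hW, if_pos rfl, if_pos rfl]
      have := epsW_ne (K := K) b
      field_simp
    · rw [single_mul_apply_of_ne _ _ _ _ _ ha, hW, if_neg ha, zero_mul]
  · rw [mul_single_apply_of_ne _ _ _ _ _ hb]
    by_cases ha : a = i - 1
    · subst ha
      rw [single_mul_apply_same, hW, if_neg, mul_zero]
      intro h
      exact hb (sub_left_injective h).symm
    · rw [single_mul_apply_of_ne _ _ _ _ _ ha]

theorem tv_mul_tv {i j : Fin (n + 1)} (hij : i ≠ j) (s t : K) :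
    transvection hij s * transvection hij t = transvection hij (s + t) := by
  apply Subtype.ext
  exact Matrix.transvection_mul_transvection_same i j hij s t

/-- Core lemma: the monomial matrix and a full root group generate `SL`. -/
theorem eq_top_of_w_root (hn : 1 ≤ n) (A : Subgroup (SpecialLinearGroup (Fin (n + 1)) K))
    (w : SpecialLinearGroup (Fin (n + 1)) K) (hW : IsW w) (hwA : w ∈ A)
    (h01 : (0 : Fin (n + 1)) ≠ 1)
    (hroot : ∀ t : K, transvection h01 t ∈ A) : A = ⊤ := by
  have hconj : ∀ (i j : Fin (n + 1)) (hij : i ≠ j) (hij' : i - 1 ≠ j - 1),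
      (∀ t : K, transvection hij t ∈ A) → ∀ t : K, transvection hij' t ∈ A := by
    intro i j hij hij' hg t
    have h1 := w_mul_tv hW hij hij' (t * epsW K n j / epsW K n i)
    have h2 : t * epsW K n j / epsW K n i * epsW K n i / epsW K n j = t := by
      have h3 := epsW_ne (K := K) (n := n) i
      have h4 := epsW_ne (K := K) (n := n) j
      field_simp
    rw [h2] at h1
    have h3 : transvection hij' t = w * transvection hij (t * epsW K n j / epsW K n i) * w⁻¹ := by
      rw [h1]
      group
    rw [h3]
    exact mul_mem (mul_mem hwA (hg _)) (inv_mem hwA)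
  have hne1 : ∀ i : Fin (n + 1), i ≠ i + 1 := by
    intro i h
    have h2 : (1 : Fin (n + 1)) = 0 := by
      have := add_left_cancel (a := i) (b := 0) (c := 1) (by rw [add_zero]; exact h)
      exact this.symm
    exact h01 h2.symm
  -- the consecutive transvections
  have hchain : ∀ (m : ℕ) (hm : -(m : Fin (n + 1)) ≠ 1 - (m : Fin (n + 1))) (t : K),
      transvection hm t ∈ A := by
    intro m
    induction m with
    | zero =>
      intro hm t
      have h1 : -((0 : ℕ) : Fin (n + 1)) = 0 := by simp
      have h3 : 1 - ((0 : ℕ) : Fin (n + 1)) = 1 := by simp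
      have := hroot t
      convert this using 2 <;> simp
    | succ m ih =>
      intro hm t
      have hm' : -(m : Fin (n + 1)) ≠ 1 - (m : Fin (n + 1)) := by
        intro h
        apply hm
        push_cast
        have : -((m : Fin (n + 1)) + 1) = -(m : Fin (n + 1)) - 1 := by abel
        rw [this, h]
        abel
      have hm'' : -(m : Fin (n + 1)) - 1 ≠ (1 - (m : Fin (n + 1))) - 1 := fun h => hm' (sub_left_injective h)
      have := hconj _ _ hm' hm'' (ih hm') t
      convert this using 2 <;> (push_cast; abel)
  have hcons : ∀ (i : Fin (n + 1)) (t : K), transvection (hne1 i) t ∈ A := by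
    intro i t
    have hval : (((-i).val : ℕ) : Fin (n + 1)) = -i := Fin.cast_val_eq_self _
    have hm : -(((-i).val : ℕ) : Fin (n + 1)) ≠ 1 - (((-i).val : ℕ) : Fin (n + 1)) := by
      rw [hval]
      simpa [add_comm, sub_neg_eq_add] using hne1 i
    have := hchain _ hm t
    convert this using 2
    · rw [hval]; simp
    · rw [hval]; simp [add_comm]
  -- all transvections
  have hall : ∀ (d : ℕ), d + 1 ≤ n → ∀ (i : Fin (n + 1)) (hi : i ≠ i + ((d + 1 : ℕ) : Fin (n + 1))) (t : K),
      transvection hi t ∈ A := by
    intro d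
    induction d with
    | zero =>
      intro _ i hi t
      have h1 : ((0 + 1 : ℕ) : Fin (n + 1)) = 1 := by simp
      have := hcons i t
      convert this using 2
    | succ d ih =>
      intro hd i hi t
      have hnz : ∀ m : ℕ, m + 1 ≤ n → i ≠ i + ((m + 1 : ℕ) : Fin (n + 1)) := by
        intro m hm h
        have h1 : ((m + 1 : ℕ) : Fin (n + 1)) = 0 := by
          have h5 : i + ((m + 1 : ℕ) : Fin (n + 1)) = i + 0 := by rw [add_zero]; exact h.symm
          exact add_left_cancel h5
        rw [Fin.natCast_eq_zero] at h1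
        have := Nat.le_of_dvd (by omega) h1
        omega
      set k := i + ((d + 1 : ℕ) : Fin (n + 1)) with hk
      have hik : i ≠ k := hnz d (by omega)
      have hkj : k ≠ i + ((d + 1 + 1 : ℕ) : Fin (n + 1)) := by
        have : i + ((d + 1 + 1 : ℕ) : Fin (n + 1)) = k + 1 := by
          rw [hk]
          push_cast
          abel
        rw [this]
        exact hne1 k
      have h1 := Cfsg.Agent.Lib.Classical.commutator_transvection_transvection hik hkj hi t (1 : K)
      rw [mul_one] at h1
      rw [← h1, commutatorElement_def]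
      have h3 := ih (by omega) i hik t
      have h4 : transvection hkj (1 : K) ∈ A := by
        have := hcons k 1
        convert this using 2
        rw [hk]
        push_cast
        abel
      exact mul_mem (mul_mem (mul_mem h3 h4) (inv_mem h3)) (inv_mem h4)
  rw [eq_top_iff]
  intro M _
  refine Cfsg.Agent.Lib.Classical.sl_transvection_induction (· ∈ A) ?_ (one_mem _) (fun _ _ => mul_mem) M
  intro i j hij a
  have hj : j = i + (((j - i).val : ℕ) : Fin (n + 1)) := by
    rw [Fin.cast_val_eq_self]
    abel
  have hv0 : (j - i).val ≠ 0 := by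
    intro h
    apply hij
    have : j - i = 0 := Fin.ext h
    exact (sub_eq_zero.mp this).symm
  obtain ⟨d, hd⟩ := Nat.exists_eq_succ_of_ne_zero hv0
  have hd' : d + 1 ≤ n := by
    have := (j - i).isLt
    omega
  have hj' : j = i + ((d + 1 : ℕ) : Fin (n + 1)) := by
    have h5 : ((d + 1 : ℕ) : Fin (n + 1)) = (((j - i).val : ℕ) : Fin (n + 1)) := by
      rw [hd]
    rw [h5]
    exact hj
  have hi : i ≠ i + ((d + 1 : ℕ) : Fin (n + 1)) := by
    rw [← hj']
    exact hij
  have := hall d hd' i hi a
  convert this using 2

theorem zero_ne_one_fin (hn : 1 ≤ n) : (0 : Fin (n + 1)) ≠ 1 := by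
  intro h
  have := congrArg Fin.val h
  rw [Fin.val_zero, Fin.val_one'] at this
  rw [Nat.mod_eq_of_lt (by omega)] at this
  omega

/-- Conjugation of a transvection by a diagonal element. -/
theorem diag_mul_tv {D : SpecialLinearGroup (Fin (n + 1)) K} {d : Fin (n + 1) → K}
    (hD : (D : Matrix (Fin (n + 1)) (Fin (n + 1)) K) = diagonal d) {i j : Fin (n + 1)} (hij : i ≠ j) (hj : d j ≠ 0) (t : K) :
    D * transvection hij t = transvection hij (t * d i / d j) * D := by
  apply Subtype.ext
  simp only [coe_mul, transvection_coe, mul_add, add_mul, mul_one, one_mul, hD]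
  congr 1
  ext a b
  by_cases hb : b = j
  · subst hb
    rw [mul_single_apply_same]
    by_cases ha : a = i
    · subst ha
      rw [single_mul_apply_same, diagonal_apply_eq, diagonal_apply_eq]
      field_simp
    · rw [single_mul_apply_of_ne _ _ _ _ _ ha, diagonal_apply_ne _ ha, zero_mul]
  · rw [mul_single_apply_of_ne _ _ _ _ _ hb]
    by_cases ha : a = i
    · subst ha
      rw [single_mul_apply_same, diagonal_apply_ne _ (Ne.symm hb), mul_zero]
    · rw [single_mul_apply_of_ne _ _ _ _ _ ha]

/-- Steinberg's theorem. -/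
theorem eq_top_steinberg [Fintype K] (hK : 3 < Fintype.card K) (hn : 1 ≤ n)
    (k : Kˣ) (hk : ∀ u : Kˣ, u ∈ Subgroup.zpowers k)
    (h x w : SpecialLinearGroup (Fin (n + 1)) K)
    (hh : (h : Matrix (Fin (n + 1)) (Fin (n + 1)) K) =
      Matrix.diagonal (fun i => if i.val = 0 then (k : K) else if i.val = 1 then ((k⁻¹ : Kˣ) : K) else 1))
    (hx : (x : Matrix (Fin (n + 1)) (Fin (n + 1)) K) = Matrix.transvection (0 : Fin (n + 1)) (1 : Fin (n + 1)) 1)
    (hW : IsW w) :
    Subgroup.closure ({h, x * w} : Set (SpecialLinearGroup (Fin (n + 1)) K)) = ⊤ := by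
  classical
  have h01 : (0 : Fin (n + 1)) ≠ 1 := zero_ne_one_fin hn
  have hX : x = transvection h01 1 := Subtype.ext hx
  set A := Subgroup.closure ({h, x * w} : Set (SpecialLinearGroup (Fin (n + 1)) K)) with hA
  have hhA : h ∈ A := Subgroup.subset_closure (by simp)
  have hyA : x * w ∈ A := Subgroup.subset_closure (by simp)
  have hk0 : (k : K) ≠ 0 := k.ne_zero
  -- squares
  have hkk : (k : K) ^ 2 ≠ 1 := by
    intro h2
    have hall : ∀ u : Kˣ, u ^ 2 = 1 := by
      intro u
      obtain ⟨m, rfl⟩ := Subgroup.mem_zpowers_iff.mp (hk u)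
      have : k ^ 2 = 1 := by
        ext
        simpa using h2
      rw [← zpow_natCast, ← _root_.zpow_mul, mul_comm, _root_.zpow_mul, zpow_natCast, this, _root_.one_zpow]
    have hroots : ∀ u : K, u ≠ 0 → u = 1 ∨ u = -1 := by
      intro u hu
      have := hall (Units.mk0 u hu)
      have h3 : u ^ 2 = 1 := by
        have := congrArg Units.val this
        simpa using this
      have h4 : (u - 1) * (u + 1) = 0 := by linear_combination h3
      rcases mul_eq_zero.mp h4 with h5 | h5
      · left; exact sub_eq_zero.mp h5
      · right; exact eq_neg_of_add_eq_zero_left h5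
    have hsub : (Finset.univ : Finset K) ⊆ {0, 1, -1} := by
      intro u _
      by_cases hu : u = 0
      · simp [hu]
      · rcases hroots u hu with h5 | h5 <;> simp [h5]
    have h6 := Finset.card_le_card hsub
    have h7 : ({0, 1, -1} : Finset K).card ≤ 3 := Finset.card_le_three
    have h8 : (Finset.univ : Finset K).card = Fintype.card K := rfl
    omega
  have hk1 : (k : K) ≠ 1 := by
    intro h1
    apply hkk
    rw [h1, one_pow]
  -- the diagonal `w h w⁻¹`
  set dh : Fin (n + 1) → K := fun i => if i.val = 0 then (k : K) else if i.val = 1 then ((k⁻¹ : Kˣ) : K) else 1 with hdh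
  have hdh0 : ∀ i, dh i ≠ 0 := by
    intro i
    simp only [hdh]
    split_ifs
    · exact hk0
    · simp
    · exact one_ne_zero
  set d' : Fin (n + 1) → K := fun i => dh (i + 1) with hd'
  have hd'0 : ∀ i, d' i ≠ 0 := fun i => hdh0 _
  set D := w * h * w⁻¹ with hD
  have hDc : (D : Matrix (Fin (n + 1)) (Fin (n + 1)) K) = diagonal d' := by
    have h1 : (w : Matrix (Fin (n + 1)) (Fin (n + 1)) K) * diagonal dh = diagonal d' * (w : Matrix (Fin (n + 1)) (Fin (n + 1)) K) := by
      ext a b
      rw [mul_diagonal, diagonal_mul, hW]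
      split_ifs with hab
      · have : b = a + 1 := by rw [hab]; abel
        simp [hd', ← this]
        ring
      · simp
    have h2 : D * w = w * h := by rw [hD]; group
    have h3 : (D : Matrix (Fin (n + 1)) (Fin (n + 1)) K) * (w : Matrix (Fin (n + 1)) (Fin (n + 1)) K) =
        diagonal d' * (w : Matrix (Fin (n + 1)) (Fin (n + 1)) K) := by
      rw [← h1, ← hh, ← coe_mul, h2, coe_mul]
    have hwu : IsUnit (w : Matrix (Fin (n + 1)) (Fin (n + 1)) K) := by
      rw [Matrix.isUnit_iff_isUnit_det, w.2]
      exact isUnit_one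
    exact hwu.mul_left_inj.mp h3
  set s : K := 1 - d' 0 / d' 1 with hs
  have hdh0' : dh 0 = k := by simp [hdh]
  have hv1 : (1 : Fin (n + 1)).val = 1 := by
    rw [Fin.val_one', Nat.mod_eq_of_lt (by omega)]
  have hdh1 : dh 1 = ((k⁻¹ : Kˣ) : K) := by
    simp only [hdh]
    rw [if_neg (by rw [hv1]; norm_num), if_pos hv1]
  have hkr : ∀ t : K, t * dh 0 / dh 1 = t * (k : K) ^ 2 := by
    intro t
    rw [hdh0', hdh1]
    simp only [Units.val_inv_eq_inv_val]
    field_simp
  have hs0 : s ≠ 0 := by
    have hd0 : d' 0 = ((k⁻¹ : Kˣ) : K) := by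
      simp only [hd', zero_add]
      exact hdh1
    have hv2 : ((1 : Fin (n + 1)) + 1).val = 2 % (n + 1) := by
      rw [Fin.val_add, hv1]
    rw [hs, hd0]
    simp only [Units.val_inv_eq_inv_val]
    by_cases hn1 : n = 1
    · have h1 : ((1 : Fin (n + 1)) + 1).val = 0 := by
        rw [hv2, hn1]
      have h2 : d' 1 = k := by
        simp only [hd', hdh]
        rw [if_pos h1]
      rw [h2, sub_ne_zero]
      intro h3
      apply hkk
      field_simp at h3
      rw [← h3]
    · have h1 : ((1 : Fin (n + 1)) + 1).val = 2 := by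
        rw [hv2, Nat.mod_eq_of_lt (by omega)]
      have h2 : d' 1 = 1 := by
        simp only [hd', hdh]
        rw [if_neg (by omega), if_neg (by omega)]
      rw [h2, sub_ne_zero]
      intro h3
      apply hk1
      field_simp at h3
      exact h3
  -- the relation
  have hcomm : h * ((x * w) * h * (x * w)⁻¹) * h⁻¹ * ((x * w) * h * (x * w)⁻¹)⁻¹ =
      transvection h01 (s * ((k : K) ^ 2 - 1)) := by
    have e1 : (x * w) * h * (x * w)⁻¹ = transvection h01 s * D := by
      have h1 : D * transvection h01 (-1) = transvection h01 ((-1) * d' 0 / d' 1) * D :=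
        diag_mul_tv hDc h01 (hd'0 _) _
      have h2 : x⁻¹ = transvection h01 (-1) := by rw [hX, transvection_inv]
      have h3 : (x * w) * h * (x * w)⁻¹ = x * D * x⁻¹ := by rw [hD]; group
      rw [h3, mul_assoc, h2, h1, ← mul_assoc, hX, tv_mul_tv]
      congr 2
      rw [hs]
      ring
    have e2 : h * transvection h01 s = transvection h01 (s * (k : K) ^ 2) * h := by
      have := diag_mul_tv hh h01 (hdh0 _) s
      rwa [hkr] at this
    have e3 : h * D = D * h := by
      apply Subtype.ext
      change (h : Matrix (Fin (n + 1)) (Fin (n + 1)) K) * (D : Matrix (Fin (n + 1)) (Fin (n + 1)) K) =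
        (D : Matrix (Fin (n + 1)) (Fin (n + 1)) K) * (h : Matrix (Fin (n + 1)) (Fin (n + 1)) K)
      rw [hDc, hh, diagonal_mul_diagonal, diagonal_mul_diagonal]
      congr 1
      ext i
      ring
    rw [e1]
    calc h * (transvection h01 s * D) * h⁻¹ * (transvection h01 s * D)⁻¹
        = (h * transvection h01 s) * D * h⁻¹ * (D⁻¹ * (transvection h01 s)⁻¹) := by group
      _ = transvection h01 (s * (k : K) ^ 2) * (h * D * h⁻¹ * D⁻¹) * (transvection h01 s)⁻¹ := by
          rw [e2]; group
      _ = transvection h01 (s * (k : K) ^ 2) * (transvection h01 s)⁻¹ := by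
          rw [e3]; group
      _ = _ := by
          rw [transvection_inv, tv_mul_tv]
          congr 1
          ring
  set s₀ := s * ((k : K) ^ 2 - 1) with hs₀
  have hs₀0 : s₀ ≠ 0 := mul_ne_zero hs0 (sub_ne_zero.mpr hkk)
  have hs₀A : transvection h01 s₀ ∈ A := by
    rw [← hcomm]
    have h1 : (x * w) * h * (x * w)⁻¹ ∈ A := mul_mem (mul_mem hyA hhA) (inv_mem hyA)
    exact mul_mem (mul_mem (mul_mem hhA h1) (inv_mem hhA)) (inv_mem h1)
  -- conjugation by `h`
  have hconj : ∀ t : K, transvection h01 t ∈ A → transvection h01 (t * (k : K) ^ 2) ∈ A := by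
    intro t ht
    have : transvection h01 (t * (k : K) ^ 2) = h * transvection h01 t * h⁻¹ := by
      have h1 := diag_mul_tv hh h01 (hdh0 _) t
      rw [hkr] at h1
      rw [h1]
      group
    rw [this]
    exact mul_mem (mul_mem hhA ht) (inv_mem hhA)
  have hconj' : ∀ t : K, transvection h01 t ∈ A → transvection h01 (t * ((k : K) ^ 2)⁻¹) ∈ A := by
    intro t ht
    have : transvection h01 (t * ((k : K) ^ 2)⁻¹) = h⁻¹ * transvection h01 t * h := by
      have h1 := diag_mul_tv hh h01 (hdh0 _) (t * ((k : K) ^ 2)⁻¹)
      rw [hkr] at h1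
      have h2 : t * ((k : K) ^ 2)⁻¹ * (k : K) ^ 2 = t := by
        have : (k : K) ^ 2 ≠ 0 := pow_ne_zero _ hk0
        field_simp
      rw [h2] at h1
      rw [mul_assoc, ← h1]
      group
    rw [this]
    exact mul_mem (mul_mem (inv_mem hhA) ht) hhA
  have hpow : ∀ m : ℤ, transvection h01 (s₀ * ((k : K) ^ 2) ^ m) ∈ A := by
    intro m
    induction m using Int.induction_on with
    | zero => simpa using hs₀A
    | succ i ih =>
      have := hconj _ ih
      convert this using 2
      have : (k : K) ^ 2 ≠ 0 := pow_ne_zero _ hk0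
      rw [zpow_add_one₀ this]
      ring
    | pred i ih =>
      have := hconj' _ ih
      convert this using 2
      have : (k : K) ^ 2 ≠ 0 := pow_ne_zero _ hk0
      rw [zpow_sub_one₀ this]
      ring
  have hsq : ∀ u : K, transvection h01 (s₀ * u ^ 2) ∈ A := by
    intro u
    by_cases hu : u = 0
    · subst hu
      have : s₀ * (0 : K) ^ 2 = 0 := by simp
      rw [this, transvection_coeff_zero]
      exact one_mem _
    · obtain ⟨m, hm⟩ := Subgroup.mem_zpowers_iff.mp (hk (Units.mk0 u hu))
      have h1 : (k : K) ^ m = u := by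
        have := congrArg Units.val hm
        simpa using this
      have := hpow m
      convert this using 2
      rw [← h1, ← zpow_natCast, ← zpow_natCast, ← _root_.zpow_mul, ← _root_.zpow_mul]
      congr 2
      ring
  have hroot : ∀ t : K, transvection h01 t ∈ A := by
    intro t
    by_cases h2 : (2 : K) = 0
    · have hc2 : ringChar K = 2 := by
        have h3 : ringChar K ∣ 2 := (ringChar.spec K 2).mp (by exact_mod_cast h2)
        have h4 : (ringChar K).Prime := by
          obtain ⟨p, hp⟩ := CharP.exists K
          obtain ⟨_, hpp, _⟩ := FiniteField.card K p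
          rw [ringChar.eq K p]
          exact hpp
        exact (Nat.prime_dvd_prime_iff_eq h4 Nat.prime_two).mp h3
      obtain ⟨y, hy⟩ := FiniteField.isSquare_of_char_two hc2 (t / s₀)
      have := hsq y
      convert this using 2
      rw [pow_two, ← hy]
      field_simp
    · have h1 := hsq ((t / s₀ + 1) / 2)
      have h3 := hsq ((t / s₀ - 1) / 2)
      have h4 := mul_mem h1 (inv_mem h3)
      rw [transvection_inv, tv_mul_tv] at h4
      convert h4 using 2
      field_simp
      ring
  have hxA : x ∈ A := by rw [hX]; exact hroot 1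
  have hwA : w ∈ A := by
    have : w = x⁻¹ * (x * w) := by group
    rw [this]
    exact mul_mem (inv_mem hxA) hyA
  exact eq_top_of_w_root hn A w hW hwA h01 hroot

end Cfsg.Agent.Lib.Known
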