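import Mathlib

/-!
# Sylow subgroups of `GL_n(q)` for large primes: arithmetic
-/

set_option autoImplicit false
set_option linter.unusedVariables false
set_option linter.unusedSectionVars false
set_option linter.unusedSimpArgs false

namespace Cfsg.Agent.Lib.Known.SylH

variable {q r : ℕ} [hr : Fact r.Prime]

theorem q_ne_zero (hrq : ¬ r ∣ q) : (q : ZMod r) ≠ 0 := by
  rw [Ne, ZMod.natCast_eq_zero_iff]
  exact hrq

/-- The multiplicative order is positive. -/
theorem order_pos (hrq : ¬ r ∣ q) : 0 < orderOf (q : ZMod r) := by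
  have h := q_ne_zero hrq
  apply orderOf_pos_iff.2
  rw [isOfFinOrder_iff_pow_eq_one]
  exact ⟨r - 1, by have := hr.out.two_le; omega, ZMod.pow_card_sub_one_eq_one h⟩

theorem cast_pow_sub_one (hq : 1 ≤ q) (l : ℕ) : ((q ^ l - 1 : ℕ) : ZMod r) = (q : ZMod r) ^ l - 1 := by
  rw [Nat.cast_sub (Nat.one_le_pow _ _ hq)]
  simp

/-- Divisibility of `q ^ l - 1`. -/
theorem dvd_iff (hq : 1 ≤ q) (l : ℕ) : r ∣ q ^ l - 1 ↔ orderOf (q : ZMod r) ∣ l := by
  rw [← ZMod.natCast_eq_zero_iff, cast_pow_sub_one hq, sub_eq_zero, orderOf_dvd_iff_pow_eq_one]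

/-- The geometric sum step. -/
theorem val_mult (hq : 2 ≤ q) (hrq : ¬ r ∣ q) {j : ℕ} (hj : 1 ≤ j) (hjr : j < r) :
    padicValNat r (q ^ (orderOf (q : ZMod r) * j) - 1) = padicValNat r (q ^ orderOf (q : ZMod r) - 1) := by
  set d := orderOf (q : ZMod r) with hd
  have hd0 : 0 < d := order_pos hrq
  have hqd : 1 < q ^ d := Nat.one_lt_pow (by omega) (by omega)
  obtain ⟨x, hx⟩ : ∃ x, q ^ d = x + 1 := ⟨q ^ d - 1, by omega⟩
  have hx0 : x ≠ 0 := by omega
  have h1 := geom_sum_mul_add x j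
  have e1 : q ^ (d * j) - 1 = (∑ i ∈ Finset.range j, (x + 1) ^ i) * x := by
    rw [pow_mul, hx, ← h1]
    simp
  have e2 : q ^ d - 1 = x := by omega
  rw [e1, e2]
  have hS : ¬ r ∣ ∑ i ∈ Finset.range j, (x + 1) ^ i := by
    rw [← ZMod.natCast_eq_zero_iff]
    push_cast
    have h3 : ((x + 1 : ℕ) : ZMod r) = 1 := by
      rw [← hx]
      push_cast
      exact pow_orderOf_eq_one _
    have h4 : ((x : ZMod r) + 1) = 1 := by exact_mod_cast h3
    rw [h4]
    simp only [one_pow, Finset.sum_const, Finset.card_range, nsmul_eq_mul, mul_one]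
    rw [ZMod.natCast_eq_zero_iff]
    intro hdvd
    have := Nat.le_of_dvd (by omega) hdvd
    omega
  have hS0 : (∑ i ∈ Finset.range j, (x + 1) ^ i) ≠ 0 := by
    intro h
    rw [h] at hS
    exact hS (dvd_zero _)
  rw [padicValNat.mul hS0 hx0, padicValNat.eq_zero_of_not_dvd hS, zero_add]

/-- The `r`-part of the cyclotomic value. -/
theorem val_cyc (hq : 2 ≤ q) (hrq : ¬ r ∣ q) :
    padicValNat r ((Polynomial.cyclotomic (orderOf (q : ZMod r)) ℤ).eval (q : ℤ)).natAbs =
      padicValNat r (q ^ orderOf (q : ZMod r) - 1) := by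
  set d := orderOf (q : ZMod r) with hd
  have hd0 : 0 < d := order_pos hrq
  have hqd : 1 < q ^ d := Nat.one_lt_pow (by omega) (by omega)
  have h1 := congrArg (Polynomial.eval (q : ℤ)) (Polynomial.prod_cyclotomic_eq_X_pow_sub_one hd0 ℤ)
  rw [← Nat.insert_self_properDivisors hd0.ne', Finset.prod_insert (by simp [Nat.properDivisors])] at h1
  simp only [Polynomial.eval_mul, Polynomial.eval_prod, Polynomial.eval_sub, Polynomial.eval_pow,
    Polynomial.eval_X, Polynomial.eval_one] at h1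
  set A := Polynomial.eval (q : ℤ) (Polynomial.cyclotomic d ℤ) with hA
  set B := ∏ e ∈ d.properDivisors, Polynomial.eval (q : ℤ) (Polynomial.cyclotomic e ℤ) with hB
  have hrB : ¬ (r : ℤ) ∣ B := by
    intro h
    have hp : Prime (r : ℤ) := Nat.prime_iff_prime_int.1 hr.out
    obtain ⟨e, he, hdvd⟩ := (Prime.dvd_finset_prod_iff hp _).1 h
    have he1 : e ∣ d ∧ e < d := by
      rw [Nat.mem_properDivisors] at he
      exact he
    have h2 : Polynomial.eval (q : ℤ) (Polynomial.cyclotomic e ℤ) ∣ (q : ℤ) ^ e - 1 := by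
      have := Polynomial.eval_dvd (x := (q : ℤ)) (Polynomial.cyclotomic.dvd_X_pow_sub_one e ℤ)
      simpa using this
    have h3 : (r : ℤ) ∣ (q : ℤ) ^ e - 1 := hdvd.trans h2
    have h4 : (((q : ℤ) ^ e - 1 : ℤ) : ZMod r) = 0 := (ZMod.intCast_zmod_eq_zero_iff_dvd _ _).2 h3
    push_cast at h4
    have h5 : orderOf (q : ZMod r) ∣ e := orderOf_dvd_of_pow_eq_one (sub_eq_zero.1 h4)
    have he0 : 0 < e := Nat.pos_of_dvd_of_pos he1.1 hd0
    have := Nat.le_of_dvd he0 h5
    omega
  have hAB : ((q ^ d - 1 : ℕ) : ℤ) = A * B := by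
    rw [h1, Nat.cast_sub (le_of_lt hqd)]
    push_cast
    ring
  have hnat : q ^ d - 1 = A.natAbs * B.natAbs := by
    rw [← Int.natAbs_mul, ← hAB]
    simp
  have hne : q ^ d - 1 ≠ 0 := by omega
  have hA0 : A.natAbs ≠ 0 := by
    intro h
    rw [h, zero_mul] at hnat
    exact hne hnat
  have hB0 : B.natAbs ≠ 0 := by
    intro h
    rw [h, mul_zero] at hnat
    exact hne hnat
  have hrB' : ¬ r ∣ B.natAbs := by
    intro h
    exact hrB (Int.natCast_dvd.2 h)
  rw [hnat, padicValNat.mul hA0 hB0, padicValNat.eq_zero_of_not_dvd hrB', add_zero]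

/-- The value at a general exponent. -/
theorem val_pow (hq : 2 ≤ q) (hrq : ¬ r ∣ q) {l : ℕ} (hl : 1 ≤ l) (hlr : l < r) :
    padicValNat r (q ^ l - 1) = if orderOf (q : ZMod r) ∣ l then padicValNat r (q ^ orderOf (q : ZMod r) - 1) else 0 := by
  split_ifs with h
  · obtain ⟨j, rfl⟩ := h
    have hd0 := order_pos hrq
    have hj : 1 ≤ j := by
      rcases Nat.eq_zero_or_pos j with h0 | h0
      · subst h0; simp at hl
      · exact h0
    have hjr : j < r := by
      have : j ≤ orderOf (q : ZMod r) * j := Nat.le_mul_of_pos_left _ hd0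
      omega
    exact val_mult hq hrq hj hjr
  · apply padicValNat.eq_zero_of_not_dvd
    rwa [dvd_iff (by omega)]

/-- The sum of the valuations. -/
theorem val_sum (hq : 2 ≤ q) (hrq : ¬ r ∣ q) {n : ℕ} (hnr : n < r) :
    ∑ l ∈ Finset.range n, padicValNat r (q ^ (l + 1) - 1) =
      (n / orderOf (q : ZMod r)) * padicValNat r (q ^ orderOf (q : ZMod r) - 1) := by
  have h1 : ∀ l ∈ Finset.range n, padicValNat r (q ^ (l + 1) - 1) =
      if orderOf (q : ZMod r) ∣ (l + 1) then padicValNat r (q ^ orderOf (q : ZMod r) - 1) else 0 := by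
    intro l hl
    rw [Finset.mem_range] at hl
    exact val_pow hq hrq (by omega) (by omega)
  rw [Finset.sum_congr rfl h1, Finset.sum_ite, Finset.sum_const_zero, add_zero, Finset.sum_const, smul_eq_mul,
    Nat.card_multiples]

/-- The valuation of the order of `GL_n(q)`. -/
theorem val_card (hq : 2 ≤ q) (hrq : ¬ r ∣ q) (n : ℕ) :
    padicValNat r (∏ i : Fin n, (q ^ n - q ^ (i : ℕ))) = ∑ l ∈ Finset.range n, padicValNat r (q ^ (l + 1) - 1) := by
  have hne : ∀ l : ℕ, q ^ (l + 1) - 1 ≠ 0 := by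
    intro l
    have : 1 < q ^ (l + 1) := Nat.one_lt_pow (by omega) (by omega)
    omega
  have hfac : ∀ i : Fin n, q ^ n - q ^ (i : ℕ) = q ^ (i : ℕ) * (q ^ (n - 1 - (i : ℕ) + 1) - 1) := by
    intro i
    have hi := i.2
    have e : n = (i : ℕ) + (n - 1 - (i : ℕ) + 1) := by omega
    rw [Nat.mul_sub, mul_one, ← pow_add, ← e]
  have hval : ∀ (s : Finset (Fin n)), padicValNat r (∏ i ∈ s, (q ^ n - q ^ (i : ℕ))) =
      ∑ i ∈ s, padicValNat r (q ^ (n - 1 - (i : ℕ) + 1) - 1) := by
    classical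
    intro s
    induction s using Finset.induction_on with
    | empty => simp
    | insert a s ha ih =>
      rw [Finset.prod_insert ha, Finset.sum_insert ha, ← ih]
      have h0 : q ^ n - q ^ (a : ℕ) ≠ 0 := by
        rw [hfac]
        exact mul_ne_zero (pow_ne_zero _ (by omega)) (hne _)
      have h2 : (∏ i ∈ s, (q ^ n - q ^ (i : ℕ))) ≠ 0 := by
        rw [Finset.prod_ne_zero_iff]
        intro i _
        rw [hfac]
        exact mul_ne_zero (pow_ne_zero _ (by omega)) (hne _)
      rw [padicValNat.mul h0 h2, hfac, padicValNat.mul (pow_ne_zero _ (by omega)) (hne _)]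
      have h3 : padicValNat r (q ^ (a : ℕ)) = 0 := by
        apply padicValNat.eq_zero_of_not_dvd
        intro h
        exact hrq (hr.out.dvd_of_dvd_pow h)
      rw [h3, zero_add]
  rw [hval, Finset.sum_fin_eq_sum_range]
  rw [← Finset.sum_range_reflect]
  apply Finset.sum_congr rfl
  intro l hl
  rw [Finset.mem_range] at hl
  rw [dif_pos (by omega)]
  congr 3
  simp
  omega

end Cfsg.Agent.Lib.Known.SylH
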