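import Cfsg.Agent.Lib.Known.Syl1
import Cfsg.Agent.Lib.ElemOrders.Basic

/-!
# Sylow subgroups of `GL_n(q)` for large primes: the homocyclic subgroup
-/

set_option autoImplicit false
set_option linter.unusedVariables false
set_option linter.unusedSectionVars false
set_option linter.unusedSimpArgs false

namespace Cfsg.Agent.Lib.Known.SylH

open Matrix Cfsg.Agent.Lib.ElemOrders

/-- Homocyclic groups from cyclic groups. -/
theorem pi_equiv_of_card {C : Type*} [Group C] (hC : IsCyclic C) {m : ℕ} (hm : Nat.card C = m) (k : ℕ) :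
    Nonempty ((Fin k → C) ≃* (Fin k → Multiplicative (ZMod m))) := by
  subst hm
  exact ⟨MulEquiv.piCongrRight (fun _ => (zmodCyclicMulEquiv hC).symm)⟩

section

variable {F : Type*} [Field F] {d k c n : ℕ}

/-- The block embedding. -/
def blockHom (e : (Fin d × Fin k) ⊕ Fin c ≃ Fin n) :
    (Fin k → Matrix (Fin d) (Fin d) F) →* Matrix (Fin n) (Fin n) F where
  toFun f := Matrix.reindex e e (fromBlocks (blockDiagonal f) 0 0 1)
  map_one' := by
    have : (blockDiagonal (1 : Fin k → Matrix (Fin d) (Fin d) F)) = 1 := blockDiagonal_one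
    rw [this, fromBlocks_one]
    simp
  map_mul' f g := by
    have h0 : blockDiagonal (f * g) = blockDiagonal f * blockDiagonal g := blockDiagonal_mul f g
    rw [Matrix.reindex_apply, Matrix.reindex_apply, Matrix.reindex_apply, submatrix_mul_equiv, fromBlocks_multiply, h0]
    simp

theorem blockHom_eq_one (e : (Fin d × Fin k) ⊕ Fin c ≃ Fin n) {f : Fin k → Matrix (Fin d) (Fin d) F}
    (h : blockHom e f = 1) : f = 1 := by
  have h1 : fromBlocks (blockDiagonal f) (0 : Matrix (Fin d × Fin k) (Fin c) F) 0 (1 : Matrix (Fin c) (Fin c) F) = 1 := by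
    have h2 : Matrix.reindex e e (fromBlocks (blockDiagonal f) (0 : Matrix (Fin d × Fin k) (Fin c) F) 0 (1 : Matrix (Fin c) (Fin c) F)) = Matrix.reindex e e 1 := by
      rw [show Matrix.reindex e e (fromBlocks (blockDiagonal f) (0 : Matrix (Fin d × Fin k) (Fin c) F) 0 (1 : Matrix (Fin c) (Fin c) F)) = blockHom e f from rfl, h]
      simp
    exact (Matrix.reindex e e).injective h2
  funext i
  ext a b
  have h3 := congrFun (congrFun h1 (Sum.inl (a, i))) (Sum.inl (b, i))
  simp [Matrix.one_apply] at h3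
  simp [Matrix.one_apply, h3]

end

section

variable {F : Type*} [Field F] [Fintype F]

/-- A homocyclic subgroup inside `GL_n`. -/
theorem exists_homocyclic [DecidableEq F] {d k n m : ℕ} (hd : 1 ≤ d) (hn : d * k ≤ n) (hm : m ∣ Fintype.card F ^ d - 1) :
    ∃ A : Subgroup (GL (Fin n) F), Nat.card A = m ^ k ∧
      Nonempty (A ≃* (Fin k → Multiplicative (ZMod m))) := by
  obtain ⟨p, hp⟩ := CharP.exists F
  haveI : Fact p.Prime := ⟨CharP.char_is_prime F p⟩
  obtain ⟨s, hs⟩ := exists_GL_singer (F := F) p d hd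
  have hq2 : 2 ≤ Fintype.card F := Fintype.one_lt_card
  have hN : 0 < Fintype.card F ^ d - 1 := by
    have : 1 < Fintype.card F ^ d := Nat.one_lt_pow (by omega) (by omega)
    omega
  obtain ⟨w, hw⟩ := hm
  have hw0 : w ≠ 0 := by
    rintro rfl
    omega
  have hm0 : m ≠ 0 := by
    rintro rfl
    omega
  set t := s ^ w with ht
  have hot : orderOf t = m := by
    rw [ht, orderOf_pow_of_dvd hw0 (by rw [hs, hw]; exact Dvd.intro_left _ rfl), hs, hw]
    exact Nat.mul_div_cancel _ (Nat.pos_of_ne_zero hw0)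
  set C := Subgroup.zpowers t with hC
  have hcard : Nat.card C = m := by
    rw [hC, Nat.card_zpowers, hot]
  obtain ⟨E⟩ := pi_equiv_of_card (C := C) inferInstance hcard k
  have hcd : Fintype.card ((Fin d × Fin k) ⊕ Fin (n - d * k)) = Fintype.card (Fin n) := by
    simp
    omega
  let e : (Fin d × Fin k) ⊕ Fin (n - d * k) ≃ Fin n := Fintype.equivOfCardEq hcd
  let κ : (Fin k → C) →* (Fin k → Matrix (Fin d) (Fin d) F) :=
    { toFun := fun f i => (((f i : C) : GL (Fin d) F) : Matrix (Fin d) (Fin d) F)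
      map_one' := by
        funext i
        simp
      map_mul' := by
        intro f g
        funext i
        simp }
  let Ψ : (Fin k → C) →* GL (Fin n) F := MonoidHom.toHomUnits ((blockHom e).comp κ)
  have hinj : Function.Injective Ψ := by
    rw [injective_iff_map_eq_one]
    intro f hf
    have h1 : blockHom e (κ f) = 1 := by
      have := congrArg Units.val hf
      simpa [Ψ] using this
    have h2 := blockHom_eq_one e h1
    funext i
    apply Subtype.ext
    apply Units.ext
    exact congrFun h2 i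
  refine ⟨Ψ.range, ?_, ⟨(MonoidHom.ofInjective hinj).symm.trans E⟩⟩
  rw [← Nat.card_congr (MonoidHom.ofInjective hinj).toEquiv, Nat.card_fun, hcard]
  simp

/-- The exponent of the Sylow subgroup. -/
theorem factorization_GL (r : ℕ) [Fact r.Prime] {n : ℕ} (hrn : n < r) (hrq : ¬ r ∣ Fintype.card F) :
    (Nat.card (GL (Fin n) F)).factorization r =
      (n / orderOf ((Fintype.card F : ℕ) : ZMod r)) * padicValNat r (Fintype.card F ^ orderOf ((Fintype.card F : ℕ) : ZMod r) - 1) := by
  have hq2 : 2 ≤ Fintype.card F := Fintype.one_lt_card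
  rw [Nat.factorization_def _ Fact.out, Matrix.card_GL_field, val_card hq2 hrq, val_sum hq2 hrq hrn]

/-- Sylow subgroups of `GL_n`. -/
theorem sylow_GL {q : ℕ} (hq : Fintype.card F = q) (n : ℕ) (r : ℕ) [Fact r.Prime] (hrn : n < r) (hrq : ¬ r ∣ q)
    (P : Sylow r (GL (Fin n) F)) :
    Nonempty (↥(P : Subgroup (GL (Fin n) F)) ≃*
      (Fin (n / orderOf (q : ZMod r)) →
        Multiplicative (ZMod (r ^ padicValNat r ((Polynomial.cyclotomic (orderOf (q : ZMod r)) ℤ).eval (q : ℤ)).natAbs)))) := by
  classical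
  subst hq
  have hq2 : 2 ≤ Fintype.card F := Fintype.one_lt_card
  rw [val_cyc hq2 hrq]
  set d := orderOf ((Fintype.card F : ℕ) : ZMod r) with hd
  have hd0 : 0 < d := order_pos hrq
  set V := padicValNat r (Fintype.card F ^ d - 1) with hV
  obtain ⟨A, hA, ⟨E⟩⟩ := exists_homocyclic (F := F) (n := n) (k := n / d) (m := r ^ V) hd0 (Nat.mul_div_le n d) pow_padicValNat_dvd
  have hcard : Nat.card A = r ^ (Nat.card (GL (Fin n) F)).factorization r := by
    rw [hA, factorization_GL r hrn hrq, ← hd, ← hV, ← pow_mul, mul_comm]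
  exact ⟨(Sylow.equiv P (Sylow.ofCard A hcard)).trans E⟩

end

end Cfsg.Agent.Lib.Known.SylH
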