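import Cfsg.Agent.Lib.Known.Syl2
import Cfsg.Agent.Lib.Classical.Card

/-!
# Sylow subgroups of `SL_n(q)` for large primes
-/

set_option autoImplicit false
set_option linter.unusedVariables false
set_option linter.unusedSectionVars false
set_option linter.unusedSimpArgs false

namespace Cfsg.Agent.Lib.Known.SylH

open Matrix Cfsg.Agent.Lib.Classical

variable {F : Type*} [Field F] [Fintype F]

/-- The exponent for `SL_n`. -/
theorem factorization_SL (r : ℕ) [Fact r.Prime] {n : ℕ} (hn : 1 ≤ n) :
    (Nat.card (GL (Fin n) F)).factorization r = padicValNat r (Fintype.card F - 1) +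
      (Nat.card (Matrix.SpecialLinearGroup (Fin n) F)).factorization r := by
  classical
  haveI : Nonempty (Fin n) := ⟨⟨0, by omega⟩⟩
  have h1 := card_GL_eq_mul_card_SL (F := F) (Fin n)
  have hq2 : 2 ≤ Fintype.card F := Fintype.one_lt_card
  have hne : Fintype.card F - 1 ≠ 0 := by omega
  have hne2 : Nat.card (Matrix.SpecialLinearGroup (Fin n) F) ≠ 0 := Nat.card_pos.ne'
  rw [h1, Nat.card_eq_fintype_card (α := F), Nat.factorization_mul hne hne2]
  simp [Nat.factorization_def _ (Fact.out : r.Prime)]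

/-- A subgroup of `GL_n` of elements of order dividing `N`, with `N` coprime to `q - 1`, lies in `SL_n`. -/
theorem det_eq_one_of_coprime {n N : ℕ} (hN : Nat.Coprime N (Fintype.card F - 1)) (a : GL (Fin n) F) (ha : a ^ N = 1) :
    (a : Matrix (Fin n) (Fin n) F).det = 1 := by
  have hdet : (a : Matrix (Fin n) (Fin n) F).det ≠ 0 := by
    intro h
    have h3 := a.isUnit.map (Matrix.detMonoidHom (n := Fin n) (R := F))
    rw [Matrix.coe_detMonoidHom, h] at h3
    exact not_isUnit_zero h3
  have h1 : (a : Matrix (Fin n) (Fin n) F).det ^ N = 1 := by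
    rw [← Matrix.det_pow, ← Units.val_pow_eq_pow_val, ha]
    simp
  have h2 := FiniteField.pow_card_sub_one_eq_one _ hdet
  have h3 := pow_gcd_eq_one.2 ⟨h1, h2⟩
  rw [Nat.Coprime.gcd_eq_one hN, pow_one] at h3
  exact h3

/-- The case `d ≥ 2`. -/
theorem sylow_SL_of_ne_one {q : ℕ} (hq : Fintype.card F = q) (n : ℕ) (r : ℕ) [Fact r.Prime] (hrn : n < r) (hrq : ¬ r ∣ q)
    (hd1 : orderOf (q : ZMod r) ≠ 1) (P : Sylow r (Matrix.SpecialLinearGroup (Fin n) F)) :
    Nonempty (↥(P : Subgroup (Matrix.SpecialLinearGroup (Fin n) F)) ≃*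
      (Fin (n / orderOf (q : ZMod r)) →
        Multiplicative (ZMod (r ^ padicValNat r ((Polynomial.cyclotomic (orderOf (q : ZMod r)) ℤ).eval (q : ℤ)).natAbs)))) := by
  classical
  subst hq
  have hq2 : 2 ≤ Fintype.card F := Fintype.one_lt_card
  rw [val_cyc hq2 hrq]
  set d := orderOf ((Fintype.card F : ℕ) : ZMod r) with hd
  have hd0 : 0 < d := order_pos hrq
  set V := padicValNat r (Fintype.card F ^ d - 1) with hV
  by_cases hn : n = 0
  · subst hn
    haveI : Subsingleton (Matrix.SpecialLinearGroup (Fin 0) F) := ⟨fun a b => by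
      apply Subtype.ext
      ext i
      exact i.elim0⟩
    have : (0 / d) = 0 := Nat.zero_div d
    rw [this]
    haveI : Unique ↥(P : Subgroup (Matrix.SpecialLinearGroup (Fin 0) F)) := ⟨⟨1⟩, fun a => by
      apply Subtype.ext
      exact Subsingleton.elim _ _⟩
    exact ⟨MulEquiv.ofUnique⟩
  have hn1 : 1 ≤ n := by omega
  obtain ⟨A, hA, ⟨E⟩⟩ := exists_homocyclic (F := F) (n := n) (k := n / d) (m := r ^ V) hd0 (Nat.mul_div_le n d) pow_padicValNat_dvd
  have hrq1 : ¬ r ∣ Fintype.card F - 1 := by
    have := dvd_iff (r := r) (q := Fintype.card F) (by omega) 1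
    rw [pow_one] at this
    rw [this]
    intro h
    exact hd1 (Nat.dvd_one.1 h)
  -- `A` consists of elements of determinant one
  have hdetA : ∀ a ∈ A, (a : Matrix (Fin n) (Fin n) F).det = 1 := by
    intro a ha
    have h1 : a ^ Nat.card A = 1 := by
      have := congrArg Subtype.val (pow_card_eq_one' (x := (⟨a, ha⟩ : A)))
      simpa only [Subgroup.coe_pow, Subgroup.coe_one] using this
    apply det_eq_one_of_coprime _ a h1
    rw [hA]
    apply Nat.Coprime.pow_left
    apply Nat.Coprime.pow_left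
    exact (Nat.Prime.coprime_iff_not_dvd Fact.out).2 hrq1
  -- lift to `SL_n`
  let ι : Matrix.SpecialLinearGroup (Fin n) F →* GL (Fin n) F := Matrix.SpecialLinearGroup.toGL
  have hι : Function.Injective ι := by
    intro a b h
    apply Subtype.ext
    exact congrArg Units.val h
  let A' : Subgroup (Matrix.SpecialLinearGroup (Fin n) F) := A.comap ι
  have hmap : A'.map ι = A := by
    apply Subgroup.map_comap_eq_self
    intro a ha
    exact ⟨⟨a, hdetA a ha⟩, by
      apply Units.ext
      rfl⟩
  let E' : A' ≃* A := (A'.equivMapOfInjective ι hι).trans (MulEquiv.subgroupCongr hmap)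
  have hcard : Nat.card A' = r ^ (Nat.card (Matrix.SpecialLinearGroup (Fin n) F)).factorization r := by
    rw [Nat.card_congr E'.toEquiv, hA]
    have h1 := factorization_SL (F := F) r hn1
    rw [factorization_GL r hrn hrq, padicValNat.eq_zero_of_not_dvd hrq1, zero_add] at h1
    rw [← h1, ← hd, ← hV, ← pow_mul, mul_comm]
  exact ⟨(Sylow.equiv P (Sylow.ofCard A' hcard)).trans (E'.trans E)⟩

/-- The diagonal entries of the torus of `SL_{n+1}`. -/
noncomputable def diagEnt {n : ℕ} (g : Fin n → Fˣ) : Fin (n + 1) → F :=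
  Fin.snoc (fun j => (g j : F)) (((∏ j, g j)⁻¹ : Fˣ) : F)

theorem diagEnt_prod {n : ℕ} (g : Fin n → Fˣ) : ∏ i, diagEnt g i = 1 := by
  rw [Fin.prod_univ_castSucc]
  simp only [diagEnt, Fin.snoc_castSucc, Fin.snoc_last]
  rw [← Units.coe_prod, ← Units.val_mul, mul_inv_cancel, Units.val_one]

/-- The diagonal torus of `SL_{n+1}`. -/
noncomputable def diagSL {n : ℕ} : (Fin n → Fˣ) →* Matrix.SpecialLinearGroup (Fin (n + 1)) F where
  toFun g := ⟨Matrix.diagonal (diagEnt g), by rw [Matrix.det_diagonal, diagEnt_prod]⟩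
  map_one' := by
    apply Subtype.ext
    ext i j
    refine Fin.lastCases ?_ (fun i => ?_) i <;> simp [diagEnt, Matrix.diagonal_apply, Matrix.one_apply]
  map_mul' g h := by
    apply Subtype.ext
    change Matrix.diagonal (diagEnt (g * h)) = Matrix.diagonal (diagEnt g) * Matrix.diagonal (diagEnt h)
    rw [Matrix.diagonal_mul_diagonal]
    congr 1
    funext i
    refine Fin.lastCases ?_ (fun i => ?_) i
    · simp only [diagEnt, Fin.snoc_last]
      rw [← Units.val_mul]
      congr 1
      simp only [Pi.mul_apply, Finset.prod_mul_distrib, _root_.mul_inv_rev]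
      exact mul_comm _ _
    · simp [diagEnt]

theorem diagSL_injective {n : ℕ} : Function.Injective (diagSL (F := F) (n := n)) := by
  intro g h e
  funext j
  apply Units.ext
  have h1 : Matrix.diagonal (diagEnt g) j.castSucc j.castSucc = Matrix.diagonal (diagEnt h) j.castSucc j.castSucc :=
    congrFun (congrFun (congrArg Subtype.val e) _) _
  simpa [diagEnt] using h1

/-- The case `d = 1`. -/
theorem sylow_SL_of_eq_one {q : ℕ} (hq : Fintype.card F = q) (n : ℕ) (r : ℕ) [Fact r.Prime] (hrn : n + 1 < r) (hrq : ¬ r ∣ q)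
    (hd1 : orderOf (q : ZMod r) = 1) (P : Sylow r (Matrix.SpecialLinearGroup (Fin (n + 1)) F)) :
    Nonempty (↥(P : Subgroup (Matrix.SpecialLinearGroup (Fin (n + 1)) F)) ≃*
      (Fin n →
        Multiplicative (ZMod (r ^ padicValNat r ((Polynomial.cyclotomic (orderOf (q : ZMod r)) ℤ).eval (q : ℤ)).natAbs)))) := by
  classical
  subst hq
  have hq2 : 2 ≤ Fintype.card F := Fintype.one_lt_card
  rw [val_cyc hq2 hrq]
  rw [hd1, pow_one]
  set V := padicValNat r (Fintype.card F - 1) with hV
  have hm : r ^ V ∣ Fintype.card Fˣ := by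
    rw [Fintype.card_units]
    exact pow_padicValNat_dvd
  obtain ⟨g₀, hg₀⟩ := IsCyclic.exists_generator (α := Fˣ)
  have hog : orderOf g₀ = Fintype.card Fˣ := by
    rw [orderOf_eq_card_of_forall_mem_zpowers hg₀, Nat.card_eq_fintype_card]
  obtain ⟨w, hw⟩ := hm
  have hpos : 0 < Fintype.card Fˣ := Fintype.card_pos
  have hw0 : w ≠ 0 := by
    rintro rfl
    omega
  set z := g₀ ^ w with hz
  have hoz : orderOf z = r ^ V := by
    rw [hz, orderOf_pow_of_dvd hw0 (by rw [hog, hw]; exact Dvd.intro_left _ rfl), hog, hw]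
    exact Nat.mul_div_cancel _ (Nat.pos_of_ne_zero hw0)
  set C := Subgroup.zpowers z with hC
  have hcardC : Nat.card C = r ^ V := by
    rw [hC, Nat.card_zpowers, hoz]
  obtain ⟨E⟩ := pi_equiv_of_card (C := C) inferInstance hcardC n
  let κ : (Fin n → C) →* (Fin n → Fˣ) :=
    { toFun := fun f i => (f i : Fˣ)
      map_one' := by
        funext i
        simp
      map_mul' := by
        intro f g
        funext i
        simp }
  let Ψ : (Fin n → C) →* Matrix.SpecialLinearGroup (Fin (n + 1)) F := diagSL.comp κ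
  have hinj : Function.Injective Ψ := by
    intro f g e
    have h1 := diagSL_injective e
    funext i
    exact Subtype.ext (congrFun h1 i)
  have hcard : Nat.card Ψ.range = r ^ (Nat.card (Matrix.SpecialLinearGroup (Fin (n + 1)) F)).factorization r := by
    rw [← Nat.card_congr (MonoidHom.ofInjective hinj).toEquiv, Nat.card_fun, hcardC]
    have h1 := factorization_SL (F := F) (n := n + 1) r (by omega)
    rw [factorization_GL r hrn hrq, hd1, Nat.div_one, pow_one, ← hV] at h1
    have h2 : (Nat.card (Matrix.SpecialLinearGroup (Fin (n + 1)) F)).factorization r = n * V := by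
      have : (n + 1) * V = V + n * V := by ring
      omega
    rw [h2, ← pow_mul, mul_comm]
    simp
  exact ⟨(Sylow.equiv P (Sylow.ofCard Ψ.range hcard)).trans ((MonoidHom.ofInjective hinj).symm.trans E)⟩

/-- Sylow subgroups of `SL_n`. -/
theorem sylow_SL {q : ℕ} (hq : Fintype.card F = q) (n : ℕ)
    (r : ℕ) [Fact r.Prime] (hrn : n < r) (hrq : ¬ r ∣ q) (P : Sylow r (Matrix.SpecialLinearGroup (Fin n) F)) :
    Nonempty (↥(P : Subgroup (Matrix.SpecialLinearGroup (Fin n) F)) ≃*
      (Fin ((Finset.Icc 2 n).filter (fun i => orderOf (q : ZMod r) ∣ i)).card →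
        Multiplicative (ZMod (r ^ padicValNat r ((Polynomial.cyclotomic (orderOf (q : ZMod r)) ℤ).eval (q : ℤ)).natAbs)))) := by
  classical
  by_cases hd1 : orderOf (q : ZMod r) = 1
  · by_cases hn : n = 0
    · subst hn
      have e : (Finset.Icc 2 0).filter (fun i => orderOf (q : ZMod r) ∣ i) = ∅ := by
        ext x
        simp
      rw [e, Finset.card_empty]
      haveI : Subsingleton (Matrix.SpecialLinearGroup (Fin 0) F) := ⟨fun a b => by
        apply Subtype.ext
        ext i
        exact i.elim0⟩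
      haveI : Unique ↥(P : Subgroup (Matrix.SpecialLinearGroup (Fin 0) F)) := ⟨⟨1⟩, fun a => by
        apply Subtype.ext
        exact Subsingleton.elim _ _⟩
      exact ⟨MulEquiv.ofUnique⟩
    · obtain ⟨n', rfl⟩ : ∃ n', n = n' + 1 := ⟨n - 1, by omega⟩
      have e : ((Finset.Icc 2 (n' + 1)).filter (fun i => orderOf (q : ZMod r) ∣ i)).card = n' := by
        rw [hd1]
        simp
      rw [e]
      exact sylow_SL_of_eq_one hq n' r hrn hrq hd1 P
  · have hd0 : 0 < orderOf (q : ZMod r) := order_pos hrq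
    have e : ((Finset.Icc 2 n).filter (fun i => orderOf (q : ZMod r) ∣ i)).card = n / orderOf (q : ZMod r) := by
      rw [← Nat.Ioc_filter_dvd_card_eq_div]
      congr 1
      ext x
      simp only [Finset.mem_filter, Finset.mem_Icc, Finset.mem_Ioc]
      constructor
      · rintro ⟨⟨h1, h2⟩, h3⟩
        exact ⟨⟨by omega, h2⟩, h3⟩
      · rintro ⟨⟨h1, h2⟩, h3⟩
        have := Nat.le_of_dvd h1 h3
        exact ⟨⟨by omega, h2⟩, h3⟩
    rw [e]
    exact sylow_SL_of_ne_one hq n r hrn hrq hd1 P

end Cfsg.Agent.Lib.Known.SylH
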