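import Cfsg.Agent.Lib.Known.Syl2
import Cfsg.Agent.Lib.Embed.Basic
import Cfsg.Agent.Lib.Classical.SpOrder

/-!
# Sylow subgroups of `Sp_{2n}(q)` for large primes
-/

set_option autoImplicit false
set_option linter.unusedVariables false
set_option linter.unusedSectionVars false
set_option linter.unusedSimpArgs false

namespace Cfsg.Agent.Lib.Known.SylH

open Matrix Cfsg.Agent.Lib.ElemOrders Module

section arith

variable {q r : ℕ} [hr : Fact r.Prime]

/-- The geometric sum step, for a multiplier prime to `r`. -/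
theorem val_mult' (hq : 2 ≤ q) (hrq : ¬ r ∣ q) {j : ℕ} (hj : 1 ≤ j) (hjr : ¬ r ∣ j) :
    padicValNat r (q ^ (orderOf (q : ZMod r) * j) - 1) = padicValNat r (q ^ orderOf (q : ZMod r) - 1) := by
  set d := orderOf (q : ZMod r) with hd
  have hd0 : 0 < d := order_pos hrq
  have hqd : 1 < q ^ d := Nat.one_lt_pow (by omega) (by omega)
  obtain ⟨x, hx⟩ : ∃ x, q ^ d = x + 1 := ⟨q ^ d - 1, by omega⟩
  have hx0 : x ≠ 0 := by omega
  have h1 := geom_sum_mul_add x j
  have e1 : q ^ (d * j) - 1 = (∑ i ∈ Finset.range j, (x + 1) ^ i) * x := by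
    rw [pow_mul, hx, ← h1]
    simp
  have e2 : q ^ d - 1 = x := by omega
  rw [e1, e2]
  have hS : ¬ r ∣ ∑ i ∈ Finset.range j, (x + 1) ^ i := by
    rw [← ZMod.natCast_eq_zero_iff]
    push_cast
    have h3 : ((x + 1 : ℕ) : ZMod r) = 1 := by
      rw [← hx]
      push_cast
      exact pow_orderOf_eq_one _
    have h4 : ((x : ZMod r) + 1) = 1 := by exact_mod_cast h3
    rw [h4]
    simp only [one_pow, Finset.sum_const, Finset.card_range, nsmul_eq_mul, mul_one]
    rwa [ZMod.natCast_eq_zero_iff]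
  have hS0 : (∑ i ∈ Finset.range j, (x + 1) ^ i) ≠ 0 := by
    intro h
    rw [h] at hS
    exact hS (dvd_zero _)
  rw [padicValNat.mul hS0 hx0, padicValNat.eq_zero_of_not_dvd hS, zero_add]

/-- The value at an even exponent. -/
theorem val_pow_two (hq : 2 ≤ q) (hrq : ¬ r ∣ q) (hr2 : r ≠ 2) {l : ℕ} (hl : 1 ≤ l) (hlr : l < r) :
    padicValNat r (q ^ (2 * l) - 1) = if orderOf (q : ZMod r) ∣ 2 * l then padicValNat r (q ^ orderOf (q : ZMod r) - 1) else 0 := by
  split_ifs with h
  · obtain ⟨j, hj⟩ := h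
    have hd0 := order_pos hrq
    have hj1 : 1 ≤ j := by
      rcases Nat.eq_zero_or_pos j with h0 | h0
      · subst h0
        simp at hj
        omega
      · exact h0
    have hjr : ¬ r ∣ j := by
      intro hd
      have h1 : r ∣ 2 * l := by
        rw [hj]
        exact hd.mul_left _
      rcases (Nat.Prime.dvd_mul hr.out).1 h1 with h2 | h2
      · have := Nat.le_of_dvd (by norm_num) h2
        have h3 := hr.out.two_le
        omega
      · have := Nat.le_of_dvd (by omega) h2
        omega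
    rw [hj]
    exact val_mult' hq hrq hj1 hjr
  · apply padicValNat.eq_zero_of_not_dvd
    rwa [dvd_iff (by omega)]

/-- The valuation of the order polynomial of `Sp`. -/
theorem val_prod (hq : 2 ≤ q) (hrq : ¬ r ∣ q) (hr2 : r ≠ 2) {n : ℕ} (hnr : n < r) :
    padicValNat r (q ^ (n ^ 2) * ∏ i ∈ Finset.range n, (q ^ (2 * (i + 1)) - 1)) =
      ((Finset.Icc 1 n).filter (fun i => orderOf (q : ZMod r) ∣ 2 * i)).card * padicValNat r (q ^ orderOf (q : ZMod r) - 1) := by
  have hne : ∀ l : ℕ, q ^ (2 * (l + 1)) - 1 ≠ 0 := by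
    intro l
    have : 1 < q ^ (2 * (l + 1)) := Nat.one_lt_pow (by omega) (by omega)
    omega
  have hq0 : q ^ (n ^ 2) ≠ 0 := pow_ne_zero _ (by omega)
  have hprod : ∀ s : Finset ℕ, (∏ i ∈ s, (q ^ (2 * (i + 1)) - 1)) ≠ 0 := fun s =>
    Finset.prod_ne_zero_iff.2 (fun i _ => hne i)
  rw [padicValNat.mul hq0 (hprod _)]
  have h0 : padicValNat r (q ^ (n ^ 2)) = 0 := by
    apply padicValNat.eq_zero_of_not_dvd
    intro h
    exact hrq (hr.out.dvd_of_dvd_pow h)
  rw [h0, zero_add]
  have hval : ∀ (s : Finset ℕ), padicValNat r (∏ i ∈ s, (q ^ (2 * (i + 1)) - 1)) =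
      ∑ i ∈ s, padicValNat r (q ^ (2 * (i + 1)) - 1) := by
    classical
    intro s
    induction s using Finset.induction_on with
    | empty => simp
    | insert a s ha ih =>
      rw [Finset.prod_insert ha, Finset.sum_insert ha, ← ih, padicValNat.mul (hne a) (hprod s)]
  rw [hval]
  have h1 : ∑ i ∈ Finset.range n, padicValNat r (q ^ (2 * (i + 1)) - 1) =
      ∑ i ∈ Finset.Icc 1 n, padicValNat r (q ^ (2 * i) - 1) := by
    rw [Finset.range_eq_Ico, Finset.sum_Ico_add' (fun i => padicValNat r (q ^ (2 * i) - 1)) 0 n 1]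
    rfl
  rw [h1]
  have h2 : ∀ l ∈ Finset.Icc 1 n, padicValNat r (q ^ (2 * l) - 1) =
      if orderOf (q : ZMod r) ∣ 2 * l then padicValNat r (q ^ orderOf (q : ZMod r) - 1) else 0 := by
    intro l hl
    rw [Finset.mem_Icc] at hl
    exact val_pow_two hq hrq hr2 hl.1 (by omega)
  rw [Finset.sum_congr rfl h2, Finset.sum_ite, Finset.sum_const_zero, add_zero, Finset.sum_const, smul_eq_mul]

/-- The count in the odd case. -/
theorem count_odd {d n : ℕ} (hd : 0 < d) (hodd : ¬ 2 ∣ d) :
    ((Finset.Icc 1 n).filter (fun i => d ∣ 2 * i)).card = n / d := by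
  rw [← Nat.Ioc_filter_dvd_card_eq_div]
  congr 1
  ext x
  simp only [Finset.mem_filter, Finset.mem_Icc, Finset.mem_Ioc]
  have hc : Nat.Coprime d 2 := by
    rw [Nat.coprime_comm]
    exact (Nat.Prime.coprime_iff_not_dvd Nat.prime_two).2 hodd
  constructor
  · rintro ⟨⟨h1, h2⟩, h3⟩
    exact ⟨⟨by omega, h2⟩, hc.dvd_of_dvd_mul_left h3⟩
  · rintro ⟨⟨h1, h2⟩, h3⟩
    exact ⟨⟨by omega, h2⟩, h3.mul_left 2⟩

/-- The count in the even case. -/
theorem count_even {e n : ℕ} (he : 0 < e) :
    ((Finset.Icc 1 n).filter (fun i => 2 * e ∣ 2 * i)).card = n / e := by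
  rw [← Nat.Ioc_filter_dvd_card_eq_div]
  congr 1
  ext x
  simp only [Finset.mem_filter, Finset.mem_Icc, Finset.mem_Ioc]
  constructor
  · rintro ⟨⟨h1, h2⟩, h3⟩
    exact ⟨⟨by omega, h2⟩, Nat.dvd_of_mul_dvd_mul_left (by norm_num) h3⟩
  · rintro ⟨⟨h1, h2⟩, h3⟩
    exact ⟨⟨by omega, h2⟩, Nat.mul_dvd_mul_left 2 h3⟩

end arith

section levi

variable {F : Type*} [Field F]

/-- The Levi embedding of `GL_n` in `Sp_{2n}`. -/
noncomputable def leviSp {n : ℕ} : GL (Fin n) F →* ↥(Matrix.symplecticGroup (Fin n) F) where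
  toFun A := ⟨fromBlocks (A : Matrix (Fin n) (Fin n) F) 0 0 (((A⁻¹ : GL (Fin n) F) : Matrix (Fin n) (Fin n) F))ᵀ, by
    rw [SymplecticGroup.mem_iff, Matrix.J, fromBlocks_transpose, fromBlocks_multiply, fromBlocks_multiply]
    have h1 : (A : Matrix (Fin n) (Fin n) F) * ((A⁻¹ : GL (Fin n) F) : Matrix (Fin n) (Fin n) F) = 1 := by
      rw [← Units.val_mul, mul_inv_cancel, Units.val_one]
    have h2 : (((A⁻¹ : GL (Fin n) F) : Matrix (Fin n) (Fin n) F))ᵀ * (A : Matrix (Fin n) (Fin n) F)ᵀ = 1 := by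
      rw [← Matrix.transpose_mul, h1, Matrix.transpose_one]
    have h3 : ((A : Matrix (Fin n) (Fin n) F)⁻¹)ᵀ * (A : Matrix (Fin n) (Fin n) F)ᵀ = 1 := by
      rw [← Matrix.coe_units_inv]
      exact h2
    simp [h1, h2, h3]⟩
  map_one' := by
    apply Subtype.ext
    simp
  map_mul' A B := by
    apply Subtype.ext
    show fromBlocks _ _ _ _ = fromBlocks _ _ _ _ * fromBlocks _ _ _ _
    rw [fromBlocks_multiply]
    simp [_root_.mul_inv_rev, Matrix.transpose_mul]

theorem leviSp_injective {n : ℕ} : Function.Injective (leviSp (F := F) (n := n)) := by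
  intro A B h
  apply Units.ext
  have h1 := congrArg Subtype.val h
  ext i j
  have h2 := congrFun (congrFun h1 (Sum.inl i)) (Sum.inl j)
  simpa [leviSp] using h2

end levi

section torus

variable {F K : Type*} [Field F] [Field K] [Algebra F K] [FiniteDimensional F K]

theorem trace_smul_aux (ω : K) (σ : K ≃ₐ[F] K) (a : F) (x y : K) :
    Algebra.trace F K (ω * (a • x) * σ y) = a * Algebra.trace F K (ω * x * σ y) := by
  have h1 : ω * (a • x) * σ y = a • (ω * x * σ y) := by
    simp only [Algebra.smul_def]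
    ring
  rw [h1, map_smul, smul_eq_mul]

/-- The form on the whole space. -/
noncomputable def spFormK (k c : ℕ) (ω : K) (σ : K ≃ₐ[F] K) :
    LinearMap.BilinForm F ((Fin k → K) × (Fin c ⊕ Fin c → F)) :=
  LinearMap.mk₂ F (fun v w => ∑ j, Algebra.trace F K (ω * v.1 j * σ (w.1 j)) + Cfsg.sympForm c F v.2 w.2)
    (by
      intro a b w
      simp only [Prod.fst_add, Prod.snd_add, Pi.add_apply, mul_add, add_mul, map_add, Finset.sum_add_distrib,
        Cfsg.Agent.Lib.KnownSimple.sympForm_add_left]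
      ring)
    (by
      intro a v w
      simp only [Prod.smul_fst, Prod.smul_snd, Pi.smul_apply, Cfsg.Agent.Lib.KnownSimple.sympForm_smul_left, smul_eq_mul,
        mul_add, Finset.mul_sum, trace_smul_aux])
    (by
      intro a b w
      simp only [Prod.fst_add, Prod.snd_add, Pi.add_apply, mul_add, add_mul, map_add, Finset.sum_add_distrib,
        Cfsg.Agent.Lib.KnownSimple.sympForm_add_right]
      ring)
    (by
      intro a v w
      simp only [Prod.smul_fst, Prod.smul_snd, Pi.smul_apply, Cfsg.Agent.Lib.KnownSimple.sympForm_smul_right, smul_eq_mul,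
        mul_add, Finset.mul_sum]
      congr 1
      apply Finset.sum_congr rfl
      intro j _
      have h1 : ω * v.1 j * σ (a • w.1 j) = a • (ω * v.1 j * σ (w.1 j)) := by
        rw [map_smul]
        simp only [Algebra.smul_def]
        ring
      rw [h1, map_smul, smul_eq_mul])

theorem spFormK_apply (k c : ℕ) (ω : K) (σ : K ≃ₐ[F] K) (v w : (Fin k → K) × (Fin c ⊕ Fin c → F)) :
    spFormK k c ω σ v w = ∑ j, Algebra.trace F K (ω * v.1 j * σ (w.1 j)) + Cfsg.sympForm c F v.2 w.2 := rfl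

/-- The form is alternating. -/
theorem spFormK_alt (k c : ℕ) (a : K) (σ : K ≃ₐ[F] K) (hσ : ∀ x, σ (σ x) = x) :
    (spFormK (F := F) k c (a - σ a) σ).IsAlt := by
  intro v
  rw [spFormK_apply, Cfsg.Agent.Lib.KnownSimple.sympForm_self, add_zero]
  apply Finset.sum_eq_zero
  intro j _
  set x := v.1 j
  have h1 : (a - σ a) * x * σ x = a * (x * σ x) - σ (a * (x * σ x)) := by
    simp only [map_mul, hσ]
    ring
  rw [h1, map_sub, Algebra.trace_eq_of_algEquiv, sub_self]

/-- The form is non-degenerate. -/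
theorem spFormK_nd [Algebra.IsSeparable F K] (k c : ℕ) {ω : K} (hω : ω ≠ 0) (σ : K ≃ₐ[F] K)
    (hnd : ∀ v : Fin c ⊕ Fin c → F, (∀ w, Cfsg.sympForm c F v w = 0) → v = 0)
    (v : (Fin k → K) × (Fin c ⊕ Fin c → F)) (h : ∀ w, spFormK k c ω σ v w = 0) : v = 0 := by
  classical
  apply Prod.ext
  · funext j
    by_contra hne
    have hne' : v.1 j ≠ 0 := hne
    obtain ⟨t, ht⟩ := Algebra.trace_surjective F K 1
    have h1 := h (Pi.single j (σ.symm (t / (ω * v.1 j))), 0)
    rw [spFormK_apply] at h1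
    simp only [Cfsg.Agent.Lib.KnownSimple.sympForm_apply] at h1
    rw [Finset.sum_eq_single j] at h1
    · simp only [Pi.single_eq_same, AlgEquiv.apply_symm_apply, Pi.zero_apply] at h1
      have h2 : ω * v.1 j * (t / (ω * v.1 j)) = t := by
        field_simp
      rw [h2, ht] at h1
      simp at h1
    · intro i _ hi
      simp [Pi.single_eq_of_ne hi]
    · simp
  · apply hnd
    intro w
    have h1 := h (0, w)
    rw [spFormK_apply] at h1
    simpa using h1

/-- The action of the torus. -/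
noncomputable def rhoK (k c : ℕ) : (Fin k → Kˣ) →* (((Fin k → K) × (Fin c ⊕ Fin c → F)) ≃ₗ[F] ((Fin k → K) × (Fin c ⊕ Fin c → F))) where
  toFun f :=
    { toFun := fun v => (fun j => (f j : K) * v.1 j, v.2)
      invFun := fun v => (fun j => ((f j)⁻¹ : Kˣ) * v.1 j, v.2)
      map_add' := fun v w => by
        apply Prod.ext
        · funext j
          simp [mul_add]
        · rfl
      map_smul' := fun a v => by
        apply Prod.ext
        · funext j
          simp [Algebra.smul_def]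
          ring
        · rfl
      left_inv := fun v => by
        apply Prod.ext
        · funext j
          simp
        · rfl
      right_inv := fun v => by
        apply Prod.ext
        · funext j
          simp
        · rfl }
  map_one' := by
    ext v
    all_goals simp
  map_mul' f g := by
    ext v
    all_goals simp [mul_assoc]

@[simp] theorem rhoK_apply (k c : ℕ) (f : Fin k → Kˣ) (v : (Fin k → K) × (Fin c ⊕ Fin c → F)) :
    rhoK k c f v = (fun j => (f j : K) * v.1 j, v.2) := rfl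

theorem rhoK_injective (k c : ℕ) : Function.Injective (rhoK (F := F) (K := K) k c) := by
  classical
  intro f g h
  funext j
  apply Units.ext
  have h1 := congrArg (fun e => (e ((fun _ => 1 : Fin k → K), (0 : Fin c ⊕ Fin c → F))).1 j) h
  simpa using h1

theorem rhoK_inv (k c : ℕ) (ω : K) (σ : K ≃ₐ[F] K) (f : Fin k → Kˣ) (hf : ∀ j, (f j : K) * σ (f j) = 1)
    (v w : (Fin k → K) × (Fin c ⊕ Fin c → F)) :
    spFormK k c ω σ (rhoK k c f v) (rhoK k c f w) = spFormK k c ω σ v w := by
  rw [spFormK_apply, spFormK_apply]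
  congr 1
  apply Finset.sum_congr rfl
  intro j _
  simp only [rhoK_apply, map_mul]
  congr 1
  calc ω * ((f j : K) * v.1 j) * (σ (f j) * σ (w.1 j)) = ((f j : K) * σ (f j)) * (ω * v.1 j * σ (w.1 j)) := by ring
    _ = _ := by rw [hf, one_mul]

end torus

section sp

variable {F : Type*} [Field F] [Fintype F]

theorem sympForm_nd (c : ℕ) (v : Fin c ⊕ Fin c → F) (h : ∀ w, Cfsg.sympForm c F v w = 0) : v = 0 := by
  classical
  funext s
  rcases s with i | i
  · have h1 := h (Pi.single (Sum.inr i) 1)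
    rw [Cfsg.Agent.Lib.KnownSimple.sympForm_apply] at h1
    rw [Finset.sum_eq_single i] at h1
    · simpa using h1
    · intro b _ hb
      simp [Pi.single_apply, hb]
    · simp
  · have h1 := h (Pi.single (Sum.inl i) 1)
    rw [Cfsg.Agent.Lib.KnownSimple.sympForm_apply] at h1
    rw [Finset.sum_eq_single i] at h1
    · simpa using h1
    · intro b _ hb
      simp [Pi.single_apply, hb]
    · simp

/-- A homocyclic subgroup of `Sp`, from the norm-one tori. -/
theorem exists_sp_torus {e k n m : ℕ} (he : 1 ≤ e) (hn : e * k ≤ n) (hm : m ∣ Fintype.card F ^ e + 1) :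
    ∃ A : Subgroup ↥(Matrix.symplecticGroup (Fin n) F), Nat.card A = m ^ k ∧
      Nonempty (A ≃* (Fin k → Multiplicative (ZMod m))) := by
  classical
  obtain ⟨p, hp⟩ := CharP.exists F
  haveI : Fact p.Prime := ⟨CharP.char_is_prime F p⟩
  obtain ⟨K, _, _, _, hfr, hcard⟩ := exists_field_ext (F := F) p (2 * e) (by omega)
  haveI : FiniteDimensional F K := Module.finite_of_finrank_pos (by omega)
  set q := Fintype.card F with hq
  have hq2 : 2 ≤ q := Fintype.one_lt_card
  let φ : K ≃ₐ[F] K := FiniteField.frobeniusAlgEquivOfAlgebraic F K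
  let σ : K ≃ₐ[F] K := φ ^ e
  have hσ : ∀ x, σ x = x ^ (q ^ e) := by
    have hrec : ∀ (l : ℕ) (x : K), (φ ^ l) x = x ^ (q ^ l) := by
      intro l
      induction l with
      | zero => simp
      | succ l ih =>
        intro x
        rw [pow_succ, AlgEquiv.mul_apply, ih]
        show (x ^ q) ^ (q ^ l) = _
        rw [← pow_mul, ← pow_succ']
    exact hrec e
  have hσσ : ∀ x, σ (σ x) = x := by
    intro x
    rw [hσ, hσ, ← pow_mul, ← pow_add, ← two_mul, ← hcard, FiniteField.pow_card]
  obtain ⟨g, hg⟩ := IsCyclic.exists_generator (α := Kˣ)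
  have hog : orderOf g = q ^ (2 * e) - 1 := by
    rw [orderOf_eq_card_of_forall_mem_zpowers hg, Nat.card_eq_fintype_card, Fintype.card_units, hcard]
  have hqe : 1 < q ^ e := Nat.one_lt_pow (by omega) (by omega)
  have hfac : q ^ (2 * e) - 1 = (q ^ e - 1) * (q ^ e + 1) := by
    obtain ⟨y, hy⟩ : ∃ y, q ^ e = y + 1 := ⟨q ^ e - 1, by omega⟩
    rw [two_mul, pow_add, hy]
    simp only [Nat.add_sub_cancel]
    have : (y + 1) * (y + 1) = y * (y + 1 + 1) + 1 := by ring
    omega
  -- the element `ω`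
  obtain ⟨a, ha⟩ : ∃ a : K, σ a ≠ a := by
    refine ⟨(g : K), ?_⟩
    intro h
    rw [hσ] at h
    have h1 : g ^ (q ^ e - 1) = 1 := by
      apply Units.ext
      have hne : (g : K) ≠ 0 := g.ne_zero
      have h2 : (g : K) ^ (q ^ e - 1) * g = 1 * g := by
        rw [← pow_succ, Nat.sub_add_cancel (by omega), h, one_mul]
      simpa using mul_right_cancel₀ hne h2
    have h2 := orderOf_dvd_of_pow_eq_one h1
    rw [hog, hfac] at h2
    have h3 := Nat.le_of_dvd (by omega) h2
    have h4 : (q ^ e - 1) * 2 ≤ (q ^ e - 1) * (q ^ e + 1) := Nat.mul_le_mul_left _ (by omega)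
    omega
  set ω : K := a - σ a with hω
  have hω0 : ω ≠ 0 := by
    rw [hω, sub_ne_zero]
    exact ha.symm
  -- the cyclic group
  have hmdvd : m ∣ orderOf g := by
    rw [hog, hfac]
    exact hm.mul_left _
  obtain ⟨w, hw⟩ := hmdvd
  have hpos : 0 < orderOf g := by
    rw [hog, hfac]
    exact Nat.mul_pos (by omega) (by omega)
  have hw0 : w ≠ 0 := by
    rintro rfl
    omega
  have hm0 : m ≠ 0 := by
    rintro rfl
    omega
  set t := g ^ w with ht
  have hot : orderOf t = m := by
    rw [ht, orderOf_pow_of_dvd hw0 (by rw [hw]; exact Dvd.intro_left _ rfl), hw]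
    exact Nat.mul_div_cancel _ (Nat.pos_of_ne_zero hw0)
  set C := Subgroup.zpowers t with hC
  have hcardC : Nat.card C = m := by
    rw [hC, Nat.card_zpowers, hot]
  obtain ⟨E⟩ := pi_equiv_of_card (C := C) inferInstance hcardC k
  have hCnorm : ∀ u ∈ C, (u : K) * σ u = 1 := by
    intro u hu
    obtain ⟨z, rfl⟩ := Subgroup.mem_zpowers_iff.1 hu
    have h1 : t ^ (q ^ e + 1) = 1 := by
      rw [← orderOf_dvd_iff_pow_eq_one, hot]
      exact hm
    have h2 : (t ^ z) ^ (q ^ e + 1) = 1 := by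
      rw [← zpow_natCast, ← _root_.zpow_mul, mul_comm, _root_.zpow_mul, zpow_natCast, h1, _root_.one_zpow]
    rw [hσ]
    have h3 := congrArg (Units.val) h2
    simp only [Units.val_pow_eq_pow_val, Units.val_one] at h3
    rw [← h3, pow_succ']
  -- the embedding
  set c := n - e * k with hc
  let κ : (Fin k → C) →* (Fin k → Kˣ) :=
    { toFun := fun f i => (f i : Kˣ)
      map_one' := by
        funext i
        simp
      map_mul' := by
        intro f g
        funext i
        simp }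
  have hκ : Function.Injective κ := by
    intro f g h
    funext i
    exact Subtype.ext (congrFun h i)
  let ρ : (Fin k → C) →* (((Fin k → K) × (Fin c ⊕ Fin c → F)) ≃ₗ[F] ((Fin k → K) × (Fin c ⊕ Fin c → F))) :=
    (rhoK k c).comp κ
  have hρ : Function.Injective ρ := (rhoK_injective k c).comp hκ
  set B := spFormK (F := F) k c ω σ with hB
  have hdim : finrank F ((Fin k → K) × (Fin c ⊕ Fin c → F)) = 2 * n := by
    rw [Module.finrank_prod, Module.finrank_pi_fintype, Module.finrank_fintype_fun_eq_card]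
    simp only [Finset.sum_const, Finset.card_univ, Fintype.card_fin, smul_eq_mul, hfr, Fintype.card_sum]
    have : e * k + c = n := by omega
    nlinarith
  obtain ⟨Ψ, hΨ⟩ := Cfsg.Agent.Lib.Embed.exists_sp_equiv (F := F) B (spFormK_alt k c a σ hσσ)
    (spFormK_nd k c hω0 σ (sympForm_nd c)) hdim
  obtain ⟨φ', hφ'⟩ := Cfsg.Agent.Lib.Embed.exists_sp_embed ρ hρ Ψ (fun u v => B u v) hΨ (by
    intro f u v
    exact rhoK_inv k c ω σ (κ f) (fun j => hCnorm _ (f j).2) u v)
  refine ⟨φ'.range, ?_, ⟨(MonoidHom.ofInjective hφ').symm.trans E⟩⟩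
  rw [← Nat.card_congr (MonoidHom.ofInjective hφ').toEquiv, Nat.card_fun, hcardC]
  simp

/-- Sylow subgroups of `Sp`. -/
theorem sylow_Sp {q : ℕ} (hq : Fintype.card F = q) (n : ℕ)
    (r : ℕ) [Fact r.Prime] (hr2 : r ≠ 2) (hrn : n < r) (hrq : ¬ r ∣ q) (P : Sylow r ↥(Matrix.symplecticGroup (Fin n) F)) :
    Nonempty (↥(P : Subgroup ↥(Matrix.symplecticGroup (Fin n) F)) ≃*
      (Fin ((Finset.Icc 1 n).filter (fun i => orderOf (q : ZMod r) ∣ 2 * i)).card →
        Multiplicative (ZMod (r ^ padicValNat r ((Polynomial.cyclotomic (orderOf (q : ZMod r)) ℤ).eval (q : ℤ)).natAbs)))) := by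
  classical
  have hq2 : 2 ≤ q := by
    rw [← hq]
    exact Fintype.one_lt_card
  rw [val_cyc hq2 hrq]
  have hfact : (Nat.card ↥(Matrix.symplecticGroup (Fin n) F)).factorization r =
      ((Finset.Icc 1 n).filter (fun i => orderOf (q : ZMod r) ∣ 2 * i)).card * padicValNat r (q ^ orderOf (q : ZMod r) - 1) := by
    rw [Nat.factorization_def _ Fact.out, Cfsg.Agent.Lib.Classical.card_sp hq n, val_prod hq2 hrq hr2 hrn]
  set d := orderOf (q : ZMod r) with hd
  have hd0 : 0 < d := order_pos hrq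
  set V := padicValNat r (q ^ d - 1) with hV
  -- reduce to a subgroup of the correct size
  suffices hA : ∃ A : Subgroup ↥(Matrix.symplecticGroup (Fin n) F),
      Nat.card A = (r ^ V) ^ ((Finset.Icc 1 n).filter (fun i => d ∣ 2 * i)).card ∧
      Nonempty (A ≃* (Fin ((Finset.Icc 1 n).filter (fun i => d ∣ 2 * i)).card → Multiplicative (ZMod (r ^ V)))) by
    obtain ⟨A, hA, ⟨E⟩⟩ := hA
    have hcard : Nat.card A = r ^ (Nat.card ↥(Matrix.symplecticGroup (Fin n) F)).factorization r := by
      rw [hA, hfact, ← pow_mul, mul_comm]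
    exact ⟨(Sylow.equiv P (Sylow.ofCard A hcard)).trans E⟩
  by_cases h2 : 2 ∣ d
  · obtain ⟨e, he⟩ := h2
    have he0 : 1 ≤ e := by omega
    rw [he, count_even (by omega)]
    apply exists_sp_torus he0 (Nat.mul_div_le n e)
    rw [hq]
    have hqe : 1 < q ^ e := Nat.one_lt_pow (by omega) (by omega)
    have hfac : q ^ (2 * e) - 1 = (q ^ e - 1) * (q ^ e + 1) := by
      obtain ⟨y, hy⟩ : ∃ y, q ^ e = y + 1 := ⟨q ^ e - 1, by omega⟩
      rw [two_mul, pow_add, hy]
      simp only [Nat.add_sub_cancel]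
      have : (y + 1) * (y + 1) = y * (y + 1 + 1) + 1 := by ring
      omega
    have h3 : r ^ V ∣ (q ^ e - 1) * (q ^ e + 1) := by
      rw [← hfac, ← he]
      exact pow_padicValNat_dvd
    have h4 : ¬ r ∣ q ^ e - 1 := by
      rw [dvd_iff (by omega), ← hd, he]
      intro h5
      have := Nat.le_of_dvd (by omega) h5
      omega
    exact Nat.Coprime.dvd_of_dvd_mul_left
      (Nat.Coprime.pow_left _ ((Nat.Prime.coprime_iff_not_dvd Fact.out).2 h4)) h3
  · rw [count_odd hd0 h2]
    obtain ⟨A, hA, ⟨E⟩⟩ := exists_homocyclic (F := F) (n := n) (k := n / d) (m := r ^ V) hd0 (Nat.mul_div_le n d)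
      (by rw [hq]; exact pow_padicValNat_dvd)
    refine ⟨A.map leviSp, ?_, ⟨(A.equivMapOfInjective leviSp leviSp_injective).symm.trans E⟩⟩
    rw [← Nat.card_congr (A.equivMapOfInjective leviSp leviSp_injective).toEquiv, hA]

end sp

end Cfsg.Agent.Lib.Known.SylH
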